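import Cfsg.Agent.Lib.Helper22.Defect

/-!
# Piece KU-SPAN for S4648 (helper35)

For a `p`-regular element `g₀`, the indicator of its conjugacy class on `p`-regular elements is
a combination of the irreducible characters with coefficients in the local ring:
`c χ = |C|⁻¹ ∑_{u ∈ D} conj (χ (u g₀))`, `C = C_G(g₀)`, `D` a Sylow `p`-subgroup of `C`.
-/

set_option autoImplicit false

namespace Cfsg.Agent.Lib.Helper35.Kuls

open Cfsg Cfsg.Agent.Lib.Helper21 Cfsg.Agent.Lib.Helper22
open scoped ComplexConjugate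

theorem isIntegral_conj_of {z : ℂ} (hz : IsIntegral ℤ z) : IsIntegral ℤ (conj z) := by
  obtain ⟨f, hf, hfz⟩ := hz
  refine ⟨f, hf, ?_⟩
  have h1 : Polynomial.eval₂ (algebraMap ℤ ℂ) (conj z) f =
      conj (Polynomial.eval₂ (algebraMap ℤ ℂ) z f) := by
    rw [Polynomial.eval₂_eq_sum_range, Polynomial.eval₂_eq_sum_range, map_sum]
    refine Finset.sum_congr rfl fun i _ => ?_
    rw [map_mul, map_pow]
    congr 1
    simp
  rw [h1, hfz, map_zero]

open scoped Classical in
/-- SPAN -/
theorem kuls_span {G : Type*} [Group G] [Finite G] {p : ℕ} [Fact p.Prime] {M : Ideal AlgInt}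
    (hM : IsPModular p M) (g₀ : G) (hg₀ : IsPRegular p g₀) :
    ∃ c : IrrCharacter G → ℂ, (∀ χ, MemLocalRing M (c χ)) ∧
      ∀ g : G, IsPRegular p g →
        ∑ᶠ χ : IrrCharacter G, c χ * (χ : G → ℂ) g = if IsConj g g₀ then 1 else 0 := by
  classical
  let _ := Fintype.ofFinite G
  have : Finite (IrrCharacter G) := Helper4.irr_finite
  let _ := Fintype.ofFinite (IrrCharacter G)
  have hp : p.Prime := Fact.out
  set C := Subgroup.centralizer ({g₀} : Set G) with hC
  obtain P : Sylow p C := default
  set D : Subgroup G := (P : Subgroup C).map C.subtype with hD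
  have hDC : ∀ y ∈ D, y * g₀ = g₀ * y := by
    intro y hy
    rw [hD, Subgroup.mem_map] at hy
    obtain ⟨x, -, rfl⟩ := hy
    have := Subgroup.mem_centralizer_iff.mp x.2
    exact (this g₀ (Set.mem_singleton _)).symm
  have hDp : IsPGroup p D := P.2.map C.subtype
  have hcardD : Nat.card D = Nat.card (P : Subgroup C) :=
    Subgroup.card_map_of_injective C.subtype_injective
  have hm : ¬ p ∣ (P : Subgroup C).index := P.not_dvd_index
  have hcard : Nat.card C = Nat.card D * (P : Subgroup C).index := by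
    rw [hcardD, Subgroup.card_mul_index]
  set m := (P : Subgroup C).index with hmdef
  have hD0 : (Nat.card D : ℂ) ≠ 0 := by
    have : 0 < Nat.card D := Nat.card_pos
    exact_mod_cast this.ne'
  have hm0 : (m : ℂ) ≠ 0 := by
    intro h0
    have : m = 0 := by exact_mod_cast h0
    exact hm (this ▸ dvd_zero p)
  have hC0 : (Nat.card C : ℂ) ≠ 0 := by
    rw [hcard]; push_cast; exact mul_ne_zero hD0 hm0
  refine ⟨fun χ => (Nat.card C : ℂ)⁻¹ * ∑ y : D, conj ((χ : G → ℂ) ((y : G) * g₀)), ?_, ?_⟩
  · intro χ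
    obtain ⟨n, ρ, -, hρ⟩ := χ.2
    obtain ⟨z, hz, hsum⟩ := sum_char_mul_eq ρ D g₀ (orderOf_pos g₀) hDC
    rw [hρ] at hsum
    have h1 : (Nat.card C : ℂ)⁻¹ * ∑ y : D, conj ((χ : G → ℂ) ((y : G) * g₀)) =
        (m : ℂ)⁻¹ * conj z := by
      rw [← map_sum, hsum, map_mul, Complex.conj_natCast, hcard]
      push_cast
      field_simp
    show MemLocalRing M ((Nat.card C : ℂ)⁻¹ * ∑ y : D, conj ((χ : G → ℂ) ((y : G) * g₀)))
    rw [h1]
    exact locRing_mul hM (locRing_inv_natCast hM hm) (locRing_of_isIntegral hM (isIntegral_conj_of hz))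
  · intro g hg
    have key : ∀ y : D, ∑ χ : IrrCharacter G,
        conj ((χ : G → ℂ) ((y : G) * g₀)) * (χ : G → ℂ) g =
        if y = 1 then (if IsConj g g₀ then (Nat.card C : ℂ) else 0) else 0 := by
      intro y
      have h1 := congrArg conj (Helper4.col_orth ((y : G) * g₀) g)
      rw [map_sum] at h1
      simp only [map_mul, Complex.conj_conj] at h1
      rw [h1]
      by_cases hy : y = 1
      · rw [if_pos hy, hy]
        simp only [OneMemClass.coe_one, one_mul]
        by_cases hc : IsConj g g₀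
        · rw [if_pos hc, if_pos hc.symm, Complex.conj_natCast]
        · rw [if_neg hc, if_neg (fun h => hc h.symm), map_zero]
      · rw [if_neg hy, if_neg, map_zero]
        intro hconj
        apply hy
        obtain ⟨c, hc⟩ := isConj_iff.mp hconj
        have ho : orderOf ((y : G) * g₀) = orderOf g := by
          rw [← hc]
          exact (MulEquiv.orderOf_eq (MulAut.conj c) ((y : G) * g₀)).symm
        obtain ⟨k, hk⟩ := (IsPGroup.iff_orderOf.mp hDp) y
        rw [← Subgroup.orderOf_coe] at hk
        have hcop : (orderOf (y : G)).Coprime (orderOf g₀) := by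
          rw [hk]
          exact Nat.Coprime.pow_left k ((Nat.Prime.coprime_iff_not_dvd hp).mpr hg₀)
        have hmul := Commute.orderOf_mul_eq_mul_orderOf_of_coprime (hDC y y.2) hcop
        have hk0 : k = 0 := by
          by_contra hk0
          apply hg
          rw [← ho, hmul, hk]
          exact Dvd.dvd.mul_right (dvd_pow_self p hk0) _
        rw [hk0, pow_zero, orderOf_eq_one_iff] at hk
        exact Subtype.ext hk
    rw [finsum_eq_sum_of_fintype]
    have h2 : ∑ χ : IrrCharacter G, ((Nat.card C : ℂ)⁻¹ *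
          ∑ y : D, conj ((χ : G → ℂ) ((y : G) * g₀))) * (χ : G → ℂ) g =
        (Nat.card C : ℂ)⁻¹ * ∑ y : D, ∑ χ : IrrCharacter G,
          conj ((χ : G → ℂ) ((y : G) * g₀)) * (χ : G → ℂ) g := by
      rw [Finset.sum_comm, Finset.mul_sum]
      refine Finset.sum_congr rfl fun χ _ => ?_
      rw [mul_assoc, Finset.sum_mul]
    rw [h2, Finset.sum_congr rfl (fun y _ => key y), Finset.sum_ite_eq' Finset.univ (1 : D)]
    simp only [Finset.mem_univ, if_true]
    split_ifs with hc
    · exact inv_mul_cancel₀ hC0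
    · rw [mul_zero]

end Cfsg.Agent.Lib.Helper35.Kuls
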