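import Cfsg.Agent.Lib.Helper30.NSub0

/-!
# Piece FG2 for S5121: `Aut_E(T)` is generated by a Sylow `p`-subgroup and the `p'`-elements
-/

set_option autoImplicit false

namespace Cfsg.Agent.Lib.Helper35

open Cfsg Cfsg.FusionSystem Cfsg.Agent.Lib.Helper90 Cfsg.Agent.Lib.Helper30

/-- the subgroup generated by the `p'`-elements is normal -/
theorem nsub_pprime_normal {K : Type*} [Group K] (p : ℕ) :
    (Subgroup.closure {k : K | (orderOf k).Coprime p}).Normal := by
  have h : Subgroup.closure {k : K | (orderOf k).Coprime p} =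
      Subgroup.normalClosure {k : K | (orderOf k).Coprime p} := by
    apply le_antisymm Subgroup.closure_le_normalClosure
    unfold Subgroup.normalClosure
    apply Subgroup.closure_mono
    intro x hx
    rw [Group.mem_conjugatesOfSet_iff] at hx
    obtain ⟨a, ha, hax⟩ := hx
    obtain ⟨c, rfl⟩ := isConj_iff.mp hax
    show (orderOf (c * a * c⁻¹)).Coprime p
    have h2 : orderOf (c * a * c⁻¹) = orderOf a := MulEquiv.orderOf_eq (MulAut.conj c) a
    rw [h2]
    exact ha
  rw [h]
  exact Subgroup.normalClosure_normal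

/-- a finite group is generated by a Sylow `p`-subgroup and its `p'`-elements -/
theorem nsub_sylow_sup_pprime {K : Type*} [Group K] [Finite K] {p : ℕ} [hp : Fact p.Prime]
    (P : Sylow p K) :
    (P : Subgroup K) ⊔ Subgroup.closure {k : K | (orderOf k).Coprime p} = ⊤ := by
  have hN := nsub_pprime_normal (K := K) p
  set N : Subgroup K := Subgroup.closure {k : K | (orderOf k).Coprime p} with hNdef
  have hquot : IsPGroup p (K ⧸ N) := by
    intro x
    obtain ⟨k, rfl⟩ := QuotientGroup.mk_surjective x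
    have hk : 0 < orderOf k := orderOf_pos k
    obtain ⟨e, m, hm, hkm⟩ := Nat.exists_eq_pow_mul_and_not_dvd hk.ne' p hp.out.ne_one
    refine ⟨e, ?_⟩
    rw [← QuotientGroup.mk_pow, QuotientGroup.eq_one_iff]
    apply Subgroup.subset_closure
    show (orderOf (k ^ p ^ e)).Coprime p
    have h1 : orderOf (k ^ p ^ e) = m := by
      rw [orderOf_pow' k (pow_ne_zero e hp.out.ne_zero), hkm,
        Nat.gcd_eq_right (Dvd.intro _ rfl), Nat.mul_div_cancel_left _ (pow_pos hp.out.pos e)]
    rw [h1]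
    exact (Nat.Coprime.symm ((Nat.Prime.coprime_iff_not_dvd hp.out).mpr hm))
  obtain ⟨n, hn⟩ := IsPGroup.iff_card.mp hquot
  have hidx : N.index = p ^ n := by
    rw [Subgroup.index, hn]
  have h1 : ((P : Subgroup K) ⊔ N).index ∣ (P : Subgroup K).index :=
    Subgroup.index_dvd_of_le le_sup_left
  have h2 : ((P : Subgroup K) ⊔ N).index ∣ N.index := Subgroup.index_dvd_of_le le_sup_right
  rw [hidx] at h2
  have h3 : ¬ p ∣ (P : Subgroup K).index := P.not_dvd_index
  have h4 : ((P : Subgroup K) ⊔ N).index = 1 := by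
    obtain ⟨j, -, hj⟩ := (Nat.dvd_prime_pow hp.out).mp h2
    rcases Nat.eq_zero_or_pos j with h0 | h0
    · rw [hj, h0, pow_zero]
    · exfalso
      apply h3
      rw [hj] at h1
      exact (dvd_pow_self p h0.ne').trans h1
  exact Subgroup.index_eq_one.mp h4

/-- the automorphisms of `T` induced by conjugation by elements of a subgroup -/
def nsubIndSub {G : Type*} [Group G] (T H : Subgroup G) : Subgroup (MulAut T) where
  carrier := {α | ∃ h ∈ H, ∀ t : T, ((α t : T) : G) = h * t * h⁻¹}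
  one_mem' := ⟨1, H.one_mem, fun t => by simp⟩
  mul_mem' := by
    rintro α β ⟨a, ha, hα⟩ ⟨b, hb, hβ⟩
    refine ⟨a * b, H.mul_mem ha hb, fun t => ?_⟩
    show ((α (β t) : T) : G) = _
    rw [hα, hβ]
    group
  inv_mem' := by
    rintro α ⟨a, ha, hα⟩
    refine ⟨a⁻¹, H.inv_mem ha, fun t => ?_⟩
    have h := hα (α⁻¹ t)
    rw [MulAut.apply_inv_self] at h
    rw [h]
    group

theorem nsub_fg2 {G : Type*} [Group G] [Finite G] {p : ℕ} [Fact p.Prime] (S : Sylow p G)
    {T : Subgroup G} (hTS : T ≤ S) (E : FusionSystem T) (hEs : E.IsSaturated p)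
    (W : Set G)
    (h1 : ∀ α ∈ E.autGroup T, (orderOf α).Coprime p → ∃ x ∈ W,
      ∀ t : T, ((α t : T) : G) = x * t * x⁻¹) :
    ∀ y ∈ autStab E T le_rfl, ∃ h ∈ T ⊔ Subgroup.closure W,
      ∀ t ∈ T, y * t * y⁻¹ = h * t * h⁻¹ := by
  obtain ⟨-, R, hR⟩ := (top_fullyAutomized_receptive hEs).1
  have hgen := nsub_sylow_sup_pprime R
  have hle : E.autGroup T ≤ nsubIndSub T (T ⊔ Subgroup.closure W) := by
    rw [← Subgroup.subgroupOf_eq_top, ← top_le_iff, ← hgen]
    apply sup_le
    · rw [hR]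
      intro k hk
      rw [Subgroup.mem_subgroupOf] at hk ⊢
      obtain ⟨a, ha, hα⟩ := (mem_autInducedBy_iff T T _).mp hk
      exact ⟨a, Subgroup.mem_sup_left ha, hα⟩
    · rw [Subgroup.closure_le]
      intro k hk
      have hk' : (orderOf k).Coprime p := hk
      rw [← Subgroup.orderOf_coe] at hk'
      obtain ⟨x, hx, hα⟩ := h1 k k.2 hk'
      show (k : MulAut T) ∈ nsubIndSub T (T ⊔ Subgroup.closure W)
      exact ⟨x, Subgroup.mem_sup_right (Subgroup.subset_closure hx), hα⟩
  intro y hy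
  obtain ⟨α, hα, hαy⟩ := exists_aut_of_mem_autStab hy
  obtain ⟨h, hh, hαh⟩ := hle hα
  refine ⟨h, hh, fun t ht => ?_⟩
  rw [← hαy ⟨t, ht⟩, hαh ⟨t, ht⟩]

end Cfsg.Agent.Lib.Helper35
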