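import Mathlib
import Cfsg.Agent.Lib.Helper61.BlkDefs

/-!
# S5634, blocks of dimension at least 2 (helper61's project), piece B (helper35)
-/

set_option autoImplicit false

namespace Cfsg.Agent.Lib.Helper61.Blk

open Matrix Cfsg.Agent.Lib.Helper97

section
variable {ι : Type} [Fintype ι] [DecidableEq ι] {F : Type*} [Field F] {t : ℕ}

namespace BlkBaux

omit [Fintype ι] in
lemma inB_single (β : ι → Fin t) (j : ι) (a : F) : InB β (β j) (a • (Pi.single j (1 : F) : ι → F)) := by
  intro i hi
  have hij : i ≠ j := fun h => hi (by rw [h])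
  simp [Pi.single_eq_of_ne hij]

omit [Fintype ι] [DecidableEq ι] in
lemma inB_add (β : ι → Fin t) (l : Fin t) {v w : ι → F} (hv : InB β l v) (hw : InB β l w) :
    InB β l (v + w) := fun i hi => by rw [Pi.add_apply, hv i hi, hw i hi, add_zero]

omit [Fintype ι] [DecidableEq ι] in
lemma inB_sub (β : ι → Fin t) (l : Fin t) {v w : ι → F} (hv : InB β l v) (hw : InB β l w) :
    InB β l (v - w) := fun i hi => by rw [Pi.sub_apply, hv i hi, hw i hi, sub_zero]

omit [Fintype ι] [DecidableEq ι] in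
lemma inB_smul (β : ι → Fin t) (l : Fin t) (a : F) {v : ι → F} (hv : InB β l v) :
    InB β l (a • v) := fun i hi => by rw [Pi.smul_apply, hv i hi, smul_zero]

omit [DecidableEq ι] in
/-- a functional supported on fibre `l` kills a vector vanishing on fibre `l` -/
lemma dot_zero (β : ι → Fin t) (l : Fin t) {ψ c : ι → F} (hψ : InB β l ψ)
    (hc : ¬ Hit β l c) : ψ ⬝ᵥ c = 0 := by
  unfold dotProduct
  refine Finset.sum_eq_zero fun i _ => ?_
  by_cases hi : β i = l
  · have : c i = 0 := by
      by_contra h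
      exact hc ⟨i, hi, h⟩
    rw [this, mul_zero]
  · rw [hψ i hi, zero_mul]

end BlkBaux

open BlkBaux in
/-- B -/
theorem stepB (β : ι → Fin t) (hf : Fib2 β) {X : Subgroup (GL ι F)} (hBT : BT β X)
    {c φ : ι → F} (h : TM X c φ) (l : Fin t) (hc : ¬ Hit β l c) (hφ : Hit β l φ) :
    ∀ ψ : ι → F, InB β l ψ → TM X c ψ := by
  -- (*)
  have star : ∀ u ψ : ι → F, InB β l u → InB β l ψ → ψ ⬝ᵥ u = 0 → TM X c ((φ ⬝ᵥ u) • ψ) := by
    intro u ψ hu hψ h0
    have hb : TM X u ψ := hBT l u ψ hu hψ h0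
    have h1 := TM_conj_tv h hb
    rw [dot_zero β l hψ hc, zero_smul, add_zero] at h1
    have h2 := TM_sub h h1
    rwa [sub_sub_cancel] at h2
  obtain ⟨j0, hj0, hφ0⟩ := hφ
  -- basis functionals at j1 ≠ j0
  have hne : ∀ j1 : ι, j1 ≠ j0 → β j1 = l → ∀ a : F, TM X c (a • (Pi.single j1 (1 : F) : ι → F)) := by
    intro j1 hj1 hβ1 a
    have hu : InB β l ((φ j0)⁻¹ • (Pi.single j0 (1 : F) : ι → F)) := by
      have := inB_single (F := F) β j0 (φ j0)⁻¹
      rwa [hj0] at this
    have hψ : InB β l (a • (Pi.single j1 (1 : F) : ι → F)) := by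
      have := inB_single (F := F) β j1 a
      rwa [hβ1] at this
    have h0 : (a • (Pi.single j1 (1 : F) : ι → F)) ⬝ᵥ ((φ j0)⁻¹ • (Pi.single j0 (1 : F) : ι → F)) = 0 := by
      simp [Pi.single_eq_of_ne hj1.symm]
    have := star _ _ hu hψ h0
    have e : φ ⬝ᵥ ((φ j0)⁻¹ • (Pi.single j0 (1 : F) : ι → F)) = 1 := by
      simp [inv_mul_cancel₀ hφ0]
    rwa [e, one_smul] at this
  -- the basis functional at j0
  have hj0' : ∀ a : F, TM X c (a • (Pi.single j0 (1 : F) : ι → F)) := by
    intro a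
    obtain ⟨j1, hj1, hβ1⟩ := hf.other j0
    rw [hj0] at hβ1
    by_cases hφ1 : φ j1 = 0
    · have hu : InB β l ((φ j0)⁻¹ • ((Pi.single j0 (1 : F) : ι → F) + (Pi.single j1 (1 : F) : ι → F))) := by
        apply inB_smul
        apply inB_add
        · have := inB_single (F := F) β j0 1
          rwa [hj0, one_smul] at this
        · have := inB_single (F := F) β j1 1
          rwa [hβ1, one_smul] at this
      have hψ : InB β l (a • ((Pi.single j0 (1 : F) : ι → F) - (Pi.single j1 (1 : F) : ι → F))) := by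
        apply inB_smul
        apply inB_sub
        · have := inB_single (F := F) β j0 1
          rwa [hj0, one_smul] at this
        · have := inB_single (F := F) β j1 1
          rwa [hβ1, one_smul] at this
      have h0 : (a • ((Pi.single j0 (1 : F) : ι → F) - (Pi.single j1 (1 : F) : ι → F))) ⬝ᵥ
          ((φ j0)⁻¹ • ((Pi.single j0 (1 : F) : ι → F) + (Pi.single j1 (1 : F) : ι → F))) = 0 := by
        simp [dotProduct_add, Pi.single_eq_of_ne hj1, Pi.single_eq_of_ne hj1.symm]
      have h3 := star _ _ hu hψ h0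
      have e : φ ⬝ᵥ ((φ j0)⁻¹ • ((Pi.single j0 (1 : F) : ι → F) + (Pi.single j1 (1 : F) : ι → F))) = 1 := by
        simp [dotProduct_add, hφ1, inv_mul_cancel₀ hφ0]
      rw [e, one_smul] at h3
      have h4 := TM_add h3 (hne j1 hj1 hβ1 a)
      have e2 : a • ((Pi.single j0 (1 : F) : ι → F) - (Pi.single j1 (1 : F) : ι → F)) + a • (Pi.single j1 (1 : F) : ι → F)
          = a • (Pi.single j0 (1 : F) : ι → F) := by
        rw [smul_sub, sub_add_cancel]
      rwa [e2] at h4
    · have hu : InB β l ((φ j1)⁻¹ • (Pi.single j1 (1 : F) : ι → F)) := by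
        have := inB_single (F := F) β j1 (φ j1)⁻¹
        rwa [hβ1] at this
      have hψ : InB β l (a • (Pi.single j0 (1 : F) : ι → F)) := by
        have := inB_single (F := F) β j0 a
        rwa [hj0] at this
      have h0 : (a • (Pi.single j0 (1 : F) : ι → F)) ⬝ᵥ ((φ j1)⁻¹ • (Pi.single j1 (1 : F) : ι → F)) = 0 := by
        simp [Pi.single_eq_of_ne hj1]
      have := star _ _ hu hψ h0
      have e : φ ⬝ᵥ ((φ j1)⁻¹ • (Pi.single j1 (1 : F) : ι → F)) = 1 := by
        simp [inv_mul_cancel₀ hφ1]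
      rwa [e, one_smul] at this
  -- all basis functionals of the fibre
  have hall : ∀ j : ι, β j = l → ∀ a : F, TM X c (a • (Pi.single j (1 : F) : ι → F)) := by
    intro j hj a
    by_cases hjj : j = j0
    · rw [hjj]; exact hj0' a
    · exact hne j hjj hj a
  intro ψ hψ
  have e : ψ = ∑ j, ψ j • (Pi.single j (1 : F) : ι → F) := by
    funext i
    simp [Finset.sum_apply, Pi.single_apply]
  rw [e]
  apply TM_sum
  intro j _
  by_cases hj : β j = l
  · exact hall j hj (ψ j)
  · rw [hψ j hj, zero_smul]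
    exact TM_zero_right X c

end

end Cfsg.Agent.Lib.Helper61.Blk
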