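import Cfsg.Prelude.Def_OddOrderChar
import Mathlib

set_option autoImplicit false

namespace Cfsg.Agent.Lib.Helper35

open scoped ComplexConjugate
open Classical

section Dade

variable {G : Type*} [Group G]

theorem sup_decomp (Hb Q : Subgroup G)
    (hnorm : ∀ q ∈ Q, ∀ h ∈ Hb, q * h * q⁻¹ ∈ Hb) (c : G) (hc : c ∈ Hb ⊔ Q) :
    ∃ h ∈ Hb, ∃ q ∈ Q, c = h * q := by
  rw [Subgroup.sup_eq_closure_mul] at hc
  induction hc using Subgroup.closure_induction with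
  | mem x hx =>
    obtain ⟨h, hh, q, hq, rfl⟩ := Set.mem_mul.mp hx
    exact ⟨h, hh, q, hq, rfl⟩
  | one => exact ⟨1, Hb.one_mem, 1, Q.one_mem, by simp⟩
  | mul x y _ _ hx hy =>
    obtain ⟨h₁, hh₁, q₁, hq₁, rfl⟩ := hx
    obtain ⟨h₂, hh₂, q₂, hq₂, rfl⟩ := hy
    refine ⟨h₁ * (q₁ * h₂ * q₁⁻¹), Hb.mul_mem hh₁ (hnorm q₁ hq₁ h₂ hh₂), q₁ * q₂, Q.mul_mem hq₁ hq₂, ?_⟩
    group
  | inv x _ hx =>
    obtain ⟨h, hh, q, hq, rfl⟩ := hx
    refine ⟨q⁻¹ * h⁻¹ * q⁻¹⁻¹, hnorm q⁻¹ (Q.inv_mem hq) h⁻¹ (Hb.inv_mem hh), q⁻¹, Q.inv_mem hq, ?_⟩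
    group

theorem mem_of_coprime_sup [Finite G] (Hb Q : Subgroup G)
    (hnorm : ∀ q ∈ Q, ∀ h ∈ Hb, q * h * q⁻¹ ∈ Hb) (hinf : Hb ⊓ Q = ⊥) (c : G) (hc : c ∈ Hb ⊔ Q)
    (hcop : Nat.Coprime (orderOf c) (Nat.card Q)) : c ∈ Hb := by
  obtain ⟨h, hh, q, hq, rfl⟩ := sup_decomp Hb Q hnorm c hc
  have hpow : ∀ n : ℕ, ∃ h' ∈ Hb, (h * q) ^ n = h' * q ^ n := by
    intro n
    induction n with
    | zero => exact ⟨1, Hb.one_mem, by simp⟩
    | succ n ih =>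
      obtain ⟨h', hh', he⟩ := ih
      refine ⟨h' * (q ^ n * h * (q ^ n)⁻¹), Hb.mul_mem hh' (hnorm _ (Q.pow_mem hq n) h hh), ?_⟩
      rw [pow_succ, he, pow_succ]
      group
  obtain ⟨h', hh', he⟩ := hpow (orderOf (h * q))
  rw [pow_orderOf_eq_one] at he
  have hq1 : q ^ orderOf (h * q) ∈ Hb ⊓ Q := by
    refine Subgroup.mem_inf.mpr ⟨?_, Q.pow_mem hq _⟩
    have : q ^ orderOf (h * q) = h'⁻¹ := by
      rw [eq_inv_iff_mul_eq_one]
      have h5 : h'⁻¹ * (h' * q ^ orderOf (h * q)) * h' = h'⁻¹ * 1 * h' := by rw [← he]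
      simpa [mul_assoc] using h5
    rw [this]
    exact Hb.inv_mem hh'
  rw [hinf, Subgroup.mem_bot] at hq1
  have hd1 : orderOf q ∣ orderOf (h * q) := orderOf_dvd_of_pow_eq_one hq1
  have hd2 : orderOf q ∣ Nat.card Q := Subgroup.orderOf_dvd_natCard Q hq
  have : orderOf q = 1 := Nat.eq_one_of_dvd_coprimes hcop hd1 hd2
  rw [orderOf_eq_one_iff] at this
  rw [this, mul_one]
  exact hh

variable [Finite G] (A : Set G) (L : Subgroup G) (H : G → Subgroup G)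
  (hD : Cfsg.DadeHypothesis A L H)

include hD

omit [Finite G] in
theorem dade_commute (a : G) (ha : a ∈ A) (u : G) (hu : u ∈ H a) : Commute a u := by
  have := hD.le_centralizer a ha hu
  rw [Subgroup.mem_centralizer_iff] at this
  exact this a (Set.mem_singleton a)

theorem dade_pow_trick (a b : G) (ha : a ∈ A) (hb : b ∈ A) (u v : G)
    (hu : u ∈ H a) (hv : v ∈ H b) :
    ∃ k : ℕ, (a * u) ^ k = a ∧ (b * v) ^ k = b ∧ a ^ k = a ∧ b ^ k = b := by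
  have hordL : ∀ c ∈ A, orderOf c ∣ Nat.card ↥(L ⊓ Subgroup.centralizer ({c} : Set G)) := by
    intro c hc
    have hmem : c ∈ L ⊓ Subgroup.centralizer ({c} : Set G) := by
      refine Subgroup.mem_inf.mpr ⟨hD.subset hc, ?_⟩
      rw [Subgroup.mem_centralizer_iff]
      intro h hh
      rw [Set.mem_singleton_iff] at hh
      rw [hh]
    exact Subgroup.orderOf_dvd_natCard (L ⊓ Subgroup.centralizer ({c} : Set G)) hmem
  have hordH : ∀ c : G, ∀ w ∈ H c, orderOf w ∣ Nat.card ↥(H c) := by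
    intro c w hw
    exact Subgroup.orderOf_dvd_natCard (H c) hw
  set M := Nat.card ↥(H a) * Nat.card ↥(H b) with hM
  set N := Nat.card ↥(L ⊓ Subgroup.centralizer ({a} : Set G)) *
    Nat.card ↥(L ⊓ Subgroup.centralizer ({b} : Set G)) with hN
  have hcop : Nat.Coprime M N := by
    rw [hM, hN]
    apply Nat.Coprime.mul_left
    · exact Nat.Coprime.mul_right (hD.coprime a ha a ha) (hD.coprime a ha b hb)
    · exact Nat.Coprime.mul_right (hD.coprime b hb a ha) (hD.coprime b hb b hb)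
  obtain ⟨k, hk0, hk1⟩ := Nat.chineseRemainder hcop 0 1
  have hdvdM : M ∣ k := (Nat.modEq_zero_iff_dvd).mp hk0
  have hpow1 : ∀ c ∈ A, orderOf c ∣ N → c ^ k = c := by
    intro c hc hdvd
    have h1 : k ≡ 1 [MOD orderOf c] := hk1.of_dvd hdvd
    have := (pow_eq_pow_iff_modEq (x := c)).mpr h1
    simpa using this
  have hpow0 : ∀ w : G, orderOf w ∣ M → w ^ k = 1 := by
    intro w hw
    exact orderOf_dvd_iff_pow_eq_one.mp (hw.trans hdvdM)
  have hak : a ^ k = a := hpow1 a ha ((hordL a ha).trans (Dvd.intro _ rfl))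
  have hbk : b ^ k = b := hpow1 b hb ((hordL b hb).trans (Dvd.intro_left _ rfl))
  have huk : u ^ k = 1 := hpow0 u ((hordH a u hu).trans (Dvd.intro _ rfl))
  have hvk : v ^ k = 1 := hpow0 v ((hordH b v hv).trans (Dvd.intro_left _ rfl))
  refine ⟨k, ?_, ?_, hak, hbk⟩
  · rw [(dade_commute A L H hD a ha u hu).mul_pow, hak, huk, mul_one]
  · rw [(dade_commute A L H hD b hb v hv).mul_pow, hbk, hvk, mul_one]

theorem dade_conj_eq (a b : G) (ha : a ∈ A) (hb : b ∈ A) (u v : G)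
    (hu : u ∈ H a) (hv : v ∈ H b) (g : G) (hg : g * (a * u) * g⁻¹ = b * v) :
    g * a * g⁻¹ = b ∧ g * u * g⁻¹ = v := by
  obtain ⟨k, hk1, hk2, -, -⟩ := dade_pow_trick A L H hD a b ha hb u v hu hv
  have h3 : g * a * g⁻¹ = b := by
    have : (g * (a * u) * g⁻¹) ^ k = (b * v) ^ k := by rw [hg]
    rw [conj_pow, hk1, hk2] at this
    exact this
  refine ⟨h3, ?_⟩
  have h4 : g * (a * u) * g⁻¹ = (g * a * g⁻¹) * (g * u * g⁻¹) := by group
  rw [h4, h3] at hg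
  exact mul_left_cancel hg

theorem dade_fusion (a b : G) (ha : a ∈ A) (hb : b ∈ A) (u v : G)
    (hu : u ∈ H a) (hv : v ∈ H b) (g : G) (hg : g * (a * u) * g⁻¹ = b * v) :
    ∃ x ∈ L, x * a * x⁻¹ = b := by
  have h3 := (dade_conj_eq A L H hD a b ha hb u v hu hv g hg).1
  obtain ⟨x, hx, hxa⟩ := hD.fusion a ha g (h3 ▸ hb)
  exact ⟨x, hx, hxa.trans h3⟩

theorem dade_conj_le (a : G) (ha : a ∈ A) (x : G) (hx : x ∈ L) :
    (H a).map (MulAut.conj x).toMonoidHom ≤ H (x * a * x⁻¹) := by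
  have hb : x * a * x⁻¹ ∈ A := hD.conj_mem x hx a ha
  rintro w ⟨u, hu, rfl⟩
  simp only [MulEquiv.toMonoidHom_eq_coe, MonoidHom.coe_coe, MulAut.conj_apply]
  set b := x * a * x⁻¹ with hbdef
  have hwC : x * u * x⁻¹ ∈ Subgroup.centralizer ({b} : Set G) := by
    have huC := hD.le_centralizer a ha hu
    rw [Subgroup.mem_centralizer_iff] at huC ⊢
    intro h hh
    rw [Set.mem_singleton_iff] at hh
    subst hh
    have := huC a (Set.mem_singleton a)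
    calc x * a * x⁻¹ * (x * u * x⁻¹) = x * (a * u) * x⁻¹ := by group
      _ = x * (u * a) * x⁻¹ := by rw [this]
      _ = x * u * x⁻¹ * (x * a * x⁻¹) := by group
  apply mem_of_coprime_sup (H b) (L ⊓ Subgroup.centralizer ({b} : Set G))
  · intro q hq h hh
    exact hD.conj_mem_H b hb q (Subgroup.mem_inf.mp hq).2 h hh
  · exact hD.inf_eq_bot b hb
  · rw [hD.sup_eq b hb]
    exact hwC
  · have h1 : orderOf (x * u * x⁻¹) = orderOf u := by
      have := MulEquiv.orderOf_eq (MulAut.conj x) u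
      simpa [MulAut.conj_apply] using this
    rw [h1]
    exact Nat.Coprime.coprime_dvd_left (Subgroup.orderOf_dvd_natCard (H a) hu) (hD.coprime a ha b hb)

theorem dade_H_conj (a : G) (ha : a ∈ A) (x : G) (hx : x ∈ L) :
    H (x * a * x⁻¹) = (H a).map (MulAut.conj x).toMonoidHom := by
  apply le_antisymm _ (dade_conj_le A L H hD a ha x hx)
  have hb : x * a * x⁻¹ ∈ A := hD.conj_mem x hx a ha
  have h2 := dade_conj_le A L H hD (x * a * x⁻¹) hb x⁻¹ (L.inv_mem hx)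
  have h3 : x⁻¹ * (x * a * x⁻¹) * x⁻¹⁻¹ = a := by group
  rw [h3] at h2
  intro w hw
  refine ⟨x⁻¹ * w * x, ?_, ?_⟩
  · apply h2
    refine ⟨w, hw, ?_⟩
    simp
  · simp only [MulEquiv.toMonoidHom_eq_coe, MonoidHom.coe_coe, MulAut.conj_apply]
    group

theorem dade_mem_H_conj (a : G) (ha : a ∈ A) (x : G) (hx : x ∈ L) (u : G) (hu : u ∈ H a) :
    x * u * x⁻¹ ∈ H (x * a * x⁻¹) := by
  rw [dade_H_conj A L H hD a ha x hx]
  exact ⟨u, hu, by simp⟩

theorem dade_card_H_conj (a : G) (ha : a ∈ A) (x : G) (hx : x ∈ L) :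
    Nat.card (H (x * a * x⁻¹)) = Nat.card (H a) := by
  rw [dade_H_conj A L H hD a ha x hx]
  exact Subgroup.card_map_of_injective (MulAut.conj x).injective

end Dade

section DadeCount

variable {G : Type*} [Group G] [Fintype G] (A : Set G) (L : Subgroup G) [Fintype L]
  (H : G → Subgroup G) (hD : Cfsg.DadeHypothesis A L H)

include hD

omit [Fintype L] in
theorem dade_apply_of_witness (w : L → ℂ) (hw : Cfsg.IsClassFunction L w) (g : G) (a : L)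
    (ha : (a : G) ∈ A) (x u : G) (hu : u ∈ H a) (hx : x * g * x⁻¹ = a * u) :
    Cfsg.dadeIsometry A L H w g = w a := by
  have hS : ∃ a : L, (a : G) ∈ A ∧ ∃ x : G, ∃ u ∈ H (a : G), x * g * x⁻¹ = (a : G) * u :=
    ⟨a, ha, x, u, hu, hx⟩
  unfold Cfsg.dadeIsometry
  rw [dif_pos hS]
  obtain ⟨ha', x', u', hu', hx'⟩ := Classical.choose_spec hS
  set a' := Classical.choose hS
  have hconj : (x * x'⁻¹) * ((a' : G) * u') * (x * x'⁻¹)⁻¹ = (a : G) * u := by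
    rw [← hx', ← hx]; group
  obtain ⟨l, hl, hla⟩ := dade_fusion A L H hD a' a ha' ha u' u hu' hu _ hconj
  have : a = ⟨l, hl⟩ * a' * ⟨l, hl⟩⁻¹ := Subtype.ext (by simp [hla])
  rw [this, hw]

theorem dade_isClassFunction (w : L → ℂ) (hw : Cfsg.IsClassFunction L w) :
    Cfsg.IsClassFunction G (Cfsg.dadeIsometry A L H w) := by
  intro g h
  by_cases hS : ∃ a : L, (a : G) ∈ A ∧ ∃ x : G, ∃ u ∈ H (a : G), x * g * x⁻¹ = (a : G) * u
  · obtain ⟨a, ha, x, u, hu, hx⟩ := hS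
    rw [dade_apply_of_witness A L H hD w hw g a ha x u hu hx]
    exact dade_apply_of_witness A L H hD w hw (h * g * h⁻¹) a ha (x * h⁻¹) u hu
      (by rw [← hx]; group)
  · have hS' : ¬ ∃ a : L, (a : G) ∈ A ∧ ∃ x : G, ∃ u ∈ H (a : G),
        x * (h * g * h⁻¹) * x⁻¹ = (a : G) * u := by
      rintro ⟨a, ha, x, u, hu, hx⟩
      exact hS ⟨a, ha, x * h, u, hu, by rw [← hx]; group⟩
    unfold Cfsg.dadeIsometry
    rw [dif_neg hS, dif_neg hS']

theorem dade_fiber_sum (w : L → ℂ) (hw : Cfsg.IsClassFunction L w) (g : G) :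
    ∑ p : L × G × G, (if (p.1 : G) ∈ A ∧ p.2.1 ∈ H p.1 ∧ p.2.2 * g * p.2.2⁻¹ = p.1 * p.2.1
      then w p.1 * (Nat.card (H p.1) : ℂ)⁻¹ else 0) =
      (Nat.card L : ℂ) * Cfsg.dadeIsometry A L H w g := by
  by_cases hS : ∃ a : L, (a : G) ∈ A ∧ ∃ x : G, ∃ u ∈ H (a : G), x * g * x⁻¹ = (a : G) * u
  · obtain ⟨a₀, ha₀, x₀, u₀, hu₀, hx₀⟩ := hS
    rw [dade_apply_of_witness A L H hD w hw g a₀ ha₀ x₀ u₀ hu₀ hx₀]
    let _ : Fintype (H (a₀ : G)) := Fintype.ofFinite _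
    have hcard : (Nat.card (H (a₀ : G)) : ℂ) ≠ 0 := by
      exact_mod_cast (Nat.card_pos (α := H (a₀ : G))).ne'
    have hsum : ∑ _q : L × H (a₀ : G), w a₀ * (Nat.card (H (a₀ : G)) : ℂ)⁻¹ =
        (Nat.card L : ℂ) * w a₀ := by
      rw [Finset.sum_const, Finset.card_univ, Fintype.card_prod, nsmul_eq_mul,
        ← Nat.card_eq_fintype_card, ← Nat.card_eq_fintype_card]
      push_cast
      field_simp
    have hval : ∀ l : L, w (l * a₀ * l⁻¹) * (Nat.card (H ((l * a₀ * l⁻¹ : L) : G)) : ℂ)⁻¹ =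
        w a₀ * (Nat.card (H (a₀ : G)) : ℂ)⁻¹ := by
      intro l
      rw [hw]
      have : ((l * a₀ * l⁻¹ : L) : G) = (l : G) * a₀ * (l : G)⁻¹ := by simp
      rw [this, dade_card_H_conj A L H hD a₀ ha₀ l l.2]
    rw [← hsum]
    symm
    apply Finset.sum_bij_ne_zero (fun (q : L × H (a₀ : G)) _ _ =>
      ((q.1 * a₀ * q.1⁻¹ : L), (q.1 : G) * ((q.2 : G) * u₀ * (q.2 : G)⁻¹) * (q.1 : G)⁻¹,
        (q.1 : G) * (q.2 : G) * x₀))
    · intro a _ _
      exact Finset.mem_univ _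
    · rintro ⟨l, h⟩ _ _ ⟨l', h'⟩ _ _ heq
      simp only [Prod.mk.injEq] at heq
      obtain ⟨-, -, h3⟩ := heq
      have h4 : (l : G) * h = l' * h' := mul_right_cancel h3
      have hz : (l' : G)⁻¹ * l = (h' : G) * (h : G)⁻¹ := by
        calc (l' : G)⁻¹ * l = (l' : G)⁻¹ * ((l : G) * h) * (h : G)⁻¹ := by group
          _ = (l' : G)⁻¹ * ((l' : G) * h') * (h : G)⁻¹ := by rw [h4]
          _ = (h' : G) * (h : G)⁻¹ := by group
      have hzH : (l' : G)⁻¹ * l ∈ H (a₀ : G) := by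
        rw [hz]; exact (H (a₀ : G)).mul_mem h'.2 ((H (a₀ : G)).inv_mem h.2)
      have hzmem : (l' : G)⁻¹ * l ∈ H (a₀ : G) ⊓ (L ⊓ Subgroup.centralizer ({(a₀ : G)} : Set G)) :=
        Subgroup.mem_inf.mpr ⟨hzH, Subgroup.mem_inf.mpr
          ⟨L.mul_mem (L.inv_mem l'.2) l.2, hD.le_centralizer a₀ ha₀ hzH⟩⟩
      rw [hD.inf_eq_bot a₀ ha₀, Subgroup.mem_bot] at hzmem
      have hl : (l : G) = l' := by
        have := inv_mul_eq_one.mp hzmem
        exact this.symm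
      have hh : (h : G) = h' := by
        rw [hzmem] at hz
        have := (mul_inv_eq_one.mp hz.symm)
        exact this.symm
      exact Prod.ext (Subtype.ext hl) (Subtype.ext hh)
    · rintro ⟨a, u, x⟩ _ hne
      have hc : (a : G) ∈ A ∧ u ∈ H a ∧ x * g * x⁻¹ = a * u := by
        by_contra hc
        exact hne (if_neg hc)
      obtain ⟨haA, huH, hxg⟩ := hc
      have hy : (x * x₀⁻¹) * ((a₀ : G) * u₀) * (x * x₀⁻¹)⁻¹ = (a : G) * u := by
        rw [← hx₀, ← hxg]; group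
      obtain ⟨hya, hyu⟩ := dade_conj_eq A L H hD a₀ a ha₀ haA u₀ u hu₀ huH _ hy
      obtain ⟨l₁, hl₁, hl₁a⟩ := hD.fusion a₀ ha₀ (x * x₀⁻¹) (hya ▸ haA)
      have hcC : (l₁⁻¹ * (x * x₀⁻¹))⁻¹ ∈ Subgroup.centralizer ({(a₀ : G)} : Set G) := by
        apply Subgroup.inv_mem
        rw [Subgroup.mem_centralizer_iff]
        intro h hh
        rw [Set.mem_singleton_iff] at hh
        subst hh
        have h2 : l₁⁻¹ * ((x * x₀⁻¹) * (a₀ : G) * (x * x₀⁻¹)⁻¹) * l₁ = a₀ := by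
          rw [← hl₁a]; group
        calc (a₀ : G) * (l₁⁻¹ * (x * x₀⁻¹))
            = (l₁⁻¹ * ((x * x₀⁻¹) * (a₀ : G) * (x * x₀⁻¹)⁻¹) * l₁) * (l₁⁻¹ * (x * x₀⁻¹)) := by
              rw [h2]
          _ = l₁⁻¹ * (x * x₀⁻¹) * a₀ := by group
      rw [← hD.sup_eq a₀ ha₀] at hcC
      obtain ⟨h', hh', q', hq', hcq⟩ := sup_decomp (H (a₀ : G))
        (L ⊓ Subgroup.centralizer ({(a₀ : G)} : Set G))
        (fun q hq h hh => hD.conj_mem_H a₀ ha₀ q (Subgroup.mem_inf.mp hq).2 h hh) _ hcC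
      have hyeq : x * x₀⁻¹ = l₁ * q'⁻¹ * h'⁻¹ := by
        have : l₁⁻¹ * (x * x₀⁻¹) = q'⁻¹ * h'⁻¹ := by
          rw [← mul_inv_rev, ← hcq, inv_inv]
        calc x * x₀⁻¹ = l₁ * (l₁⁻¹ * (x * x₀⁻¹)) := by group
          _ = l₁ * q'⁻¹ * h'⁻¹ := by rw [this]; group
      have hq'L : q' ∈ L := (Subgroup.mem_inf.mp hq').1
      have hcomm : Commute (a₀ : G) h' := dade_commute A L H hD a₀ ha₀ h' hh'
      have hne' : w a * (Nat.card (H (a : G)) : ℂ)⁻¹ ≠ 0 := by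
        rwa [if_pos ⟨haA, huH, hxg⟩] at hne
      have hconj1 : h'⁻¹ * (a₀ : G) * h' = a₀ := by
        rw [mul_assoc, hcomm.eq, ← mul_assoc, inv_mul_cancel, one_mul]
      have haeq : a = (⟨l₁ * q'⁻¹, L.mul_mem hl₁ (L.inv_mem hq'L)⟩ : L) * a₀ *
          (⟨l₁ * q'⁻¹, L.mul_mem hl₁ (L.inv_mem hq'L)⟩ : L)⁻¹ := by
        apply Subtype.ext
        simp only [Subgroup.coe_mul, Subgroup.coe_inv]
        rw [← hya, hyeq]
        calc l₁ * q'⁻¹ * h'⁻¹ * (a₀ : G) * (l₁ * q'⁻¹ * h'⁻¹)⁻¹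
            = l₁ * q'⁻¹ * (h'⁻¹ * (a₀ : G) * h') * (l₁ * q'⁻¹)⁻¹ := by group
          _ = l₁ * q'⁻¹ * (a₀ : G) * (l₁ * q'⁻¹)⁻¹ := by rw [hconj1]
      refine ⟨(⟨l₁ * q'⁻¹, L.mul_mem hl₁ (L.inv_mem hq'L)⟩, ⟨h'⁻¹, (H (a₀ : G)).inv_mem hh'⟩),
        Finset.mem_univ _, ?_, ?_⟩
      · rw [← hval ⟨l₁ * q'⁻¹, L.mul_mem hl₁ (L.inv_mem hq'L)⟩, ← haeq]
        exact hne'
      · refine Prod.ext haeq.symm (Prod.ext ?_ ?_)
        · simp only
          rw [← hyu, hyeq]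
          group
        · simp only
          calc l₁ * q'⁻¹ * h'⁻¹ * x₀ = (x * x₀⁻¹) * x₀ := by rw [hyeq]
            _ = x := by group
    · rintro ⟨l, h⟩ _ _
      have c1 : ((l * a₀ * l⁻¹ : L) : G) ∈ A := by
        have := hD.conj_mem l l.2 a₀ ha₀
        simpa using this
      have c2 : (l : G) * ((h : G) * u₀ * (h : G)⁻¹) * (l : G)⁻¹ ∈ H ((l * a₀ * l⁻¹ : L) : G) := by
        have := dade_mem_H_conj A L H hD a₀ ha₀ l l.2 ((h : G) * u₀ * (h : G)⁻¹)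
          ((H (a₀ : G)).mul_mem ((H (a₀ : G)).mul_mem h.2 hu₀) ((H (a₀ : G)).inv_mem h.2))
        simpa using this
      have c3 : ((l : G) * (h : G) * x₀) * g * ((l : G) * (h : G) * x₀)⁻¹ =
          ((l * a₀ * l⁻¹ : L) : G) * ((l : G) * ((h : G) * u₀ * (h : G)⁻¹) * (l : G)⁻¹) := by
        have hcm := (dade_commute A L H hD a₀ ha₀ h h.2).eq
        simp only [Subgroup.coe_mul, Subgroup.coe_inv]
        calc ((l : G) * (h : G) * x₀) * g * ((l : G) * (h : G) * x₀)⁻¹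
            = (l : G) * h * (x₀ * g * x₀⁻¹) * (h : G)⁻¹ * (l : G)⁻¹ := by group
          _ = (l : G) * h * ((a₀ : G) * u₀) * (h : G)⁻¹ * (l : G)⁻¹ := by rw [hx₀]
          _ = (l : G) * ((h : G) * (a₀ : G)) * u₀ * (h : G)⁻¹ * (l : G)⁻¹ := by group
          _ = (l : G) * ((a₀ : G) * (h : G)) * u₀ * (h : G)⁻¹ * (l : G)⁻¹ := by rw [hcm]
          _ = (l : G) * (a₀ : G) * (l : G)⁻¹ * ((l : G) * ((h : G) * u₀ * (h : G)⁻¹) * (l : G)⁻¹) := by
            group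
      dsimp only
      rw [if_pos ⟨c1, c2, c3⟩]
      exact (hval l).symm
  · rw [Finset.sum_eq_zero]
    · unfold Cfsg.dadeIsometry
      rw [dif_neg hS, mul_zero]
    · intro p _
      rw [if_neg]
      rintro ⟨h1, h2, h3⟩
      exact hS ⟨p.1, h1, p.2.2, p.2.1, h2, h3⟩

theorem dade_main (w : L → ℂ) (hw : Cfsg.IsClassFunction L w) (f : G → ℂ) :
    (Nat.card L : ℂ) * ∑ g : G, Cfsg.dadeIsometry A L H w g * f g =
      ∑ p : L × G × G, (if (p.1 : G) ∈ A ∧ p.2.1 ∈ H p.1 then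
        w p.1 * (Nat.card (H p.1) : ℂ)⁻¹ * f (p.2.2⁻¹ * (p.1 * p.2.1) * p.2.2) else 0) := by
  rw [Finset.mul_sum]
  have key : ∀ g : G, (Nat.card L : ℂ) * (Cfsg.dadeIsometry A L H w g * f g) =
      ∑ p : L × G × G, (if (p.1 : G) ∈ A ∧ p.2.1 ∈ H p.1 ∧ p.2.2 * g * p.2.2⁻¹ = p.1 * p.2.1
        then w p.1 * (Nat.card (H p.1) : ℂ)⁻¹ else 0) * f g := by
    intro g
    rw [← Finset.sum_mul, dade_fiber_sum A L H hD w hw g, mul_assoc]
  simp_rw [key]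
  rw [Finset.sum_comm]
  refine Finset.sum_congr rfl fun p _ => ?_
  rw [Finset.sum_eq_single (p.2.2⁻¹ * (p.1 * p.2.1) * p.2.2)]
  · by_cases hc : (p.1 : G) ∈ A ∧ p.2.1 ∈ H p.1
    · rw [if_pos ⟨hc.1, hc.2, by group⟩, if_pos hc]
    · rw [if_neg (fun h => hc ⟨h.1, h.2.1⟩), if_neg hc, zero_mul]
  · intro g _ hg
    rw [if_neg, zero_mul]
    rintro ⟨-, -, h3⟩
    apply hg
    rw [← h3]; group
  · intro h; exact absurd (Finset.mem_univ _) h

theorem dade_main_class (w : L → ℂ) (hw : Cfsg.IsClassFunction L w) (f : G → ℂ)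
    (hf : ∀ g x : G, f (x⁻¹ * g * x) = f g) :
    (Nat.card L : ℂ) * ∑ g : G, Cfsg.dadeIsometry A L H w g * f g =
      (Nat.card G : ℂ) * ∑ a : L, (if (a : G) ∈ A then
        w a * (Nat.card (H a) : ℂ)⁻¹ * ∑ u : G, (if u ∈ H a then f (a * u) else 0) else 0) := by
  rw [dade_main A L H hD w hw f]
  have h1 : ∀ (a : L) (u x : G), (if (a : G) ∈ A ∧ u ∈ H a then
      w a * (Nat.card (H a) : ℂ)⁻¹ * f (x⁻¹ * (a * u) * x) else 0) =
      (if (a : G) ∈ A then w a * (Nat.card (H a) : ℂ)⁻¹ * (if u ∈ H a then f (a * u) else 0)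
        else 0) := by
    intro a u x
    rw [hf]
    by_cases h1 : (a : G) ∈ A <;> by_cases h2 : u ∈ H a <;> simp [h1, h2]
  simp_rw [Fintype.sum_prod_type, h1]
  simp only [Finset.sum_const, Finset.card_univ, nsmul_eq_mul]
  rw [Finset.mul_sum]
  refine Finset.sum_congr rfl fun a _ => ?_
  rw [← Nat.card_eq_fintype_card]
  by_cases ha : (a : G) ∈ A
  · simp only [ha, if_true]
    rw [Finset.mul_sum, Finset.mul_sum]
  · simp [ha]

end DadeCount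

section FinsumAux

variable {G : Type*} [Group G] [Fintype G]

theorem finsum_mem_subgroup_eq_sum (K : Subgroup G) (f : G → ℂ) :
    ∑ᶠ u ∈ (K : Set G), f u = ∑ u : G, if u ∈ K then f u else 0 := by
  rw [finsum_eq_sum_of_fintype]
  refine Finset.sum_congr rfl fun u _ => ?_
  rw [finsum_eq_if]
  rfl

theorem sum_ite_mem_subgroup_const (K : Subgroup G) (c : ℂ) :
    ∑ u : G, (if u ∈ K then c else 0) = (Nat.card K : ℂ) * c := by
  rw [← Finset.sum_filter, Finset.sum_const, nsmul_eq_mul]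
  congr 2
  rw [Nat.card_eq_fintype_card, Fintype.card_subtype]

theorem finsum_mem_set_eq_sum {X : Type*} [Fintype X] (S : Set X) (f : X → ℝ) :
    ∑ᶠ u ∈ S, f u = ∑ u : X, if u ∈ S then f u else 0 := by
  rw [finsum_eq_sum_of_fintype]
  refine Finset.sum_congr rfl fun u _ => ?_
  rw [finsum_eq_if]

end FinsumAux

end Cfsg.Agent.Lib.Helper35
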