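import Mathlib
import Cfsg.Agent.Lib.Helper97.FCQDefs
import Cfsg.Agent.Lib.Helper97.FCExtU

/-!
# S5147, piece FC-QUOT (helper35): passage of `Ctl` to the quotient by the centre
-/

set_option autoImplicit false
set_option linter.unusedVariables false

namespace Cfsg.Agent.Lib.Helper35.FC

open Cfsg.Agent.Lib.Helper97.FC Cfsg.Agent.Lib.Helper12.Ward

universe u

/-- A central `p`-element lies in every Sylow `p`-subgroup. -/
theorem fcq_central_mem {L : Type u} [Group L] [Finite L] (p : ℕ) [Fact p.Prime] (R : Sylow p L)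
    (c : L) (hc : c ∈ Subgroup.center L) (hcp : ∃ m : ℕ, c ^ (p ^ m) = 1) :
    c ∈ (R : Subgroup L) := by
  have hZp : IsPGroup p (Subgroup.zpowers c) := by
    obtain ⟨m, hm⟩ := hcp
    rintro ⟨x, hx⟩
    obtain ⟨i, rfl⟩ := Subgroup.mem_zpowers_iff.mp hx
    refine ⟨m, Subtype.ext ?_⟩
    show (c ^ i) ^ (p ^ m) = 1
    rw [← zpow_natCast, ← zpow_mul, mul_comm, zpow_mul, zpow_natCast, hm, one_zpow]
  have hcen : ∀ x ∈ Subgroup.zpowers c, ∀ g : L, g * x = x * g := by
    intro x hx g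
    have : x ∈ Subgroup.center L := (Subgroup.zpowers_le.mpr hc) hx
    exact Subgroup.mem_center_iff.mp this g
  have hnorm : (R : Subgroup L) ≤
      Subgroup.normalizer ((Subgroup.zpowers c : Subgroup L) : Set L) := by
    intro g _
    apply nz_of_conj_mem
    · intro x hx
      have h1 : g * x * g⁻¹ = x := by rw [hcen x hx g]; group
      rw [h1]; exact hx
    · intro x hx
      have h1 : g⁻¹ * x * g = x := by rw [hcen x hx g⁻¹]; group
      rw [h1]; exact hx
  have hsup := R.isPGroup'.to_sup_of_normal_right' hZp hnorm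
  have heq := R.is_maximal' hsup le_sup_left
  rw [← heq]
  exact Subgroup.mem_sup_right (Subgroup.mem_zpowers c)

/-- PIECE FC-QUOT: passage to the quotient by the centre. -/
theorem fc_quot (h1 : ExtGenStmt.{u}) (b2 : B2Stmt.{u}) : QuotStmt.{u} := by
  intro L _ _ p _ T Q hT hQ
  obtain ⟨R, hR⟩ := hT
  have hT : IsSyl p T := ⟨R, hR⟩
  have hmks : Function.Surjective (QuotientGroup.mk' (Subgroup.center L)) :=
    QuotientGroup.mk'_surjective (Subgroup.center L)
  have hTp : IsPGroup p T := hR ▸ R.isPGroup'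
  refine ⟨⟨R.mapSurjective hmks, by rw [Sylow.coe_mapSurjective, hR]⟩, ?_⟩
  obtain ⟨mk, hmk⟩ : ∃ mk : L →* L ⧸ Subgroup.center L, mk = QuotientGroup.mk' (Subgroup.center L) :=
    ⟨_, rfl⟩
  rw [← hmk] at hmks ⊢
  have hker : ∀ x : L, mk x = 1 → x ∈ Subgroup.center L := by
    intro x hx
    rw [hmk] at hx
    exact (QuotientGroup.eq_one_iff x).mp hx
  obtain ⟨Y, hYdef⟩ : ∃ Y : Subgroup L, Y =
      (Subgroup.centralizer ((Q.map mk : Subgroup _) : Set _)).comap mk ⊓
        Subgroup.normalizer (Q : Set L) := ⟨_, rfl⟩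
  have hYmem : ∀ y : L, y ∈ Y ↔ mk y ∈ Subgroup.centralizer ((Q.map mk : Subgroup _) : Set _) ∧
      y ∈ Subgroup.normalizer (Q : Set L) := by
    intro y
    rw [hYdef, Subgroup.mem_inf, Subgroup.mem_comap]
  have hTN : T ≤ Subgroup.normalizer (Q : Set L) := ext_le_normalizer hQ.1 hQ.2.1
  have hY1 : Y ≤ Subgroup.normalizer (Q : Set L) := fun y hy => ((hYmem y).mp hy).2
  have hY2 : Subgroup.normalizer (Q : Set L) ≤ Subgroup.normalizer (Y : Set L) := by
    intro n hn
    have hmn : mk n ∈ Subgroup.normalizer ((Q.map mk : Subgroup _) : Set _) :=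
      Subgroup.le_normalizer_map mk (Subgroup.mem_map_of_mem mk hn)
    have hmc := nz_centralizer hmn
    have hnn : n ∈ Subgroup.normalizer
        ((Subgroup.normalizer (Q : Set L) : Subgroup L) : Set L) := Subgroup.le_normalizer hn
    apply nz_of_conj_mem
    · intro x hx
      rw [hYmem] at hx ⊢
      refine ⟨?_, conj_mem_of_nz hnn hx.2⟩
      rw [map_mul, map_mul, map_inv]
      exact conj_mem_of_nz hmc hx.1
    · intro x hx
      rw [hYmem] at hx ⊢
      refine ⟨?_, conj_mem_of_nz' hnn hx.2⟩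
      rw [map_mul, map_mul, map_inv]
      exact conj_mem_of_nz' hmc hx.1
  have hY3 : ∀ y ∈ Y, (orderOf y).Coprime p → ∀ q ∈ Q, y * q = q * y := by
    intro y hy hcop
    obtain ⟨hyC, hyN⟩ := (hYmem y).mp hy
    refine b2 L p Q (Q ⊓ Subgroup.center L) y (hTp.to_le hQ.1) inf_le_left hcop ?_ ?_
    · intro q hq
      refine ⟨Q.mul_mem (conj_mem_of_nz hyN hq) (Q.inv_mem hq), ?_⟩
      have h2 := (Subgroup.mem_centralizer_iff.mp hyC) (mk q) (Subgroup.mem_map_of_mem mk hq)
      apply hker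
      rw [map_mul, map_mul, map_mul, map_inv, map_inv, ← h2]; group
    · intro r hr
      exact Subgroup.mem_center_iff.mp hr.2 y
  have hstar := h1 L p T Q Y hT hQ hY1 hY2 hY3
  refine ⟨(Q ⊔ (T ⊓ Y)).map mk, Subgroup.map_mono (sup_le hQ.1 inf_le_left), ?_, ?_⟩
  · intro Pb hPb gb hgb
    obtain ⟨g, rfl⟩ := hmks gb
    have hP : ∀ x ∈ T ⊓ Pb.comap mk, g * x * g⁻¹ ∈ T := by
      intro x hx
      have hxT : x ∈ T := hx.1
      have hxP : mk x ∈ Pb := hx.2
      have h2 := hgb (mk x) hxP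
      obtain ⟨t, ht, hte⟩ := Subgroup.mem_map.mp h2
      have hc : t⁻¹ * (g * x * g⁻¹) ∈ Subgroup.center L := by
        apply hker
        rw [map_mul, map_inv, hte, map_mul, map_mul, map_inv]; group
      have hcp : ∃ m : ℕ, (t⁻¹ * (g * x * g⁻¹)) ^ (p ^ m) = 1 := by
        obtain ⟨k1, hk1⟩ := hTp ⟨t, ht⟩
        obtain ⟨k2, hk2⟩ := hTp ⟨x, hxT⟩
        have hk1' : t ^ (p ^ k1) = 1 := by simpa using congrArg Subtype.val hk1
        have hk2' : x ^ (p ^ k2) = 1 := by simpa using congrArg Subtype.val hk2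
        have hcomm : Commute t (g * x * g⁻¹) := by
          have h3 := Subgroup.mem_center_iff.mp hc t
          have h4 : t * (t⁻¹ * (g * x * g⁻¹)) = g * x * g⁻¹ := by group
          rw [h4] at h3
          show t * (g * x * g⁻¹) = g * x * g⁻¹ * t
          calc t * (g * x * g⁻¹) = t * (t⁻¹ * (g * x * g⁻¹) * t) := by rw [← h3]
            _ = g * x * g⁻¹ * t := by group
        have hN : p ^ (k1 + k2) = p ^ k1 * p ^ k2 := pow_add p k1 k2
        have ht1 : t⁻¹ ^ (p ^ (k1 + k2)) = 1 := by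
          rw [hN, inv_pow, pow_mul, hk1', one_pow, inv_one]
        have hx1 : x ^ (p ^ (k1 + k2)) = 1 := by rw [hN, pow_mul', hk2', one_pow]
        refine ⟨k1 + k2, ?_⟩
        rw [hcomm.inv_left.mul_pow, ht1, conj_pow, hx1]; group
      have hcT : t⁻¹ * (g * x * g⁻¹) ∈ T := by
        rw [← hR]; exact fcq_central_mem p R _ hc hcp
      have h5 : g * x * g⁻¹ = t * (t⁻¹ * (g * x * g⁻¹)) := by group
      rw [h5]; exact T.mul_mem ht hcT
    obtain ⟨n, hnQ, hnY, hnx⟩ := hstar (T ⊓ Pb.comap mk) inf_le_left g hP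
    have hnW : n ∈ Subgroup.normalizer ((Q ⊔ (T ⊓ Y) : Subgroup L) : Set L) := nz_sup hnQ hnY
    refine ⟨mk n, Subgroup.le_normalizer_map mk (Subgroup.mem_map_of_mem mk hnW), ?_⟩
    intro xb hxb
    obtain ⟨x, hxT, rfl⟩ := Subgroup.mem_map.mp (hPb hxb)
    have h6 := hnx x ⟨hxT, hxb⟩
    rw [← map_inv, ← map_inv, ← map_mul, ← map_mul, ← map_mul, ← map_mul, h6]
  · intro zb hzb hzc
    obtain ⟨z, hzT, rfl⟩ := Subgroup.mem_map.mp hzb
    have hzC : mk z ∈ Subgroup.centralizer ((Q.map mk : Subgroup _) : Set _) := by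
      rw [Subgroup.mem_centralizer_iff]
      intro h hh
      exact (hzc h (Subgroup.map_mono le_sup_left hh)).symm
    exact Subgroup.mem_map_of_mem mk
      (Subgroup.mem_sup_right ⟨hzT, (hYmem z).mpr ⟨hzC, hTN hzT⟩⟩)

end Cfsg.Agent.Lib.Helper35.FC
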