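import Mathlib
import Cfsg.Agent.Lib.Helper7.GUOrder

/-!
# S2646, piece GUC-GUINT (helper35): the order of `GU_a(q)` as an integer product
-/

set_option autoImplicit false

namespace Cfsg.Agent.Lib.Helper35.GUCGUINT

open Matrix

theorem gu_card_int {K : Type*} [Field K] [Fintype K] {q : ℕ} (hK : Fintype.card K = q ^ 2)
    (a : ℕ) :
    (Nat.card ↥(Cfsg.GU a K q) : ℤ) = (q : ℤ) ^ (a * (a - 1) / 2) *
      ∏ j : Fin a, ((q : ℤ) ^ ((j : ℕ) + 1) - (-1) ^ ((j : ℕ) + 1)) := by
  have hq : 1 ≤ q := by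
    rcases Nat.eq_zero_or_pos q with h | h
    · subst h
      have h0 : Fintype.card K = 0 := by rw [hK]; norm_num
      exact absurd h0 Fintype.card_ne_zero
    · exact h
  rw [Cfsg.Agent.Lib.Helper7.card_GU hK a, Nat.cast_mul, Nat.cast_pow, Nat.cast_prod]
  congr 1
  rw [Fin.prod_univ_eq_prod_range (fun j => (q : ℤ) ^ (j + 1) - (-1) ^ (j + 1)) a]
  refine Finset.prod_congr rfl fun i _ => ?_
  by_cases hi : Even i
  · rw [if_pos hi]
    have h1 : Odd (i + 1) := hi.add_one
    rw [h1.neg_one_pow]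
    push_cast
    ring
  · rw [if_neg hi]
    have hi' : Even (i + 1) := by
      rw [Nat.not_even_iff_odd] at hi
      exact hi.add_one
    rw [hi'.neg_one_pow]
    have h1 : 1 ≤ q ^ (i + 1) := Nat.one_le_pow _ _ hq
    rw [Nat.cast_sub h1]
    push_cast
    ring

end Cfsg.Agent.Lib.Helper35.GUCGUINT
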