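import Mathlib
import Cfsg.Agent.S3734

set_option autoImplicit false

namespace Cfsg.Agent.Lib.Helper35.HallP3

/-- Klein four-group generation: an odd-order subgroup `H` normalised by two commuting
involutions `z₁`, `z₂` is generated by the centralisers in `H` of `z₁`, `z₂`, `z₁ z₂`. -/
theorem klein_gen {X : Type*} [Group X] [Finite X] (H K : Subgroup X) (hodd : Odd (Nat.card H))
    (z₁ z₂ : X) (h1 : z₁ * z₁ = 1) (h2 : z₂ * z₂ = 1) (hc : z₁ * z₂ = z₂ * z₁)
    (hH1 : ∀ h ∈ H, z₁ * h * z₁⁻¹ ∈ H) (hH2 : ∀ h ∈ H, z₂ * h * z₂⁻¹ ∈ H)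
    (hC1 : ∀ h ∈ H, z₁ * h = h * z₁ → h ∈ K) (hC2 : ∀ h ∈ H, z₂ * h = h * z₂ → h ∈ K)
    (hC3 : ∀ h ∈ H, (z₁ * z₂) * h = h * (z₁ * z₂) → h ∈ K) : H ≤ K := by
  classical
  have r1 : ∀ x : X, z₁ * (z₁ * x) = x := fun x => by rw [← mul_assoc, h1, one_mul]
  have r2 : ∀ x : X, z₂ * (z₂ * x) = x := fun x => by rw [← mul_assoc, h2, one_mul]
  have r3 : ∀ x : X, z₂ * (z₁ * x) = z₁ * (z₂ * x) := fun x => by
    rw [← mul_assoc, ← hc, mul_assoc]
  have i1 : z₁⁻¹ = z₁ := inv_eq_of_mul_eq_one_left h1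
  have i2 : z₂⁻¹ = z₂ := inv_eq_of_mul_eq_one_left h2
  set A : Subgroup X := Subgroup.closure {z₁, z₂} with hA
  have hz1A : z₁ ∈ A := Subgroup.subset_closure (by simp)
  have hz2A : z₂ ∈ A := Subgroup.subset_closure (by simp)
  -- the elements of A
  have hAel : ∀ x ∈ A, x = 1 ∨ x = z₁ ∨ x = z₂ ∨ x = z₁ * z₂ := by
    intro x hx
    induction hx using Subgroup.closure_induction with
    | mem y hy =>
      rcases hy with rfl | hy
      · exact Or.inr (Or.inl rfl)
      · rw [Set.mem_singleton_iff] at hy; exact Or.inr (Or.inr (Or.inl hy))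
    | one => exact Or.inl rfl
    | mul x y _ _ ihx ihy =>
      rcases ihx with rfl | rfl | rfl | rfl <;> rcases ihy with rfl | rfl | rfl | rfl <;>
        simp [mul_assoc, h1, h2, r1, r2, r3, hc.symm]
    | inv x _ ihx =>
      rcases ihx with rfl | rfl | rfl | rfl <;> simp [i1, i2, hc.symm]
  have hAsq : ∀ x ∈ A, x * x = 1 := by
    intro x hx
    rcases hAel x hx with rfl | rfl | rfl | rfl <;> simp [mul_assoc, h1, h2, r1, r2, r3]
  have hAcomm : ∀ x ∈ A, ∀ y ∈ A, x * y = y * x := by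
    intro x hx y hy
    rcases hAel x hx with rfl | rfl | rfl | rfl <;> rcases hAel y hy with rfl | rfl | rfl | rfl <;>
      simp [mul_assoc, h1, h2, r1, r2, r3, hc.symm]
  have hAab : IsMulCommutative A :=
    ⟨⟨fun a b => Subtype.ext (hAcomm a a.2 b b.2)⟩⟩
  have hAG : A ≤ Subgroup.normalizer (H : Set X) := by
    rw [hA, Subgroup.closure_le]
    intro z hz
    have hzz : z * z = 1 ∧ ∀ h ∈ H, z * h * z⁻¹ ∈ H := by
      rcases hz with rfl | hz
      · exact ⟨h1, hH1⟩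
      · rw [Set.mem_singleton_iff] at hz; subst hz; exact ⟨h2, hH2⟩
    have hzi : z⁻¹ = z := inv_eq_of_mul_eq_one_left hzz.1
    rw [SetLike.mem_coe, Subgroup.mem_normalizer_iff]
    intro h
    refine ⟨fun hh => hzz.2 h hh, fun hh => ?_⟩
    have := hzz.2 _ hh
    rw [hzi] at this
    have e : z * (z * h * z) * z = h := by
      calc z * (z * h * z) * z = (z * z) * h * (z * z) := by simp only [mul_assoc]
        _ = h := by rw [hzz.1, one_mul, mul_one]
    rwa [e] at this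
  have hAp : IsPGroup 2 A := by
    intro a
    refine ⟨1, ?_⟩
    apply Subtype.ext
    have := hAsq a a.2
    simp only [pow_one, Subgroup.coe_pow, Subgroup.coe_one]
    rw [pow_two, this]
  have hcop : (Nat.card A).Coprime (Nat.card H) := by
    obtain ⟨n, hn⟩ := hAp.exists_card_eq
    rw [hn]
    apply Nat.Coprime.pow_left
    rw [Nat.coprime_two_left]
    exact hodd
  have key := (Cfsg.Agent.S3734.result A H hAab hAG hcop).1
  rw [← key]
  refine iSup₂_le fun B hB => ?_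
  obtain ⟨hBA, a, haA, hBa⟩ := hB
  intro h hh
  obtain ⟨hhH, hhC0⟩ := hh
  have hhC1 : h ∈ Subgroup.centralizer (B : Set X) := hhC0
  have hhC : ∀ g ∈ B, g * h = h * g := fun g hg => Subgroup.mem_centralizer_iff.mp hhC1 g hg
  by_cases m1 : z₁ ∈ B
  · exact hC1 h hhH (hhC z₁ m1)
  by_cases m2 : z₂ ∈ B
  · exact hC2 h hhH (hhC z₂ m2)
  by_cases m3 : z₁ * z₂ ∈ B
  · exact hC3 h hhH (hhC _ m3)
  exfalso
  have hBbot : B = ⊥ := by
    rw [Subgroup.eq_bot_iff_forall]
    intro b hb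
    rcases hAel b (hBA hb) with rfl | rfl | rfl | rfl
    · rfl
    · exact absurd hb m1
    · exact absurd hb m2
    · exact absurd hb m3
  rw [hBbot, bot_sup_eq] at hBa
  have haa : a * a = 1 := hAsq a haA
  have hza : ∀ x ∈ Subgroup.zpowers a, x = 1 ∨ x = a := by
    intro x hx
    obtain ⟨k, rfl⟩ := hx
    rcases Int.even_or_odd' k with ⟨m, rfl | rfl⟩
    · left
      change a ^ (2 * m) = 1
      rw [zpow_mul, zpow_ofNat, pow_two, haa, one_zpow]
    · right
      change a ^ (2 * m + 1) = a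
      rw [zpow_add, zpow_one, zpow_mul, zpow_ofNat, pow_two, haa, one_zpow, one_mul]
  have n1 : z₁ ≠ 1 := fun h => m1 (h ▸ B.one_mem)
  have n2 : z₂ ≠ 1 := fun h => m2 (h ▸ B.one_mem)
  have e1 : z₁ = a := (hza z₁ (hBa ▸ hz1A)).resolve_left n1
  have e2 : z₂ = a := (hza z₂ (hBa ▸ hz2A)).resolve_left n2
  apply m3
  rw [e1, e2, haa]
  exact B.one_mem

end Cfsg.Agent.Lib.Helper35.HallP3
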