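import Mathlib

set_option autoImplicit false

open scoped commutatorElement

universe u v

/-!
# S2041, piece J3M-IDX2 (for helper37): `E₁ E₂ ⟨x⟩` has odd index
-/

namespace Cfsg.Agent.Lib.Helper35.J3MIDX2

theorem card_mul_relIndex_of_le {G : Type v} [Group G] (H K : Subgroup G) (h : H ≤ K) :
    Nat.card H * H.relIndex K = Nat.card K := by
  have h1 := Subgroup.card_mul_index (H.subgroupOf K)
  have h2 : Nat.card (H.subgroupOf K) = Nat.card H :=
    Nat.card_congr (Subgroup.subgroupOfEquivOfLe h).toEquiv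
  rw [h2] at h1
  exact h1

theorem sylow_index {G : Type v} [Group G] [Finite G] (E₁ E₂ : Subgroup G) (x : G) (m : ℕ)
    (hG : Nat.card G = 2 ^ 7 * m) (hm : ¬ 2 ∣ m) (h16 : Nat.card E₁ = 16)
    (hx12 : ∀ e ∈ E₁, x * e * x⁻¹ ∈ E₂) (hx21 : ∀ e ∈ E₂, x * e * x⁻¹ ∈ E₁)
    (hn : ∀ e ∈ E₁, ∀ f ∈ E₂, f * e * f⁻¹ ∈ E₁) (hxx : x * x ∈ E₁ ⊔ E₂)
    (hint : Nat.card ↥(E₁ ⊓ E₂) ≤ 4) :
    ¬ 2 ∣ (E₁ ⊔ E₂ ⊔ Subgroup.zpowers x).index := by
  classical
  -- cardinality of `E₂`
  have h16' : Nat.card E₂ = 16 := by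
    have a1 : Nat.card E₁ ≤ Nat.card E₂ := by
      apply Nat.card_le_card_of_injective (fun e : E₁ => (⟨x * e.1 * x⁻¹, hx12 e.1 e.2⟩ : E₂))
      intro a b hab
      have : x * a.1 * x⁻¹ = x * b.1 * x⁻¹ := congrArg Subtype.val hab
      apply Subtype.ext
      simpa using this
    have a2 : Nat.card E₂ ≤ Nat.card E₁ := by
      apply Nat.card_le_card_of_injective (fun e : E₂ => (⟨x * e.1 * x⁻¹, hx21 e.1 e.2⟩ : E₁))
      intro a b hab
      have : x * a.1 * x⁻¹ = x * b.1 * x⁻¹ := congrArg Subtype.val hab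
      apply Subtype.ext
      simpa using this
    omega
  -- `E₂` normalises `E₁`
  have hLE : E₂ ≤ Subgroup.normalizer (E₁ : Set G) := by
    intro f hf
    rw [Subgroup.mem_normalizer_iff]
    intro h
    constructor
    · intro hh; exact hn h hh f hf
    · intro hh
      have := hn _ hh f⁻¹ (E₂.inv_mem hf)
      simpa [mul_assoc] using this
  set R : Subgroup G := E₁ ⊔ E₂ with hR
  have hR' : E₂ ⊔ E₁ = R := sup_comm _ _
  -- second isomorphism theorem
  have hrel : E₁.relIndex E₂ = E₁.relIndex R := by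
    rw [← hR']
    unfold Subgroup.relIndex Subgroup.index
    have i1 := Subgroup.normal_subgroupOf_of_le_normalizer hLE
    have i2 := Subgroup.normal_subgroupOf_sup_of_le_normalizer hLE
    exact Nat.card_congr (QuotientGroup.quotientInfEquivProdNormalizerQuotient E₂ E₁ hLE).toEquiv
  have hc1 : Nat.card ↥(E₁ ⊓ E₂) * E₁.relIndex E₂ = 16 := by
    have := card_mul_relIndex_of_le (E₁ ⊓ E₂) E₂ inf_le_right
    rw [Subgroup.inf_relIndex_right, h16'] at this
    exact this
  have hc2 : Nat.card R = 16 * E₁.relIndex E₂ := by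
    have := card_mul_relIndex_of_le E₁ R le_sup_left
    rw [h16, ← hrel] at this
    exact this.symm
  have h64 : 64 ∣ Nat.card R := by
    set ρ := E₁.relIndex E₂ with hρ
    set c := Nat.card ↥(E₁ ⊓ E₂) with hc
    have hρ16 : ρ ∣ 16 := Dvd.intro_left _ hc1
    have hρle : ρ ≤ 16 := Nat.le_of_dvd (by norm_num) hρ16
    rw [hc2]
    interval_cases ρ <;> first | omega | (norm_num at hρ16) | (norm_num)
  -- `x` normalises `R`, `x ∉ R`
  have hxE1 : ∀ e ∈ E₁, x * e * x⁻¹ ∈ R := fun e he => (le_sup_right : E₂ ≤ R) (hx12 e he)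
  have hxE2 : ∀ e ∈ E₂, x * e * x⁻¹ ∈ R := fun e he => (le_sup_left : E₁ ≤ R) (hx21 e he)
  have hxR : ∀ r ∈ R, x * r * x⁻¹ ∈ R := by
    intro r hr
    have hmap : R.map (MulAut.conj x).toMonoidHom ≤ R := by
      rw [hR, Subgroup.map_sup]
      apply sup_le
      · rintro _ ⟨e, he, rfl⟩; exact hxE1 e he
      · rintro _ ⟨e, he, rfl⟩; exact hxE2 e he
    exact hmap ⟨r, hr, rfl⟩
  have hxN : x ∈ Subgroup.normalizer (R : Set G) := by
    rw [Subgroup.mem_normalizer_iff]
    intro h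
    constructor
    · exact hxR h
    · intro hh
      -- h = x⁻¹ (x h x⁻¹) x = (x*x)⁻¹ * (x * (x h x⁻¹) * x⁻¹) * (x*x)
      have h1 := hxR _ hh
      have h2 : h = (x * x)⁻¹ * (x * (x * h * x⁻¹) * x⁻¹) * (x * x) := by group
      rw [h2]
      exact R.mul_mem (R.mul_mem (R.inv_mem hxx) h1) hxx
  have hxnot : x ∉ R := by
    intro hx
    -- `R` normalises `E₁`
    have hRN : R ≤ Subgroup.normalizer (E₁ : Set G) := sup_le Subgroup.le_normalizer hLE
    have hxn := hRN hx
    rw [Subgroup.mem_normalizer_iff] at hxn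
    have hsub : E₁ ≤ E₁ ⊓ E₂ := by
      intro e he
      refine ⟨he, ?_⟩
      -- e = x (x⁻¹ e x) x⁻¹ with x⁻¹ e x ∈ E₁
      have h1 : x⁻¹ * e * x ∈ E₁ := by
        rw [hxn]
        have : x * (x⁻¹ * e * x) * x⁻¹ = e := by group
        rw [this]; exact he
      have h2 := hx12 _ h1
      have : x * (x⁻¹ * e * x) * x⁻¹ = e := by group
      rw [this] at h2
      exact h2
    have := Subgroup.card_le_of_le hsub
    omega
  set S : Subgroup G := R ⊔ Subgroup.zpowers x with hS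
  have hRS : R ≤ S := le_sup_left
  have hxS : x ∈ S := (le_sup_right : Subgroup.zpowers x ≤ S) (Subgroup.mem_zpowers x)
  have hSN : S ≤ Subgroup.normalizer (R : Set G) := by
    apply sup_le Subgroup.le_normalizer
    rw [Subgroup.zpowers_le]
    exact hxN
  have : (R.subgroupOf S).Normal := (Subgroup.normal_subgroupOf_iff_le_normalizer hRS).2 hSN
  have h2rel : 2 ∣ R.relIndex S := by
    unfold Subgroup.relIndex
    rw [Subgroup.index_eq_card]
    let xb : S ⧸ R.subgroupOf S := QuotientGroup.mk (⟨x, hxS⟩ : S)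
    have hxb2 : xb ^ 2 = 1 := by
      show (QuotientGroup.mk ((⟨x, hxS⟩ : S) ^ 2) : S ⧸ R.subgroupOf S) = 1
      rw [QuotientGroup.eq_one_iff, Subgroup.mem_subgroupOf]
      simpa [pow_two] using hxx
    have hxb1 : xb ≠ 1 := by
      intro h
      rw [QuotientGroup.eq_one_iff, Subgroup.mem_subgroupOf] at h
      exact hxnot h
    have hord : orderOf xb = 2 := orderOf_eq_prime hxb2 hxb1
    rw [← hord]
    exact orderOf_dvd_natCard xb
  have hcardS : Nat.card S = Nat.card R * R.relIndex S := (card_mul_relIndex_of_le R S hRS).symm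
  have h128 : 128 ∣ Nat.card S := by
    rw [hcardS]
    obtain ⟨a, ha⟩ := h64
    obtain ⟨b, hb⟩ := h2rel
    rw [ha, hb]
    exact ⟨a * b, by ring⟩
  have hSidx : Nat.card S * S.index = 2 ^ 7 * m := by
    rw [Subgroup.card_mul_index, hG]
  show ¬ 2 ∣ S.index
  intro h2
  apply hm
  obtain ⟨a, ha⟩ := h128
  obtain ⟨b, hb⟩ := h2
  rw [ha, hb] at hSidx
  have : a * (2 * b) = m := by
    have : 128 * (a * (2 * b)) = 128 * m := by
      calc 128 * (a * (2 * b)) = 128 * a * (2 * b) := by ring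
        _ = 2 ^ 7 * m := hSidx
        _ = 128 * m := by norm_num
    exact Nat.eq_of_mul_eq_mul_left (by norm_num) this
  exact ⟨a * b, by rw [← this]; ring⟩

end Cfsg.Agent.Lib.Helper35.J3MIDX2
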