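import Mathlib
import Cfsg.Prelude.Def_GeometricClasses
import Cfsg.Agent.Lib.Helper71.OK1
import Cfsg.Agent.Lib.Helper52.Siegel
import Cfsg.Agent.Lib.Helper51.OKH1

/-!
# S5701 piece H2 (helper35): `HP_of_ZW3`

If `r = [L : F] ≥ 3` and `ZW M v` holds for every singular `v ≠ 0`, then the Eichler
transformations `E(v, c v₂)` with `β c = 0` lie in `M` for all hyperbolic pairs `(v, v₂)`.
-/

set_option autoImplicit false

namespace Cfsg.Agent.Lib.Helper35.OKH2

open Matrix Cfsg.Agent.Lib.Helper71.SpK Cfsg.Agent.Lib.Helper71.OK Cfsg.Agent.Lib.Helper51.OKH1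

/-- Pure linear algebra: for `c ≠ 0` and `[L : F] ≥ 3` there are `a'`, `b'` with
`β b' = 0`, `β (a' c) = 0`, `β (a' b') = 1`. -/
theorem exists_ab {ι : Type} [Fintype ι] [DecidableEq ι] {F : Type*} [Field F]
    {f : (ι → F) → (ι → F) → F} {L : Type*} [Field L] [Algebra F L] [FiniteDimensional F L]
    (S : KO f L) (hr3 : 3 ≤ Module.finrank F L) {c : L} (hc : c ≠ 0) :
    ∃ a' b' : L, S.β b' = 0 ∧ S.β (a' * c) = 0 ∧ S.β (a' * b') = 1 := by
  by_contra hcon
  -- every `a` with `β (a c) = 0` pairs trivially with `ker β`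
  have h0 : ∀ a b : L, S.β (a * c) = 0 → S.β b = 0 → S.β (a * b) = 0 := by
    intro a b ha hb
    by_contra hab
    apply hcon
    refine ⟨a, (S.β (a * b))⁻¹ • b, ?_, ha, ?_⟩
    · rw [map_smul, hb, smul_zero]
    · rw [mul_smul_comm, map_smul, smul_eq_mul, inv_mul_cancel₀ hab]
  obtain ⟨l₀, hl₀⟩ := S.exists_β_ne
  -- hence such `a` is a scalar
  have h1 : ∀ a : L, S.β (a * c) = 0 → a ∈ Submodule.span F ({1} : Set L) := by
    intro a ha
    set t : F := S.β (a * l₀) / S.β l₀ with ht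
    have h2 : a - algebraMap F L t = 0 := by
      apply S.β_nondeg
      intro l
      have h3 : S.β (l - (S.β l / S.β l₀) • l₀) = 0 := by
        rw [map_sub, map_smul, smul_eq_mul, div_mul_cancel₀ _ hl₀, sub_self]
      have h4 := h0 a _ ha h3
      rw [mul_sub, map_sub, mul_smul_comm, map_smul, smul_eq_mul] at h4
      rw [sub_mul, map_sub, ← Algebra.smul_def, map_smul, smul_eq_mul, ht]
      have h5 : S.β (a * l) = S.β l / S.β l₀ * S.β (a * l₀) := sub_eq_zero.mp h4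
      rw [h5]
      field_simp
      ring
    rw [sub_eq_zero] at h2
    rw [Submodule.mem_span_singleton]
    exact ⟨t, by rw [h2, Algebra.smul_def, mul_one]⟩
  -- dimension count
  set ψ : L →ₗ[F] F := S.β ∘ₗ (LinearMap.mulRight F c) with hψ
  have hker : LinearMap.ker ψ ≤ Submodule.span F ({1} : Set L) := by
    intro a ha
    apply h1
    have : ψ a = 0 := ha
    simpa [hψ] using this
  have hk1 : Module.finrank F ↥(LinearMap.ker ψ) ≤ 1 :=
    (Submodule.finrank_mono hker).trans (le_of_eq (finrank_span_singleton (K := F) (one_ne_zero : (1 : L) ≠ 0)))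
  have hr1 : Module.finrank F ↥(LinearMap.range ψ) ≤ 1 := by
    have := Submodule.finrank_le (LinearMap.range ψ)
    rwa [Module.finrank_self] at this
  have := LinearMap.finrank_range_add_finrank_ker ψ
  omega

theorem HP_of_ZW3 {ι : Type} [Fintype ι] [DecidableEq ι] {F : Type*} [Field F] [Finite F]
    {Q : QuadraticForm F (ι → F)} {L : Type*} [Field L] [Algebra F L] [FiniteDimensional F L]
    (S : KO (QuadraticMap.polar ⇑Q) L) (h2 : (2 : F) ≠ 0)
    (hQ : (QuadraticMap.polarBilin Q).Nondegenerate)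
    (hr : (Module.finrank F L).Prime) (hd : 4 * Module.finrank F L ≤ Fintype.card ι) (M : Subgroup (GL ι F)) (hNM : S.NO Q ≤ M) (hMΩ : M ≤ Cfsg.Geo.omegaGL ⇑Q) (hr3 : 3 ≤ Module.finrank F L)
    (hZ : ∀ v : ι → F, v ≠ 0 → S.B v v = 0 → S.ZW M v) : S.HP M := by
  intro v v₂ hvv hv₂v₂ hvv₂ c hc
  by_cases hc0 : c = 0
  · refine ⟨1, M.one_mem, ?_⟩
    rw [hc0, S.φ_zero_mulVec, Cfsg.Agent.Lib.Helper52.eichMat_zero]
    rfl
  have hL1 : (1 : L) ≠ 0 := one_ne_zero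
  have hv0 : v ≠ 0 := by
    rintro rfl
    rw [S.B_zero_left] at hvv₂
    exact hL1 hvv₂.symm
  have hv₂0 : v₂ ≠ 0 := by
    rintro rfl
    rw [S.B_zero_right] at hvv₂
    exact hL1 hvv₂.symm
  obtain ⟨a', b', hb', ha'c, ha'b'⟩ := exists_ab S hr3 hc0
  have hQl : ∀ (l : L) (w : ι → F), S.B w w = 0 → Q (S.φ l *ᵥ w) = 0 := by
    intro l w hw
    apply S.Q_eq_zero h2
    rw [S.B_act, S.B_act_right, hw, mul_zero, mul_zero]
  have hA : EM Q M v (S.φ a' *ᵥ v) := by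
    have := hZ v hv0 hvv 1 a'
    rwa [S.φ_one_mulVec] at this
  have hC : EM Q M (S.φ c *ᵥ v₂) (S.φ b' *ᵥ v₂) := hZ v₂ hv₂0 hv₂v₂ c b'
  refine EM_comm Q M (x := v) (x' := S.φ a' *ᵥ v) (y := S.φ c *ᵥ v₂) (y' := S.φ b' *ᵥ v₂)
    (S.Q_eq_zero h2 hvv) (hQl a' v hvv) (hQl c v₂ hv₂v₂) (hQl b' v₂ hv₂v₂) ?_ ?_ ?_ ?_ ?_ ?_ hA hC
  · rw [S.f_act_right, hvv, mul_zero, map_zero]
  · rw [S.f_act, S.B_act_right, hv₂v₂, mul_zero, mul_zero, map_zero]
  · rw [S.f_act_right, hvv₂, mul_one, hc]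
  · rw [S.f_act_right, hvv₂, mul_one, hb']
  · rw [S.f_act, S.B_act_right, hvv₂, mul_one, ha'c]
  · rw [S.f_act, S.B_act_right, hvv₂, mul_one, ha'b']

end Cfsg.Agent.Lib.Helper35.OKH2
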