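import Mathlib
import Cfsg.Prelude.Def_LieTypeDatum
import Cfsg.Prelude.Def_StandardType
import Cfsg.Prelude.Def_KGroupFacts
import Cfsg.Agent.Lib.Helper53.SplitAbs
import Cfsg.Agent.Lib.Helper53.FixField
import Cfsg.Agent.Lib.Helper54.OrthInnPlus

/-!
# Project PF (helper52, S2715), piece R2: the abstract half (helper35)

`splitClassCount Inndiag Inn φ` for a field automorphism `φ` of order two of `PΩ⁺_{2m}(F)`, odd
characteristic, from the "descent" statement (`hdesc` below, sub-piece PF-R2D).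
-/

set_option autoImplicit false
set_option linter.unusedSectionVars false
set_option linter.unusedVariables false

namespace Cfsg.Agent.Lib.Helper52.PF

open Cfsg

universe u v

/-- abstract count: `H / K` commutative of order four -/
theorem pfr2_abs {X : Type*} [Group X] (H K : Subgroup X) (hKH : K ≤ H) {A : Type*} [CommGroup A]
    (ψ : ↥H →* A) (hψ : Function.Surjective ψ) (hker : ψ.ker = K.subgroupOf H)
    (hA : Nat.card A = 4) (x : X) :
    ((∀ c ∈ H ⊓ Subgroup.centralizer {x}, c ∈ K) → Cfsg.splitClassCount H K x = 4) ∧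
    (∀ x₀ ∈ H ⊓ Subgroup.centralizer {x}, x₀ ∉ K →
      (∀ c ∈ H ⊓ Subgroup.centralizer {x}, c ∈ K ∨ c * x₀⁻¹ ∈ K) →
      Cfsg.splitClassCount H K x = 2) := by
  classical
  have hcount := Cfsg.Agent.Lib.Helper53.SplitAbs.split_abstract H.subtype ψ hψ x
  rw [Subgroup.range_subtype, hker, Subgroup.map_subgroupOf_eq_of_le hKH] at hcount
  have hkerK : ∀ c : ↥H, ψ c = 1 ↔ (c : X) ∈ K := by
    intro c
    rw [← MonoidHom.mem_ker, hker, Subgroup.mem_subgroupOf]
  constructor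
  · intro hall
    have hbot : ((Subgroup.centralizer {x}).comap H.subtype).map ψ = ⊥ := by
      rw [eq_bot_iff]
      rintro _ ⟨c, hc, rfl⟩
      rw [Subgroup.mem_bot, hkerK]
      exact hall _ ⟨c.2, hc⟩
    rw [hcount, hbot, Subgroup.index_bot, hA]
  · intro x₀ hx₀ hx₀K hall
    obtain ⟨y₀, hy₀⟩ : ∃ y : ↥H, (y : X) = x₀ := ⟨⟨x₀, hx₀.1⟩, rfl⟩
    have hy₀1 : ψ y₀ ≠ 1 := by
      rw [Ne, hkerK, hy₀]
      exact hx₀K
    have hy₀B : ψ y₀ ∈ ((Subgroup.centralizer {x}).comap H.subtype).map ψ := by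
      refine ⟨y₀, ?_, rfl⟩
      show (y₀ : X) ∈ Subgroup.centralizer {x}
      rw [hy₀]
      exact hx₀.2
    have hcardB : Nat.card ↥(((Subgroup.centralizer {x}).comap H.subtype).map ψ) = 2 := by
      rw [Nat.card_eq_two_iff]
      refine ⟨⟨1, Subgroup.one_mem _⟩, ⟨ψ y₀, hy₀B⟩, ?_, ?_⟩
      · intro h
        exact hy₀1 (congrArg Subtype.val h).symm
      · rw [Set.eq_univ_iff_forall]
        rintro ⟨b, c, hc, rfl⟩
        rw [Set.mem_insert_iff, Set.mem_singleton_iff]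
        rcases hall (c : X) ⟨c.2, hc⟩ with h | h
        · left
          apply Subtype.ext
          exact (hkerK c).mpr h
        · right
          apply Subtype.ext
          show ψ c = ψ y₀
          have h1 : ψ (c * y₀⁻¹) = 1 := by
            rw [hkerK]
            show (c : X) * ((y₀ : X))⁻¹ ∈ K
            rw [hy₀]
            exact h
          rw [map_mul, map_inv, mul_inv_eq_one] at h1
          exact h1
    have hmul := Subgroup.card_mul_index (((Subgroup.centralizer {x}).comap H.subtype).map ψ)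
    rw [hcardB, hA] at hmul
    rw [hcount]
    omega

/-- a field with an automorphism of order two whose fixed field is the image of `F₀` -/
theorem pfr2_card {F₀ : Type v} [Field F₀] [Fintype F₀] {F : Type u} [Field F] [Fintype F]
    (e : F₀ →+* F) (σ : F ≃+* F) (hr : orderOf σ = 2)
    (he : ∀ x : F, σ x = x ↔ x ∈ Set.range e) : Fintype.card F = Fintype.card F₀ ^ 2 := by
  classical
  obtain ⟨p, hp⟩ := CharP.exists F
  have : Fact p.Prime := ⟨CharP.char_is_prime F p⟩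
  obtain ⟨n, hpn, hn⟩ := FiniteField.card F p
  obtain ⟨hdvd, hfix⟩ := Cfsg.Agent.Lib.Helper53.Fix.fixed_card hn σ hr
  have hF₀ : Nat.card (FixedPoints.subfield (Subgroup.zpowers σ) F) = Fintype.card F₀ := by
    rw [← Nat.card_eq_fintype_card]
    symm
    apply Nat.card_congr
    refine Equiv.ofBijective (fun a => ⟨e a, ?_⟩) ⟨?_, ?_⟩
    · rw [Cfsg.Agent.Lib.Helper53.Fix.mem_fixed_iff]
      exact (he _).mpr ⟨a, rfl⟩
    · intro a b hab
      exact e.injective (congrArg Subtype.val hab)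
    · rintro ⟨y, hy⟩
      rw [Cfsg.Agent.Lib.Helper53.Fix.mem_fixed_iff] at hy
      obtain ⟨a, ha⟩ := (he y).mp hy
      exact ⟨a, Subtype.ext ha⟩
  rw [hn, ← hF₀, hfix, ← pow_mul, Nat.div_mul_cancel hdvd]

open Cfsg.Agent.Lib.Helper51 Cfsg.Agent.Lib.Helper54 in
/-- the count from the descent statement, for a form given as a function -/
theorem pfr2_aux {F₀ : Type v} [Field F₀] [Fintype F₀] {F : Type u} [Field F] [Fintype F]
    (h2 : (2 : F) ≠ 0) {m : ℕ} (hm : 4 ≤ m) (e : F₀ →+* F)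
    (σ : F ≃+* F) (hr : orderOf σ = 2)
    (he : ∀ x : F, σ x = x ↔ x ∈ Set.range e)
    (q : (Fin m ⊕ Fin m → F) → F) (hq : q = ⇑(QPlus m F))
    (φ : MulAut (Cfsg.POmega F q))
    (hdesc : ∃ x₀ ∈ inndiagOf q ⊓ Subgroup.centralizer {φ},
      (∀ c ∈ inndiagOf q ⊓ Subgroup.centralizer {φ},
        c ∈ Cfsg.Inn (Cfsg.POmega F q) ∨ c * x₀⁻¹ ∈ Cfsg.Inn (Cfsg.POmega F q)) ∧
      (x₀ ∈ Cfsg.Inn (Cfsg.POmega F q) ↔ ¬ (Odd m ∧ Fintype.card F₀ % 4 = 1))) :
    ((Odd m ∧ Fintype.card F₀ % 4 = 1) →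
      Cfsg.splitClassCount (inndiagOf q) (Cfsg.Inn (Cfsg.POmega F q)) φ = 2) ∧
    (¬ (Odd m ∧ Fintype.card F₀ % 4 = 1) →
      Cfsg.splitClassCount (inndiagOf q) (Cfsg.Inn (Cfsg.POmega F q)) φ = 4) := by
  classical
  have hcard : Fintype.card F = Fintype.card F₀ ^ 2 := pfr2_card e σ hr he
  have hF : ringChar F ≠ 2 := by
    intro h
    apply h2
    have h3 := ringChar.Nat.cast_ringChar (R := F)
    rw [h] at h3
    exact_mod_cast h3
  have hoddF : Odd (Fintype.card F) := by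
    rw [Nat.odd_iff]
    exact FiniteField.odd_card_of_char_ne_two hF
  have hodd₀ : Odd (Fintype.card F₀) := by
    rw [hcard, pow_two] at hoddF
    exact (Nat.odd_mul.1 hoddF).1
  have hmod : Fintype.card F % 4 = 1 := by
    obtain ⟨k, hk⟩ := hodd₀
    rw [hcard, hk]
    have h3 : (2 * k + 1) ^ 2 = 4 * (k * k + k) + 1 := by ring
    omega
  have hm1 : 1 ≤ m := by omega
  have hgen := plus_inndiag_gen hoddF (by omega : 3 ≤ m) q hq
  have hInnLe : Cfsg.Inn (Cfsg.POmega F q) ≤ inndiagOf q := by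
    subst hq
    unfold inndiagOf
    rw [inndiagPlus_eq hF hm1, inn_eq]
    exact Subgroup.map_mono (omega_le_sgnKer (QPlus m F) (hv_plus hm1) m)
  obtain ⟨A, instA, ψ, hψ, hker, hA⟩ : ∃ (A : Type) (_ : CommGroup A)
      (ψ : ↥(inndiagOf q) →* A), Function.Surjective ψ ∧
      ψ.ker = (Cfsg.Inn (Cfsg.POmega F q)).subgroupOf (inndiagOf q) ∧ Nat.card A = 4 := by
    rcases Nat.even_or_odd m with hev | hodd
    · obtain ⟨ψ, h1, h3⟩ := hgen.2.2 hev
      refine ⟨Multiplicative (ZMod 2 × ZMod 2), inferInstance, ψ, h1, h3, ?_⟩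
      rw [Nat.card_eq_fintype_card]
      rfl
    · obtain ⟨ψ, h1, h3⟩ := hgen.2.1 ⟨hodd, hmod⟩
      refine ⟨Multiplicative (ZMod 4), inferInstance, ψ, h1, h3, ?_⟩
      rw [Nat.card_eq_fintype_card]
      rfl
  obtain ⟨habs4, habs2⟩ := pfr2_abs (inndiagOf q) (Cfsg.Inn (Cfsg.POmega F q)) hInnLe ψ hψ hker
    hA φ
  obtain ⟨x₀, hx₀, hall, hiff⟩ := hdesc
  constructor
  · intro hc
    exact habs2 x₀ hx₀ (fun h => (hiff.mp h) hc) hall
  · intro hc
    apply habs4
    intro c hcC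
    have hx₀K := hiff.mpr hc
    rcases hall c hcC with h | h
    · exact h
    · have h3 : c = (c * x₀⁻¹) * x₀ := by group
      rw [h3]
      exact Subgroup.mul_mem _ h hx₀K

/-- PIECE R2 modulo the descent statement PF-R2D. -/
theorem split_two_plus_of_desc {F₀ : Type v} [Field F₀] [Fintype F₀] {F : Type u} [Field F]
    [Fintype F]
    (h2 : (2 : F) ≠ 0) {m : ℕ} (hm : 4 ≤ m) (e : F₀ →+* F)
    (σ : F ≃+* F) (hr : orderOf σ = 2)
    (he : ∀ x : F, σ x = x ↔ x ∈ Set.range e)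
    (φ : MulAut (Cfsg.POmega F (Cfsg.quadFormPlus m F)))
    (hdesc : ∃ x₀ ∈ Cfsg.inndiagPOmegaPlus m F ⊓ Subgroup.centralizer {φ},
      (∀ c ∈ Cfsg.inndiagPOmegaPlus m F ⊓ Subgroup.centralizer {φ},
        c ∈ Cfsg.Inn (Cfsg.POmega F (Cfsg.quadFormPlus m F)) ∨
        c * x₀⁻¹ ∈ Cfsg.Inn (Cfsg.POmega F (Cfsg.quadFormPlus m F))) ∧
      (x₀ ∈ Cfsg.Inn (Cfsg.POmega F (Cfsg.quadFormPlus m F)) ↔
        ¬ (Odd m ∧ Fintype.card F₀ % 4 = 1))) :
    ((Odd m ∧ Fintype.card F₀ % 4 = 1) →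
      Cfsg.splitClassCount (Cfsg.inndiagPOmegaPlus m F)
        (Cfsg.Inn (Cfsg.POmega F (Cfsg.quadFormPlus m F))) φ = 2) ∧
    (¬ (Odd m ∧ Fintype.card F₀ % 4 = 1) →
      Cfsg.splitClassCount (Cfsg.inndiagPOmegaPlus m F)
        (Cfsg.Inn (Cfsg.POmega F (Cfsg.quadFormPlus m F))) φ = 4) :=
  pfr2_aux h2 hm e σ hr he (Cfsg.quadFormPlus m F) (Cfsg.Agent.Lib.Helper51.coe_QPlus m F).symm φ
    hdesc

end Cfsg.Agent.Lib.Helper52.PF
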