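import Mathlib
import Cfsg.Agent.Lib.Helper54.OrthInnPlus

/-!
# Project PF (helper52, S2715), piece R2, step (iii) (helper35)

The automorphism of `PΩ⁺_{2m}(F)` induced by `plusScale (e δ₀)`, `δ₀` a non-square of the subfield
`F₀` of index two, is inner iff not (`m` odd and `|F₀| ≡ 1 mod 4`).
-/

set_option autoImplicit false
set_option linter.unusedSectionVars false
set_option linter.unusedVariables false

namespace Cfsg.Agent.Lib.Helper52.PF

open Cfsg Matrix
open Cfsg.Agent.Lib.Helper51 Cfsg.Agent.Lib.Helper54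

universe u v

/-- `plusScale` is multiplicative -/
theorem pfr2_plusScale_mul {F : Type u} [Field F] [Fintype F] {m : ℕ} (a b : Fˣ) :
    plusScale m (a * b) = plusScale m a * plusScale m b := by
  apply Subtype.ext
  apply Units.ext
  show diagonal (Sum.elim (fun _ => ((a * b : Fˣ) : F)) (fun _ => 1)) =
      diagonal (Sum.elim (fun _ => (a : F)) (fun _ => 1)) *
      diagonal (Sum.elim (fun _ => (b : F)) (fun _ => 1))
  rw [diagonal_mul_diagonal]
  congr 1
  funext k
  rcases k with k | k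
  · simp
  · simp

theorem pfr2_ringChar {K : Type*} [Field K] (h2 : (2 : K) ≠ 0) : ringChar K ≠ 2 := by
  intro h
  apply h2
  have h3 := ringChar.Nat.cast_ringChar (R := K)
  rw [h] at h3
  exact_mod_cast h3

/-- elements of a subfield of index two are squares -/
theorem pfr2_isSquare_up {F₀ : Type v} [Field F₀] [Fintype F₀] {F : Type u} [Field F] [Fintype F]
    (h2 : (2 : F) ≠ 0) (e : F₀ →+* F) (hcard : Fintype.card F = Fintype.card F₀ ^ 2) (a₀ : F₀) :
    IsSquare (e a₀) := by
  have hF := pfr2_ringChar h2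
  have hoddF : Fintype.card F % 2 = 1 := FiniteField.odd_card_of_char_ne_two hF
  have hodd : Odd (Fintype.card F₀) := by
    have h1 : Odd (Fintype.card F) := Nat.odd_iff.mpr hoddF
    rw [hcard, pow_two] at h1
    exact (Nat.odd_mul.1 h1).1
  by_cases ha : a₀ = 0
  · subst ha
    exact ⟨0, by rw [map_zero, mul_zero]⟩
  · have ha' : e a₀ ≠ 0 := by
      intro h0
      exact ha (e.injective (by rw [h0, map_zero]))
    rw [FiniteField.isSquare_iff hF ha']
    obtain ⟨k, hk⟩ := hodd
    have h1 : Fintype.card F / 2 = (Fintype.card F₀ - 1) * (k + 1) := by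
      rw [hcard, hk]
      have h3 : (2 * k + 1) ^ 2 = 2 * ((2 * k + 1 - 1) * (k + 1)) + 1 := by
        rw [Nat.add_sub_cancel]
        ring
      rw [h3]
      generalize (2 * k + 1 - 1) * (k + 1) = X
      omega
    rw [h1, ← map_pow, pow_mul, FiniteField.pow_card_sub_one_eq_one a₀ ha, one_pow, map_one]

/-- a square root in `F` of a non-square of `F₀` is a square iff `|F₀| ≡ 3 mod 4` -/
theorem pfr2_sqrt_isSquare {F₀ : Type v} [Field F₀] [Fintype F₀] {F : Type u} [Field F]
    [Fintype F] (h2 : (2 : F) ≠ 0) (e : F₀ →+* F)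
    (hcard : Fintype.card F = Fintype.card F₀ ^ 2)
    (δ₀ : F₀) (hδ₀ : ¬ IsSquare δ₀) (ν : F) (hν : e δ₀ = ν * ν) :
    IsSquare ν ↔ Fintype.card F₀ % 4 = 3 := by
  have hF := pfr2_ringChar h2
  have h2₀ : (2 : F₀) ≠ 0 := by
    intro h
    apply h2
    have h3 := congrArg e h
    rw [map_ofNat, map_zero] at h3
    exact h3
  have hF₀ := pfr2_ringChar h2₀
  have hδ0 : δ₀ ≠ 0 := by
    rintro rfl
    exact hδ₀ ⟨0, by rw [mul_zero]⟩
  have hν0 : ν ≠ 0 := by
    rintro rfl
    rw [mul_zero] at hν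
    exact hδ0 (e.injective (by rw [hν, map_zero]))
  have hoddF : Fintype.card F % 2 = 1 := FiniteField.odd_card_of_char_ne_two hF
  have hodd₀ : Odd (Fintype.card F₀) := by
    have h1 : Odd (Fintype.card F) := Nat.odd_iff.mpr hoddF
    rw [hcard, pow_two] at h1
    exact (Nat.odd_mul.1 h1).1
  obtain ⟨k, hk⟩ := hodd₀
  have hhalf₀ : Fintype.card F₀ / 2 = k := by omega
  have hhalf : Fintype.card F / 2 = 2 * k * (k + 1) := by
    rw [hcard, hk]
    have h3 : (2 * k + 1) ^ 2 = 2 * (2 * k * (k + 1)) + 1 := by ring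
    rw [h3]
    generalize 2 * k * (k + 1) = X
    omega
  have hδpow : δ₀ ^ k = -1 := by
    rcases FiniteField.pow_dichotomy hF₀ hδ0 with h | h
    · exfalso
      apply hδ₀
      rw [FiniteField.isSquare_iff hF₀ hδ0]
      exact h
    · rw [hhalf₀] at h
      exact h
  rw [FiniteField.isSquare_iff hF hν0, hhalf]
  have hpow : ν ^ (2 * k * (k + 1)) = (-1) ^ (k + 1) := by
    rw [pow_mul, pow_mul, pow_two, ← hν, ← map_pow, hδpow, map_neg, map_one]
  rw [hpow]
  have hne : (-1 : F) ≠ 1 := by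
    intro h
    apply h2
    linear_combination (-1 : F) * h
  rcases Nat.even_or_odd k with hev | hod
  · have h1 : (-1 : F) ^ (k + 1) = -1 := Odd.neg_one_pow (Even.add_one hev)
    rw [h1]
    constructor
    · intro h
      exact absurd h hne
    · intro h
      obtain ⟨j, hj⟩ := hev
      omega
  · have h1 : (-1 : F) ^ (k + 1) = 1 := Even.neg_one_pow (Odd.add_one hod)
    rw [h1]
    constructor
    · intro _
      obtain ⟨j, hj⟩ := hod
      omega
    · intro _
      rfl

/-- step (iii) of PF-R2: the class of `plusScale (e δ₀)` in `Inndiag / Inn`. -/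
theorem pfr2_x0_inn {F₀ : Type v} [Field F₀] [Fintype F₀] {F : Type u} [Field F] [Fintype F]
    (h2 : (2 : F) ≠ 0) {m : ℕ} (hm : 4 ≤ m) (e : F₀ →+* F)
    (hcard : Fintype.card F = Fintype.card F₀ ^ 2) (δ₀ : F₀) (hδ₀ : ¬ IsSquare δ₀) (u : Fˣ)
    (hu : (u : F) = e δ₀) :
    simAut ⇑(QPlus m F) (plusScale m u) ∈ Cfsg.Inn (Cfsg.POmega F ⇑(QPlus m F)) ↔
      ¬ (Odd m ∧ Fintype.card F₀ % 4 = 1) := by
  classical
  have hm1 : 1 ≤ m := by omega
  have hm3 : 3 ≤ m := by omega
  have hF := pfr2_ringChar h2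
  have hoddF' : Fintype.card F % 2 = 1 := FiniteField.odd_card_of_char_ne_two hF
  have hoddF : Odd (Fintype.card F) := Nat.odd_iff.mpr hoddF'
  have hodd₀ : Odd (Fintype.card F₀) := by
    have h1 := hoddF
    rw [hcard, pow_two] at h1
    exact (Nat.odd_mul.1 h1).1
  have hmod : Fintype.card F % 4 = 1 := by
    obtain ⟨k, hk⟩ := hodd₀
    rw [hcard, hk]
    have h3 : (2 * k + 1) ^ 2 = 4 * (k * k + k) + 1 := by ring
    rw [h3]
    omega
  have hcond : ¬ (Odd m ∧ Fintype.card F % 4 = 3) := by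
    rintro ⟨-, h3⟩
    omega
  have hneg : negO (QPlus m F) ∈ commutator ↥(isometryGroup F ⇑(QPlus m F)) := by
    rw [negO_mem_plus_iff h2, neg_one_cond hoddF m]
    exact hcond
  have hs : IsSquare (-1 : F) := by
    rw [FiniteField.isSquare_neg_one_iff]
    omega
  obtain ⟨ν, hν⟩ := pfr2_isSquare_up h2 e hcard δ₀
  have hδ0 : δ₀ ≠ 0 := by
    rintro rfl
    exact hδ₀ ⟨0, by rw [mul_zero]⟩
  have hν0 : ν ≠ 0 := by
    rintro rfl
    rw [mul_zero] at hν
    exact hδ0 (e.injective (by rw [hν, map_zero]))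
  obtain ⟨ν', hν'⟩ : ∃ ν' : Fˣ, (ν' : F) = ν := ⟨Units.mk0 ν hν0, rfl⟩
  have huν : u = ν' * ν' := by
    apply Units.ext
    rw [Units.val_mul, hν', hu, hν]
  have hkey : ∀ g : ↥(Geo.quadSimilarityGroup (F := F) ⇑(QPlus m F)),
      simAut ⇑(QPlus m F) g ∈ Cfsg.Inn (Cfsg.POmega F ⇑(QPlus m F)) ↔
      g ∈ (omegaGL ⇑(QPlus m F)).subgroupOf (Geo.quadSimilarityGroup (F := F) ⇑(QPlus m F)) ⊔
        (simAut ⇑(QPlus m F)).ker := by
    intro g
    rw [inn_eq, ← Subgroup.mem_comap, Subgroup.comap_map_eq]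
  have hz : scalarSim (QPlus m F) ν' ∈
      (omegaGL ⇑(QPlus m F)).subgroupOf (Geo.quadSimilarityGroup (F := F) ⇑(QPlus m F)) ⊔
        (simAut ⇑(QPlus m F)).ker :=
    Subgroup.mem_sup_right (MonoidHom.mem_ker.mpr
      (simAut_of_scalar (QPlus m F) _ (ν' : F) (coe_scalarSim (QPlus m F) ν')))
  rw [hkey, huν, pfr2_plusScale_mul, plusScale_sq, Subgroup.mul_mem_cancel_left _ hz,
    iso_mem_join_iff (QPlus m F) (hv_plus hm1) (simAut_ker_plus hm3) hneg]
  have hdet : detO (QPlus m F) (Lhom (diagGL (fun _ : Fin m => ν'))) = 1 := by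
    have h1 := congrArg (simSgn (QPlus m F) (hv_plus hm1) m) (plusScale_sq (m := m) ν')
    rw [map_mul, map_mul, simSgn_plusScale hm1, one_mul, simSgn_isoSim,
      simSgn_of_scalar _ _ m card_plus _ _ (coe_scalarSim _ _), one_mul] at h1
    exact h1.symm
  have hsq := pfr2_sqrt_isSquare h2 e hcard δ₀ hδ₀ ν hν
  rcases Nat.even_or_odd m with hev | hodd
  · have hmem := mem_commutator_of_det_spin (QPlus m F) hF polarSep_plus _ hdet
      (spinChar_Lhom_diag_even h2 hm1 hev ν')
    constructor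
    · intro _
      rintro ⟨hodd, -⟩
      exact (Nat.not_even_iff_odd.mpr hodd) hev
    · intro _
      exact hmem
  · by_cases hνsq : IsSquare ν
    · obtain ⟨t, ht⟩ := hνsq
      have ht0 : t ≠ 0 := by
        rintro rfl
        rw [mul_zero] at ht
        exact hν0 ht
      have hf : (fun _ : Fin m => ν') =
          (fun _ : Fin m => Units.mk0 t ht0) * (fun _ : Fin m => Units.mk0 t ht0) := by
        funext i
        show ν' = Units.mk0 t ht0 * Units.mk0 t ht0
        apply Units.ext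
        rw [Units.val_mul, hν', Units.val_mk0, ht]
      have hspin : spinChar (QPlus m F) 1 (Lhom (diagGL (fun _ : Fin m => ν'))) = 1 := by
        rw [hf, map_mul, map_mul, map_mul, Int.units_mul_self]
      have hmem := mem_commutator_of_det_spin (QPlus m F) hF polarSep_plus _ hdet hspin
      constructor
      · intro _
        rintro ⟨-, h1⟩
        have h3 := hsq.mp ⟨t, ht⟩
        omega
      · intro _
        exact hmem
    · have hu' : ¬ IsSquare ν' := by
        rintro ⟨r, hr⟩
        apply hνsq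
        refine ⟨(r : F), ?_⟩
        rw [← hν', hr, Units.val_mul]
      have hspin := spinChar_Lhom_diag_odd h2 hm1 hodd hs ν' hu'
      constructor
      · intro hmem
        have h1 := spinChar_eq_one_of_mem (QPlus m F) 1 _ hmem
        rw [hspin] at h1
        exact absurd h1 (by decide)
      · intro hc
        exfalso
        apply hc
        refine ⟨hodd, ?_⟩
        have h3 : ¬ Fintype.card F₀ % 4 = 3 := fun h => hνsq (hsq.mpr h)
        obtain ⟨k, hk⟩ := hodd₀
        omega

end Cfsg.Agent.Lib.Helper52.PF
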