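import Cfsg.Agent.Lib.Helper96.PmGlue
import Cfsg.Agent.Lib.Helper42.PiEXA
import Cfsg.Agent.Lib.Helper64.PiCONA
import Cfsg.Agent.Lib.Helper87.PiUNIC
import Cfsg.Agent.Lib.Helper53.PiU3
import Cfsg.Agent.Lib.Lead.PiU1
import Cfsg.Agent.Lib.Lead.PiU2
import Cfsg.Agent.Lib.Lead.PiU4

/-!
Project PM (S5991, helper96), piece UNIDS (`unip_D_struct`), proved by helper35.
-/

set_option autoImplicit false
set_option linter.unusedSectionVars false
set_option linter.unusedVariables false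

namespace Cfsg.Agent.Lib.Helper35.Pm

open Module Cfsg.Agent.Lib.Helper96.Sp Cfsg.Agent.Lib.Helper96.BG Cfsg.Agent.Lib.Helper96.Hy
  Cfsg.Agent.Lib.Helper96.Pi Cfsg.Agent.Lib.Helper47

universe u

variable {F : Type u} [Field F] [Fintype F] {V : Type u} [AddCommGroup V] [Module F V]
  [FiniteDimensional F V] {B : LinearMap.BilinForm F V}

-- PIECE UNIDS
theorem unip_D_struct (hS : B.IsSymm) (h2 : (2 : F) ≠ 0) (hN : ND B ⊤) (T : Module.End F V)
    (hT : Isom B T) (u₁ : V) (hu₁ : (T - 1) u₁ = 0)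
    (hker : LinearMap.ker (T - 1) ≤ LinearMap.range (T - 1) ⊔ Submodule.span F {u₁})
    (X : Submodule F V) (hX : ND B X) (hXT : X.map T ≤ X)
    (hX2 : X.map ((T - 1) * (T - 1)) = ⊥)
    (hfin : finrank F X = 2 * finrank F (X.map (T - 1)) + 1) :
    ∃ w₁ ∈ X, ∃ α : F, α ≠ 0 ∧ B w₁ w₁ = α * α * B u₁ u₁ ∧
      Hyp B (X ⊓ B.orthogonal (Submodule.span F {w₁})) := by
  classical
  have hsym : ∀ x y : V, B x y = B y x := fun x y => (hS.eq y x).symm
  have horth := Cfsg.Agent.Lib.Helper96.Sp.orth_ker_range (B := B) hT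
  -- `U = N X`
  have hUX : X.map (T - 1) ≤ X := by
    rintro _ ⟨x, hx, rfl⟩
    have h1 : T x ∈ X := hXT (Submodule.mem_map_of_mem hx)
    have e : (T - 1) x = T x - x := by
      rw [LinearMap.sub_apply, Module.End.one_apply]
    rw [e]
    exact X.sub_mem h1 hx
  have hNN : ∀ x ∈ X, (T - 1) ((T - 1) x) = 0 := by
    intro x hx
    have h1 : ((T - 1) * (T - 1)) x ∈ X.map ((T - 1) * (T - 1)) := Submodule.mem_map_of_mem hx
    rw [hX2, Submodule.mem_bot] at h1
    exact h1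
  have hUker : X.map (T - 1) ≤ LinearMap.ker (T - 1) := by
    rintro _ ⟨x, hx, rfl⟩
    rw [LinearMap.mem_ker]
    exact hNN x hx
  have hUrange : X.map (T - 1) ≤ LinearMap.range (T - 1) := by
    rintro _ ⟨x, hx, rfl⟩
    exact LinearMap.mem_range_self _ x
  -- `U` is totally singular (it lies in `ker N ⊓ range N`)
  have hUU : Orth B (X.map (T - 1)) (X.map (T - 1)) := fun a ha b hb =>
    horth a (hUker ha) b (hUrange hb)
  -- dimension of `X ⊓ ker N`
  have hrn := Cfsg.Agent.Lib.Lead.Pi.piU4_rank_nullity (T - 1) X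
  have hle : X.map (T - 1) ≤ X ⊓ LinearMap.ker (T - 1) := le_inf hUX hUker
  -- choose `w₁`
  have hw : ∃ w₁ ∈ X ⊓ LinearMap.ker (T - 1), w₁ ∉ X.map (T - 1) := by
    by_contra hcon
    push_neg at hcon
    have h1 : X ⊓ LinearMap.ker (T - 1) ≤ X.map (T - 1) := fun w hw => hcon w hw
    have h3 := Submodule.finrank_mono h1
    omega
  obtain ⟨w₁, hw₁, hw₁U⟩ := hw
  have hw₁X : w₁ ∈ X := hw₁.1
  have hw₁k : w₁ ∈ LinearMap.ker (T - 1) := hw₁.2
  -- decompose `w₁`
  obtain ⟨r', hr', z, hz, hsum⟩ := Submodule.mem_sup.1 (hker hw₁k)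
  obtain ⟨α, rfl⟩ := Submodule.mem_span_singleton.1 hz
  have hu₁k : u₁ ∈ LinearMap.ker (T - 1) := LinearMap.mem_ker.2 hu₁
  have hr'k : r' ∈ LinearMap.ker (T - 1) := by
    have e : r' = w₁ - α • u₁ := by rw [← hsum]; abel
    rw [e]
    exact Submodule.sub_mem _ hw₁k (Submodule.smul_mem _ _ hu₁k)
  have h11 : B r' r' = 0 := horth r' hr'k r' hr'
  have h12 : B u₁ r' = 0 := horth u₁ hu₁k r' hr'
  have h13 : B r' u₁ = 0 := by rw [hsym]; exact h12
  have hval : B w₁ w₁ = α * α * B u₁ u₁ := by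
    rw [← hsum]
    simp only [map_add, map_smul, LinearMap.add_apply, LinearMap.smul_apply, smul_eq_mul,
      h11, h12, h13]
    ring
  -- `w₁` is orthogonal to `U`
  have hw₁U' : ∀ a ∈ X.map (T - 1), B w₁ a = 0 := fun a ha => horth w₁ hw₁k a (hUrange ha)
  have hw₁U'' : ∀ a ∈ X.map (T - 1), B a w₁ = 0 := fun a ha => by
    rw [hsym]; exact hw₁U' a ha
  -- `B w₁ w₁ ≠ 0`
  have hne : B w₁ w₁ ≠ 0 := by
    intro h0
    have hU'X : X.map (T - 1) ⊔ Submodule.span F {w₁} ≤ X :=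
      sup_le hUX ((Submodule.span_singleton_le_iff_mem _ _).2 hw₁X)
    have hU'U' : Orth B (X.map (T - 1) ⊔ Submodule.span F {w₁})
        (X.map (T - 1) ⊔ Submodule.span F {w₁}) := by
      intro a ha b hb
      obtain ⟨a1, ha1, a2, ha2, rfl⟩ := Submodule.mem_sup.1 ha
      obtain ⟨b1, hb1, b2, hb2, rfl⟩ := Submodule.mem_sup.1 hb
      obtain ⟨c, rfl⟩ := Submodule.mem_span_singleton.1 ha2
      obtain ⟨d, rfl⟩ := Submodule.mem_span_singleton.1 hb2
      simp only [map_add, map_smul, LinearMap.add_apply, LinearMap.smul_apply, smul_eq_mul,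
        hUU a1 ha1 b1 hb1, hw₁U' b1 hb1, hw₁U'' a1 ha1, h0]
      ring
    have hlt : X.map (T - 1) < X.map (T - 1) ⊔ Submodule.span F {w₁} := by
      refine lt_of_le_of_ne le_sup_left ?_
      intro heq
      apply hw₁U
      rw [heq]
      exact (le_sup_right : Submodule.span F {w₁} ≤ _) (Submodule.mem_span_singleton_self w₁)
    have h3 := Submodule.finrank_lt_finrank_of_lt hlt
    have h4 := Cfsg.Agent.Lib.Helper98.O72.finrank_inf_perp hS h2 hN hU'X hX
    have h5 : X.map (T - 1) ⊔ Submodule.span F {w₁} ≤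
        X ⊓ B.orthogonal (X.map (T - 1) ⊔ Submodule.span F {w₁}) := by
      intro a ha
      refine Submodule.mem_inf.2 ⟨hU'X ha, ?_⟩
      rw [Cfsg.Agent.Lib.Helper98.O72.mem_perp_iff' hS h2]
      intro b hb
      exact hU'U' a ha b hb
    have h6 := Submodule.finrank_mono h5
    omega
  have hα : α ≠ 0 := by
    intro h0
    apply hne
    rw [hval, h0]
    ring
  have hw₁0 : w₁ ≠ 0 := by
    intro h0
    apply hne
    rw [h0]
    simp
  refine ⟨w₁, hw₁X, α, hα, hval, ?_⟩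
  -- the hyperbolic space
  have hspanX : Submodule.span F {w₁} ≤ X := (Submodule.span_singleton_le_iff_mem _ _).2 hw₁X
  have hspanND : ND B (Submodule.span F {w₁}) := by
    intro a ha h
    obtain ⟨c, rfl⟩ := Submodule.mem_span_singleton.1 ha
    have h1 := h w₁ (Submodule.mem_span_singleton_self w₁)
    rw [map_smul, LinearMap.smul_apply, smul_eq_mul] at h1
    rcases mul_eq_zero.1 h1 with hc | hc
    · rw [hc, zero_smul]
    · exact absurd hc hne
  obtain ⟨hnd, -, hdim⟩ := Cfsg.Agent.Lib.Helper98.O72.nd_rel hS h2 hspanND hX hspanX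
  have h1dim : finrank F (Submodule.span F {w₁}) = 1 := finrank_span_singleton hw₁0
  refine ⟨hnd, X.map (T - 1), ?_, hUU, ?_⟩
  · intro a ha
    refine Submodule.mem_inf.2 ⟨hUX ha, ?_⟩
    rw [Cfsg.Agent.Lib.Helper98.O72.mem_perp_iff' hS h2]
    intro b hb
    obtain ⟨c, rfl⟩ := Submodule.mem_span_singleton.1 hb
    rw [map_smul, smul_eq_mul, hw₁U'' a ha, mul_zero]
  · omega

end Cfsg.Agent.Lib.Helper35.Pm
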