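import Cfsg.Agent.Lib.Helper35.FeitMain
import Mathlib

set_option autoImplicit false
open Cfsg

namespace Cfsg.Agent.Lib.Helper35

open Cfsg.Agent.Lib
open scoped commutatorElement

section QuotFrob

variable {L : Type*} [Group L] [Fintype L] (K : Subgroup L) [hK : K.Normal]

/-- if `L / H₁` is a Frobenius group with kernel `K / H₁`, then the index in `K` of a normal
subgroup of `L` between `H₁` and `K` is congruent to `1` modulo `|L : K|` -/
theorem quot_frob_dvd (H₁ : Subgroup L) [hH₁ : H₁.Normal] (hH₁K : H₁ ≤ K)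
    (hfrob : ∀ k ∈ K, k ∉ H₁ → ∀ x : L, x * k * x⁻¹ * k⁻¹ ∈ H₁ → x ∈ K)
    (A : Subgroup L) [hA : A.Normal] (hH₁A : H₁ ≤ A) (hAK : A ≤ K) :
    K.index ∣ A.relIndex K - 1 := by
  classical
  obtain ⟨f, hfdef⟩ : ∃ f : L →* L ⧸ H₁, f = QuotientGroup.mk' H₁ := ⟨_, rfl⟩
  have hf : Function.Surjective f := by
    rw [hfdef]
    exact QuotientGroup.mk'_surjective H₁
  have hker : f.ker = H₁ := by
    rw [hfdef]
    exact QuotientGroup.ker_mk' H₁
  let _ : Fintype (L ⧸ H₁) := Fintype.ofFinite _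
  have hKn : (K.map f).Normal := Subgroup.Normal.map hK f hf
  have hAn : (A.map f).Normal := Subgroup.Normal.map hA f hf
  have hfrob' : ∀ y : L ⧸ H₁, y ∉ K.map f → ∀ k ∈ K.map f, k * y = y * k → k = 1 := by
    intro y hy k hk hky
    obtain ⟨x, rfl⟩ := hf y
    obtain ⟨k₀, hk₀, rfl⟩ := Subgroup.mem_map.mp hk
    have hx : x ∉ K := fun h => hy (Subgroup.mem_map_of_mem f h)
    by_contra hne
    have hk₀H : k₀ ∉ H₁ := by
      intro h
      apply hne
      rw [← hker] at h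
      exact MonoidHom.mem_ker.mp h
    apply hx
    apply hfrob k₀ hk₀ hk₀H x
    rw [← hker, MonoidHom.mem_ker, map_mul, map_mul, map_mul, map_inv, map_inv, ← hky]
    group
  have h1 := frob_relIndex_dvd (K.map f) hfrob' (A.map f) (Subgroup.map_mono hAK)
  have hKi : (K.map f).index = K.index := Subgroup.index_map_eq K hf (by rw [hker]; exact hH₁K)
  have h4 : (A.map f).relIndex (K.map f) = A.relIndex K := by
    rw [← Subgroup.relIndex_comap, Subgroup.comap_map_eq_self (by rw [hker]; exact hH₁A)]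
  rw [hKi, h4] at h1
  exact h1

end QuotFrob

section CommPrime

variable {Γ : Type*} [Group Γ]

/-- a nilpotent normal subgroup whose commutator subgroup has prime index is abelian -/
theorem comm_bot_of_prime_index (T : Subgroup Γ) [hT : T.Normal] (hnil : Group.IsNilpotent T)
    (p : ℕ) (hp : p.Prime) (hidx : (⁅T, T⁆).relIndex T = p) : ⁅T, T⁆ = ⊥ := by
  have hT'n : (⁅T, T⁆).Normal := inferInstance
  have hT'le : ⁅T, T⁆ ≤ T := Subgroup.commutator_le_left T T
  obtain ⟨x, hxT, hxT'⟩ : ∃ x ∈ T, x ∉ ⁅T, T⁆ := by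
    by_contra h
    push Not at h
    have : T ≤ ⁅T, T⁆ := fun x hx => h x hx
    rw [Subgroup.relIndex_eq_one.mpr this] at hidx
    exact hp.one_lt.ne hidx
  have hCT : Subgroup.zpowers x ≤ T := Subgroup.zpowers_le.mpr hxT
  have hD : T ≤ Subgroup.zpowers x ⊔ ⁅T, T⁆ := by
    have h1 := Subgroup.relIndex_mul_relIndex ⁅T, T⁆ (Subgroup.zpowers x ⊔ ⁅T, T⁆) T le_sup_right
      (sup_le hCT hT'le)
    rw [hidx] at h1
    have h2 : (⁅T, T⁆).relIndex (Subgroup.zpowers x ⊔ ⁅T, T⁆) ≠ 1 := by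
      intro h
      exact hxT' (Subgroup.relIndex_eq_one.mp h
        ((le_sup_left : Subgroup.zpowers x ≤ _) (Subgroup.mem_zpowers x)))
    have h3 : (⁅T, T⁆).relIndex (Subgroup.zpowers x ⊔ ⁅T, T⁆) ∣ p := Dvd.intro _ h1
    have h4 := (Nat.dvd_prime hp).mp h3
    have h5 : (⁅T, T⁆).relIndex (Subgroup.zpowers x ⊔ ⁅T, T⁆) = p := by tauto
    rw [h5] at h1
    have h6 : (Subgroup.zpowers x ⊔ ⁅T, T⁆).relIndex T = 1 := by
      have : p * (Subgroup.zpowers x ⊔ ⁅T, T⁆).relIndex T = p * 1 := by rw [h1, mul_one]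
      exact Nat.eq_of_mul_eq_mul_left hp.pos this
    exact Subgroup.relIndex_eq_one.mp h6
  obtain ⟨n, hn⟩ := (Subgroup.isNilpotent_iff_lowerCentralSeries T).mp hnil
  have key : ∀ k : ℕ, ⁅T, T⁆ ≤ T.lowerCentralSeries (k + 1) := by
    intro k
    induction k with
    | zero =>
      rw [Subgroup.lowerCentralSeries_succ, Subgroup.lowerCentralSeries_zero]
    | succ k ih =>
      rw [Subgroup.commutator_le]
      intro g₁ hg₁ g₂ hg₂
      have hg₁' : g₁ ∈ (↑(Subgroup.zpowers x ⊔ ⁅T, T⁆) : Set Γ) := hD hg₁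
      have hg₂' : g₂ ∈ (↑(Subgroup.zpowers x ⊔ ⁅T, T⁆) : Set Γ) := hD hg₂
      rw [Subgroup.mul_normal] at hg₁' hg₂'
      obtain ⟨c₁, hc₁, a₁, ha₁, rfl⟩ := Set.mem_mul.mp hg₁'
      obtain ⟨c₂, hc₂, a₂, ha₂, rfl⟩ := Set.mem_mul.mp hg₂'
      have hcc : ⁅c₁, c₂⁆ = 1 := by
        obtain ⟨i, rfl⟩ := Subgroup.mem_zpowers_iff.mp hc₁
        obtain ⟨j, rfl⟩ := Subgroup.mem_zpowers_iff.mp hc₂
        rw [commutatorElement_eq_one_iff_mul_comm, ← zpow_add, ← zpow_add, add_comm]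
      have h1 : ⁅a₁, c₂ * a₂⁆ ∈ T.lowerCentralSeries (k + 1 + 1) := by
        rw [Subgroup.lowerCentralSeries_succ]
        exact Subgroup.commutator_mem_commutator (ih ha₁) hg₂
      have h2 : ⁅a₂, c₁⁆ ∈ T.lowerCentralSeries (k + 1 + 1) := by
        rw [Subgroup.lowerCentralSeries_succ]
        exact Subgroup.commutator_mem_commutator (ih ha₂) (hCT hc₁)
      have hn1 := Subgroup.self_le_normalizer_lowerCentralSeries T (k + 1 + 1) (hCT hc₁)
      have hn2 := Subgroup.self_le_normalizer_lowerCentralSeries T (k + 1 + 1) (hCT hc₂)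
      have e : ⁅c₁ * a₁, c₂ * a₂⁆ =
          (c₁ * ⁅a₁, c₂ * a₂⁆ * c₁⁻¹) * (⁅c₁, c₂⁆ * (c₂ * ⁅a₂, c₁⁆⁻¹ * c₂⁻¹)) := by
        simp only [commutatorElement_def]
        group
      rw [e, hcc, one_mul]
      exact (T.lowerCentralSeries (k + 1 + 1)).mul_mem
        ((Subgroup.mem_normalizer_iff.mp hn1 _).mp h1)
        ((Subgroup.mem_normalizer_iff.mp hn2 _).mp
          ((T.lowerCentralSeries (k + 1 + 1)).inv_mem h2))
  have h1 := key n
  have h2 : T.lowerCentralSeries (n + 1) ≤ T.lowerCentralSeries n :=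
    Subgroup.lowerCentralSeries_antitone T (Nat.le_succ n)
  rw [hn] at h2
  exact le_bot_iff.mp (h1.trans h2)

end CommPrime

end Cfsg.Agent.Lib.Helper35
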