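import Mathlib
import Cfsg.Agent.Lib.Helper23.Syl
import Cfsg.Agent.Lib.Helper23.SignArg
import Cfsg.Agent.Lib.Helper11.SignUniform

set_option autoImplicit false

/-! S0496 piece N10AB (helper35 for helper11): order 720, `n_3 = 10`: two sign computations on
the ten Sylow `3`-subgroups. -/

namespace Cfsg.Agent.S496

open Equiv

theorem n10ab_aux_card {Ω : Type*} [Fintype Ω] [DecidableEq Ω] (P Q : Ω) (hPQ : P ≠ Q)
    (hc : Fintype.card Ω = 10) (τ : Equiv.Perm Ω)
    (hτ : ∀ R, τ R ≠ R ↔ (R ≠ P ∧ R ≠ Q)) :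
    (Finset.univ.filter (fun a => τ a ≠ a)).card = 8 := by
  have e : Finset.univ.filter (fun a => τ a ≠ a) = (Finset.univ.erase P).erase Q := by
    ext R
    simp only [Finset.mem_filter, Finset.mem_univ, true_and, Finset.mem_erase, and_true]
    rw [hτ R]
    tauto
  rw [e, Finset.card_erase_of_mem, Finset.card_erase_of_mem (Finset.mem_univ _),
    Finset.card_univ, hc]
  simp only [Finset.mem_erase, Finset.mem_univ, and_true]
  exact hPQ.symm

theorem n10ab_aux_pow_smul {G : Type*} [Group G] {α : Type*} [MulAction G α] (s : G) (a : α)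
    (h : s • a = a) (j : ℕ) : s ^ j • a = a := by
  induction j with
  | zero => simp
  | succ j ih => rw [pow_succ, mul_smul, h, ih]

theorem n10ab_aux_not_comm {G : Type*} [Group G] [Finite G] [IsSimpleGroup G]
    (h : Nat.card G = 720) : ¬ IsMulCommutative G := by
  apply Cfsg.Agent.Lib.Helper23.not_comm_of_simple_of_not_prime
  rw [h]
  norm_num

theorem n10_a {G : Type*} [Group G] [Finite G] [IsSimpleGroup G] (h : Nat.card G = 720)
    (h10 : Nat.card (Sylow 3 G) = 10) (P Q : Sylow 3 G) (hPQ : P ≠ Q)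
    (hfix : ∀ s : G, s • P = P → s • Q = Q → s ≠ 1 → ∀ R : Sylow 3 G, s • R = R → R = P ∨ R = Q)
    (s : G) (hsP : s • P = P) (hsQ : s • Q = Q) (hs8 : s ^ 8 = 1) : s ^ 4 = 1 := by
  classical
  haveI : Fact (Nat.Prime 3) := ⟨by norm_num⟩
  haveI : Fintype (Sylow 3 G) := Fintype.ofFinite _
  by_contra hs4
  have hG := n10ab_aux_not_comm h
  have hn1 : Nat.card (Sylow 3 G) ≠ 1 := by rw [h10]; norm_num
  obtain ⟨-, hsign⟩ := Cfsg.Agent.Lib.Helper23.simple_sylow_action (p := 3) hG hn1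
  have hc : Fintype.card (Sylow 3 G) = 10 := by rw [← Nat.card_eq_fintype_card, h10]
  set σ : Equiv.Perm (Sylow 3 G) := MulAction.toPermHom G (Sylow 3 G) s with hσ
  have hσapp : ∀ (j : ℕ) (R : Sylow 3 G), (σ ^ j) R = s ^ j • R := by
    intro j R
    rw [hσ, ← map_pow]
    rfl
  have hσ1 : ∀ R : Sylow 3 G, σ R = s • R := fun R => rfl
  have hsj : ∀ j : ℕ, 0 < j → j < 8 → s ^ j ≠ 1 := by
    intro j hj0 hj8 hj
    have hd : orderOf s ∣ Nat.gcd j 8 :=
      Nat.dvd_gcd (orderOf_dvd_of_pow_eq_one hj) (orderOf_dvd_of_pow_eq_one hs8)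
    have h4 : Nat.gcd j 8 ∣ 4 := by
      interval_cases j <;> decide
    exact hs4 (orderOf_dvd_iff_pow_eq_one.mp (hd.trans h4))
  have hs1 : s ≠ 1 := by
    have := hsj 1 (by norm_num) (by norm_num)
    simpa using this
  have hfree : ∀ R, σ R = R ∨ ∀ j, 0 < j → j < 8 → (σ ^ j) R ≠ R := by
    intro R
    by_cases hR : σ R = R
    · exact Or.inl hR
    · right
      intro j hj0 hj8 hjR
      rw [hσapp] at hjR
      rcases hfix (s ^ j) (n10ab_aux_pow_smul s P hsP j) (n10ab_aux_pow_smul s Q hsQ j)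
        (hsj j hj0 hj8) R hjR with rfl | rfl
      · exact hR hsP
      · exact hR hsQ
  have hpow : ∀ R, (σ ^ 8) R = R := by
    intro R
    rw [hσapp, hs8, one_smul]
  have hmove : ∀ R, σ R ≠ R ↔ (R ≠ P ∧ R ≠ Q) := by
    intro R
    constructor
    · intro hR
      refine ⟨?_, ?_⟩
      · rintro rfl; exact hR hsP
      · rintro rfl; exact hR hsQ
    · rintro ⟨h1, h2⟩ hR
      rcases hfix s hsP hsQ hs1 R hR with h' | h'
      · exact h1 h'
      · exact h2 h'
  have hcard := n10ab_aux_card P Q hPQ hc σ hmove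
  have hsg := sign_of_uniform σ 8 1 (by decide) (by norm_num) hfree hpow (by rw [hcard])
  rw [hsign s] at hsg
  revert hsg
  decide

theorem n10_b {G : Type*} [Group G] [Finite G] [IsSimpleGroup G] (h : Nat.card G = 720)
    (h10 : Nat.card (Sylow 3 G) = 10) (P Q : Sylow 3 G) (hPQ : P ≠ Q)
    (hfix : ∀ s : G, s • P = P → s • Q = Q → s ≠ 1 → ∀ R : Sylow 3 G, s • R = R → R = P ∨ R = Q)
    (x : G) (hxP : x • P = Q) (hxQ : x • Q = P) (hx4 : x ^ 4 = 1) : x ^ 2 = 1 := by
  classical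
  haveI : Fact (Nat.Prime 3) := ⟨by norm_num⟩
  haveI : Fintype (Sylow 3 G) := Fintype.ofFinite _
  by_contra hz
  have hG := n10ab_aux_not_comm h
  have hn1 : Nat.card (Sylow 3 G) ≠ 1 := by rw [h10]; norm_num
  obtain ⟨-, hsign⟩ := Cfsg.Agent.Lib.Helper23.simple_sylow_action (p := 3) hG hn1
  have hc : Fintype.card (Sylow 3 G) = 10 := by rw [← Nat.card_eq_fintype_card, h10]
  set σ : Equiv.Perm (Sylow 3 G) := MulAction.toPermHom G (Sylow 3 G) x with hσ
  have hσapp : ∀ (j : ℕ) (R : Sylow 3 G), (σ ^ j) R = x ^ j • R := by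
    intro j R
    rw [hσ, ← map_pow]
    rfl
  have hσ1 : ∀ R : Sylow 3 G, σ R = x • R := fun R => rfl
  have hzP : x ^ 2 • P = P := by rw [pow_two, mul_smul, hxP, hxQ]
  have hzQ : x ^ 2 • Q = Q := by rw [pow_two, mul_smul, hxQ, hxP]
  -- the fixed points of `x ^ 2` are `P` and `Q`
  have hzfix : ∀ R : Sylow 3 G, x ^ 2 • R = R → R = P ∨ R = Q := hfix (x ^ 2) hzP hzQ hz
  -- `σ` preserves the complement of `{P, Q}`
  have hσS : ∀ R : Sylow 3 G, R ≠ P → R ≠ Q → σ R ≠ P ∧ σ R ≠ Q := by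
    intro R h1 h2
    refine ⟨?_, ?_⟩
    · intro hR
      rw [hσ1, ← hxQ] at hR
      exact h2 (MulAction.injective x hR)
    · intro hR
      rw [hσ1, ← hxP] at hR
      exact h1 (MulAction.injective x hR)
  set τ : Equiv.Perm (Sylow 3 G) := Equiv.swap P Q * σ with hτ
  have hτP : τ P = P := by
    rw [hτ, Equiv.Perm.mul_apply, hσ1, hxP, Equiv.swap_apply_right]
  have hτQ : τ Q = Q := by
    rw [hτ, Equiv.Perm.mul_apply, hσ1, hxQ, Equiv.swap_apply_left]
  have hτS : ∀ R : Sylow 3 G, R ≠ P → R ≠ Q → τ R = σ R := by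
    intro R h1 h2
    obtain ⟨h3, h4⟩ := hσS R h1 h2
    rw [hτ, Equiv.Perm.mul_apply, Equiv.swap_apply_of_ne_of_ne h3 h4]
  have hτpow : ∀ (j : ℕ) (R : Sylow 3 G), R ≠ P → R ≠ Q → (τ ^ j) R = (σ ^ j) R := by
    intro j
    induction j with
    | zero => intro R _ _; simp
    | succ j ih =>
      intro R h1 h2
      obtain ⟨h3, h4⟩ := hσS R h1 h2
      rw [pow_succ, Equiv.Perm.mul_apply, hτS R h1 h2, ih (σ R) h3 h4, pow_succ,
        Equiv.Perm.mul_apply]
  -- `x` has no fixed point outside `{P, Q}`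
  have hx1 : ∀ R : Sylow 3 G, R ≠ P → R ≠ Q → x • R ≠ R := by
    intro R h1 h2 hR
    have : x ^ 2 • R = R := by rw [pow_two, mul_smul, hR, hR]
    rcases hzfix R this with h' | h'
    · exact h1 h'
    · exact h2 h'
  have hfree : ∀ R, τ R = R ∨ ∀ j, 0 < j → j < 4 → (τ ^ j) R ≠ R := by
    intro R
    by_cases h1 : R = P
    · left; rw [h1]; exact hτP
    by_cases h2 : R = Q
    · left; rw [h2]; exact hτQ
    right
    intro j hj0 hj4 hjR
    rw [hτpow j R h1 h2, hσapp] at hjR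
    interval_cases j
    · rw [pow_one] at hjR
      exact hx1 R h1 h2 hjR
    · rcases hzfix R hjR with h' | h'
      · exact h1 h'
      · exact h2 h'
    · apply hx1 R h1 h2
      have h3 : x • (x ^ 3 • R) = x • R := by rw [hjR]
      rw [← mul_smul, ← pow_succ', hx4, one_smul] at h3
      exact h3.symm
  have hpow : ∀ R, (τ ^ 4) R = R := by
    intro R
    by_cases h1 : R = P
    · rw [h1]
      exact Equiv.Perm.pow_apply_eq_self_of_apply_eq_self hτP 4
    by_cases h2 : R = Q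
    · rw [h2]
      exact Equiv.Perm.pow_apply_eq_self_of_apply_eq_self hτQ 4
    rw [hτpow 4 R h1 h2, hσapp, hx4, one_smul]
  have hmove : ∀ R, τ R ≠ R ↔ (R ≠ P ∧ R ≠ Q) := by
    intro R
    constructor
    · intro hR
      refine ⟨?_, ?_⟩
      · rintro rfl; exact hR hτP
      · rintro rfl; exact hR hτQ
    · rintro ⟨h1, h2⟩ hR
      rw [hτS R h1 h2, hσ1] at hR
      exact hx1 R h1 h2 hR
  have hcard := n10ab_aux_card P Q hPQ hc τ hmove
  have hsg := sign_of_uniform τ 4 2 (by decide) (by norm_num) hfree hpow (by rw [hcard])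
  rw [hτ, Equiv.Perm.sign_mul, Equiv.Perm.sign_swap hPQ, hsign x] at hsg
  revert hsg
  decide

end Cfsg.Agent.S496
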