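import Mathlib
import Cfsg.Prelude.Def_GeometricClasses
import Cfsg.Agent.Lib.Helper71.SLP0

/-! SLP piece N1 (helper35 for helper71; S5793, S5808, S5853): `SL_n(F)` is not contained in the
stabiliser of a proper non-zero subspace. -/

set_option autoImplicit false

namespace Cfsg.Agent.Lib.Helper35.SLPN1

open Matrix Cfsg.Geo Cfsg.Agent.Lib.Helper71.SLP

variable {n : ℕ} {F : Type*} [Field F] [Fintype F]

/-- N1 -/
theorem N1 (hn : 2 ≤ n) (W : Submodule F (Fin n → F)) (h0 : W ≠ ⊥) (h1 : W ≠ ⊤) :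
    ¬ specialLinear (Fin n) F ≤ subspaceStabilizer W := by
  intro hle
  obtain ⟨w, hwW, hw0⟩ := Submodule.exists_mem_ne_zero_of_ne_bot h0
  obtain ⟨u, hu⟩ : ∃ u, u ∉ W := by
    by_contra h
    push Not at h
    exact h1 (eq_top_iff.mpr fun u _ => h u)
  have hwu : w ∉ Submodule.span F {u} := by
    intro hw
    rw [Submodule.mem_span_singleton] at hw
    obtain ⟨c, rfl⟩ := hw
    have hc : c ≠ 0 := by
      rintro rfl
      simp at hw0
    apply hu
    have e : u = c⁻¹ • (c • u) := by rw [smul_smul, inv_mul_cancel₀ hc, one_smul]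
    rw [e]
    exact W.smul_mem _ hwW
  obtain ⟨φ, hφw, hφu⟩ := exists_dual (Submodule.span F {u}) w hwu
  have hφu0 : φ ⬝ᵥ u = 0 := hφu u (Submodule.mem_span_singleton_self u)
  have hg := hle (tv_mem_specialLinear u φ hφu0)
  have hg' : ∀ v, v ∈ W ↔ (tv u φ hφu0).1 *ᵥ v ∈ W := hg
  have h2 := (hg' w).mp hwW
  rw [tv_mulVec, hφw, one_smul] at h2
  exact hu ((W.add_mem_iff_right hwW).mp h2)

end Cfsg.Agent.Lib.Helper35.SLPN1
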