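import Mathlib
import Cfsg.Prelude.Def_GeometricClasses
import Cfsg.Agent.Lib.Helper71.SLP0

/-! S5775 (helper35), part Q4a: a cubic field subalgebra `K` of `M₃(F)`, `|F| = 4`:
field structure on `K`, an element `u` of order `7`, roots of unity in `K`. -/

set_option autoImplicit false

namespace Cfsg.Agent.Lib.Helper35.SLPQ4

open Matrix Cfsg.Geo Cfsg.Agent.Lib.Helper71.SLP

variable {F : Type*} [Field F] [Fintype F]

/-! ### The field with four elements -/

theorem two_eq_zero (hq : Fintype.card F = 4) : (2 : F) = 0 := by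
  have h4 : ((Fintype.card F : ℕ) : F) = 0 := FiniteField.cast_card_eq_zero F
  rw [hq] at h4
  have h22 : (2 : F) * 2 = 0 := by
    have : ((4 : ℕ) : F) = 2 * 2 := by norm_num
    rw [← this]; exact h4
  rcases mul_eq_zero.mp h22 with h | h <;> exact h

theorem pow_four (hq : Fintype.card F = 4) (a : F) : a ^ 4 = a := by
  have := FiniteField.pow_card a
  rwa [hq] at this

theorem pow_three (hq : Fintype.card F = 4) {a : F} (ha : a ≠ 0) : a ^ 3 = 1 := by
  have h := pow_four hq a
  have : a * a ^ 3 = a * 1 := by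
    calc a * a ^ 3 = a ^ 4 := by ring
      _ = a := h
      _ = a * 1 := (mul_one a).symm
  exact mul_left_cancel₀ ha this

/-- the prime subfield `{0, 1}` -/
def F0 (hq : Fintype.card F = 4) : Subfield F where
  carrier := {x | x ^ 2 = x}
  mul_mem' := by
    intro a b ha hb
    show (a * b) ^ 2 = a * b
    rw [mul_pow, ha, hb]
  one_mem' := by simp
  add_mem' := by
    intro a b ha hb
    show (a + b) ^ 2 = a + b
    have h2 := two_eq_zero hq
    have ha' : a ^ 2 = a := ha
    have hb' : b ^ 2 = b := hb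
    linear_combination ha' + hb' + a * b * h2
  zero_mem' := by simp
  neg_mem' := by
    intro a ha
    show (-a) ^ 2 = -a
    have h2 := two_eq_zero hq
    have ha' : a ^ 2 = a := ha
    linear_combination ha' + a * h2
  inv_mem' := by
    intro a ha
    show (a⁻¹) ^ 2 = a⁻¹
    have ha' : a ^ 2 = a := ha
    rw [inv_pow, ha']

theorem mem_F0 (hq : Fintype.card F = 4) (x : F) : x ∈ F0 hq ↔ x ^ 2 = x := Iff.rfl

theorem mem_F0_iff (hq : Fintype.card F = 4) (x : F) : x ∈ F0 hq ↔ x = 0 ∨ x = 1 := by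
  rw [mem_F0]
  constructor
  · intro h
    have : x * (x - 1) = 0 := by linear_combination h
    rcases mul_eq_zero.mp this with h | h
    · exact Or.inl h
    · exact Or.inr (sub_eq_zero.mp h)
  · rintro (rfl | rfl) <;> simp

theorem card_F0 (hq : Fintype.card F = 4) : Nat.card (F0 hq) = 2 := by
  have e : ((F0 hq : Subfield F) : Set F) = {0, 1} := by
    ext x
    simp only [SetLike.mem_coe, Set.mem_insert_iff, Set.mem_singleton_iff]
    exact mem_F0_iff hq x
  have h1 : Nat.card (F0 hq) = Set.ncard ((F0 hq : Subfield F) : Set F) := rfl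
  rw [h1, e, Set.ncard_pair zero_ne_one]

/-! ### The field structure on `K` -/

variable (K : Subalgebra F (Matrix (Fin 3) (Fin 3) F))

theorem K_inv_exists (hK : IsFieldSubalgebra 3 K) (x : K) (hx : x ≠ 0) :
    ∃ y : K, x * y = 1 := by
  obtain ⟨y, hy, hxy⟩ := hK.inv x.1 x.2 (fun h0 => hx (Subtype.ext h0))
  exact ⟨⟨y, hy⟩, Subtype.ext hxy⟩

open Classical in
/-- the field structure on a field subalgebra -/
@[reducible] noncomputable def kField (hK : IsFieldSubalgebra 3 K) : Field K :=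
  { (inferInstance : Ring K) with
    mul_comm := fun a b => Subtype.ext (hK.comm a.1 a.2 b.1 b.2)
    inv := fun x => if h : x = 0 then 0 else Classical.choose (K_inv_exists K hK x h)
    exists_pair_ne := ⟨0, 1, fun h => by
      have h1 := congrArg Subtype.val h
      have h2 := congrFun (congrFun h1 0) 0
      simp at h2⟩
    mul_inv_cancel := fun x hx => by
      show x * (if h : x = 0 then 0 else Classical.choose (K_inv_exists K hK x h)) = 1
      rw [dif_neg hx]
      exact Classical.choose_spec (K_inv_exists K hK x hx)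
    inv_zero := by
      show (if h : (0 : K) = 0 then (0 : K) else Classical.choose (K_inv_exists K hK 0 h)) = 0
      rw [dif_pos rfl]
    nnqsmul := _
    qsmul := _ }

theorem card_K (hK : IsFieldSubalgebra 3 K) (hq : Fintype.card F = 4) : Nat.card K = 64 := by
  have h := Module.natCard_eq_pow_finrank (K := F) (V := K)
  rw [hK.finrank_eq, Nat.card_eq_fintype_card (α := F), hq] at h
  rw [h]
  norm_num

theorem K_pow63 (hK : IsFieldSubalgebra 3 K) (hq : Fintype.card F = 4)
    (k : Matrix (Fin 3) (Fin 3) F) (hk : k ∈ K) (hk0 : k ≠ 0) : k ^ 63 = 1 := by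
  classical
  letI := kField K hK
  haveI : Fintype K := Fintype.ofFinite K
  have hc : Fintype.card K = 64 := by rw [← Nat.card_eq_fintype_card, card_K K hK hq]
  have h := FiniteField.pow_card_sub_one_eq_one (⟨k, hk⟩ : K)
    (fun h0 => hk0 (congrArg Subtype.val h0))
  rw [hc] at h
  exact congrArg Subtype.val h

theorem exists_u (hK : IsFieldSubalgebra 3 K) (hq : Fintype.card F = 4) :
    ∃ u ∈ K, u ^ 7 = 1 ∧ u ≠ 1 := by
  classical
  letI := kField K hK
  haveI : Fintype K := Fintype.ofFinite K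
  have hc : Fintype.card K = 64 := by rw [← Nat.card_eq_fintype_card, card_K K hK hq]
  have hcu : Fintype.card Kˣ = 63 := by rw [Fintype.card_units, hc]
  haveI : Fact (Nat.Prime 7) := ⟨by norm_num⟩
  obtain ⟨x, hx⟩ := exists_prime_orderOf_dvd_card 7
    (by rw [hcu]; norm_num : 7 ∣ Fintype.card Kˣ)
  refine ⟨(x : K).1, (x : K).2, ?_, ?_⟩
  · have h7 : x ^ 7 = 1 := by rw [← hx]; exact pow_orderOf_eq_one x
    have h7' : ((x : K)) ^ 7 = 1 := by
      rw [← Units.val_pow_eq_pow_val, h7, Units.val_one]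
    exact congrArg Subtype.val h7'
  · intro h1
    have : x = 1 := Units.ext (Subtype.ext h1)
    rw [this, orderOf_one] at hx
    norm_num at hx

/-- roots of unity in `K` are powers of a primitive one -/
theorem K_roots (hK : IsFieldSubalgebra 3 K) {k : ℕ} [NeZero k]
    (ζ : Matrix (Fin 3) (Fin 3) F) (hζK : ζ ∈ K) (hζ : ζ ^ k = 1)
    (hprim : ∀ l : ℕ, ζ ^ l = 1 → k ∣ l) (x : Matrix (Fin 3) (Fin 3) F) (hxK : x ∈ K)
    (hx : x ^ k = 1) : ∃ i < k, ζ ^ i = x := by
  letI := kField K hK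
  have h : IsPrimitiveRoot (⟨ζ, hζK⟩ : K) k :=
    ⟨Subtype.ext hζ, fun l hl => hprim l (congrArg Subtype.val hl)⟩
  obtain ⟨i, hi, e⟩ := h.eq_pow_of_pow_eq_one (ξ := ⟨x, hxK⟩) (Subtype.ext hx)
  exact ⟨i, hi, congrArg Subtype.val e⟩

theorem prim7 (u : Matrix (Fin 3) (Fin 3) F) (h7 : u ^ 7 = 1) (h1 : u ≠ 1) :
    ∀ l : ℕ, u ^ l = 1 → 7 ∣ l := by
  intro l hl
  have hd : orderOf u ∣ 7 := orderOf_dvd_of_pow_eq_one h7
  have ho : orderOf u = 7 := by
    rcases (Nat.dvd_prime (by norm_num : Nat.Prime 7)).mp hd with h | h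
    · exact absurd (orderOf_eq_one_iff.mp h) h1
    · exact h
  rw [← ho]
  exact orderOf_dvd_of_pow_eq_one hl

/-- seventh roots of unity in `K` are powers of `u` -/
theorem K_roots7 (hK : IsFieldSubalgebra 3 K) (u : Matrix (Fin 3) (Fin 3) F) (huK : u ∈ K)
    (h7 : u ^ 7 = 1) (h1 : u ≠ 1) (x : Matrix (Fin 3) (Fin 3) F) (hxK : x ∈ K)
    (hx : x ^ 7 = 1) : ∃ i < 7, u ^ i = x :=
  K_roots K hK u huK h7 (prim7 u h7 h1) x hxK hx

theorem exists_omega (hq : Fintype.card F = 4) : ∃ ω : F, ω ≠ 0 ∧ ω ≠ 1 := by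
  classical
  by_contra hcon
  push Not at hcon
  have hsub : (Finset.univ : Finset F) ⊆ {0, 1} := by
    intro x _
    by_cases hx : x = 0
    · simp [hx]
    · simp [hcon x hx]
  have := Finset.card_le_card hsub
  rw [Finset.card_univ, hq] at this
  have h2 : ({0, 1} : Finset F).card ≤ 2 := Finset.card_insert_le _ _
  omega

/-- cube roots of unity in `K` are scalars -/
theorem K_roots3 (hK : IsFieldSubalgebra 3 K) (hq : Fintype.card F = 4)
    (x : Matrix (Fin 3) (Fin 3) F) (hxK : x ∈ K) (hx : x ^ 3 = 1) :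
    ∃ c : F, x = c • (1 : Matrix (Fin 3) (Fin 3) F) := by
  obtain ⟨ω, hω0, hω1⟩ := exists_omega hq
  have hω3 : ω ^ 3 = 1 := pow_three hq hω0
  have hζK : ω • (1 : Matrix (Fin 3) (Fin 3) F) ∈ K := K.smul_mem K.one_mem ω
  have hpow : ∀ l : ℕ, (ω • (1 : Matrix (Fin 3) (Fin 3) F)) ^ l = ω ^ l • 1 := by
    intro l
    rw [smul_pow, one_pow]
  have hprim : ∀ l : ℕ, (ω • (1 : Matrix (Fin 3) (Fin 3) F)) ^ l = 1 → 3 ∣ l := by
    intro l hl
    rw [hpow] at hl
    have hl' : ω ^ l = 1 := by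
      have := congrFun (congrFun hl 0) 0
      simpa using this
    have hd : orderOf ω ∣ 3 := orderOf_dvd_of_pow_eq_one hω3
    have ho : orderOf ω = 3 := by
      rcases (Nat.dvd_prime (by norm_num : Nat.Prime 3)).mp hd with h | h
      · exact absurd (orderOf_eq_one_iff.mp h) hω1
      · exact h
    rw [← ho]
    exact orderOf_dvd_of_pow_eq_one hl'
  obtain ⟨i, -, e⟩ := K_roots K hK (ω • (1 : Matrix (Fin 3) (Fin 3) F)) hζK
    (by rw [hpow, hω3, one_smul]) hprim x hxK hx
  exact ⟨ω ^ i, by rw [← e, hpow]⟩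

theorem K_mul_eq_zero (hK : IsFieldSubalgebra 3 K) {a b : Matrix (Fin 3) (Fin 3) F}
    (ha : a ∈ K) (hb : b ∈ K) (hab : a * b = 0) : a = 0 ∨ b = 0 := by
  letI := kField K hK
  have h : (⟨a, ha⟩ : K) * ⟨b, hb⟩ = 0 := Subtype.ext hab
  rcases mul_eq_zero.mp h with h | h
  · exact Or.inl (congrArg Subtype.val h)
  · exact Or.inr (congrArg Subtype.val h)

/-- the minimal polynomial of `u` over the prime field -/
theorem u_cubic (hK : IsFieldSubalgebra 3 K) (hq : Fintype.card F = 4)
    (u : Matrix (Fin 3) (Fin 3) F) (huK : u ∈ K) (h7 : u ^ 7 = 1) (h1 : u ≠ 1) :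
    u ^ 3 = u + 1 ∨ u ^ 3 = u ^ 2 + 1 := by
  letI := kField K hK
  have h2F := two_eq_zero hq
  have h2 : (2 : K) = 0 := by
    apply Subtype.ext
    show (2 : Matrix (Fin 3) (Fin 3) F) = 0
    have : (2 : Matrix (Fin 3) (Fin 3) F) = (2 : F) • 1 := by
      rw [ofNat_smul_eq_nsmul, nsmul_eq_mul, mul_one]; rfl
    rw [this, h2F, zero_smul]
  set u' : K := ⟨u, huK⟩ with hu'
  have h7' : u' ^ 7 = 1 := Subtype.ext h7
  have h1' : u' ≠ 1 := fun h => h1 (congrArg Subtype.val h)
  have hprod : (u' - 1) * ((u' ^ 3 + u' + 1) * (u' ^ 3 + u' ^ 2 + 1)) = 0 := by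
    linear_combination h7' + (u' ^ 4 - u' ^ 3) * h2
  rcases mul_eq_zero.mp hprod with h | h
  · exact absurd (sub_eq_zero.mp h) h1'
  · rcases mul_eq_zero.mp h with h | h
    · left
      have h3 : u' ^ 3 = u' + 1 := by linear_combination h - (u' + 1) * h2
      exact congrArg Subtype.val h3
    · right
      have h3 : u' ^ 3 = u' ^ 2 + 1 := by linear_combination h - (u' ^ 2 + 1) * h2
      exact congrArg Subtype.val h3

end Cfsg.Agent.Lib.Helper35.SLPQ4
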