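import Mathlib
import Cfsg.Prelude.Def_GeometricClasses
import Cfsg.Agent.Lib.Helper71.SLP0
import Cfsg.Agent.Lib.Helper35.SLPQ4a

/-! S5775 (helper35), part Q4b: an element `y` of the cubic field `K ≤ M₃(F)`, `|F| = 4`, with
`y ^ 9 = 1` and determinant `1` is a scalar. -/

set_option autoImplicit false

namespace Cfsg.Agent.Lib.Helper35.SLPQ4

open Matrix Cfsg.Geo Cfsg.Agent.Lib.Helper71.SLP

variable {F : Type*} [Field F] [Fintype F]

/-- Cayley–Hamilton for `3 × 3` matrices -/
theorem charpoly3 (y : Matrix (Fin 3) (Fin 3) F) :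
    ∃ t s : F, y ^ 3 + t • y ^ 2 + s • y + (-y.det) • (1 : Matrix (Fin 3) (Fin 3) F) = 0 := by
  have h := Matrix.aeval_self_charpoly y
  have hdeg : y.charpoly.natDegree = 3 := by
    rw [Matrix.charpoly_natDegree_eq_dim]; rfl
  have hmonic : y.charpoly.coeff 3 = 1 := by
    have := (Matrix.charpoly_monic y).coeff_natDegree
    rwa [hdeg] at this
  have h0 : y.charpoly.coeff 0 = -y.det := by
    have := Matrix.det_eq_sign_charpoly_coeff y
    have h3 : Fintype.card (Fin 3) = 3 := rfl
    rw [h3] at this
    linear_combination this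
  rw [Polynomial.aeval_eq_sum_range, hdeg] at h
  simp only [Finset.sum_range_succ, Finset.sum_range_zero, zero_add, pow_zero, pow_one] at h
  rw [hmonic, h0, one_smul] at h
  refine ⟨y.charpoly.coeff 2, y.charpoly.coeff 1, ?_⟩
  rw [← h]
  abel

variable (K : Subalgebra F (Matrix (Fin 3) (Fin 3) F))

/-- an element of `K` of order dividing `9` and determinant `1` is a scalar -/
theorem scalar_of_pow_nine (hK : IsFieldSubalgebra 3 K) (hq : Fintype.card F = 4)
    (y : Matrix (Fin 3) (Fin 3) F) (hyK : y ∈ K) (hy9 : y ^ 9 = 1) (hdet : y.det = 1) :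
    ∃ c : F, y = c • (1 : Matrix (Fin 3) (Fin 3) F) := by
  have hz3 : (y ^ 3) ^ 3 = 1 := by rw [← pow_mul]; exact hy9
  obtain ⟨c₃, hc₃⟩ := K_roots3 K hK hq (y ^ 3) (K.pow_mem hyK 3) hz3
  by_cases hc1 : c₃ = 1
  · rw [hc1, one_smul] at hc₃
    exact K_roots3 K hK hq y hyK hc₃
  · obtain ⟨t, s, hch⟩ := charpoly3 y
    rw [hdet, hc₃] at hch
    -- work in the field `K`
    letI := kField K hK
    set y' : K := ⟨y, hyK⟩ with hy'
    set A : F →+* K := algebraMap F K with hA
    have hAinj : Function.Injective A := (algebraMap F K).injective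
    have hy3 : y' ^ 3 = A c₃ := by
      apply Subtype.ext
      show y ^ 3 = algebraMap F (Matrix (Fin 3) (Fin 3) F) c₃
      rw [hc₃, Algebra.algebraMap_eq_smul_one]
    have hrel : A t * y' ^ 2 + A s * y' + A (c₃ - 1) = 0 := by
      apply Subtype.ext
      show algebraMap F (Matrix (Fin 3) (Fin 3) F) t * y ^ 2 +
        algebraMap F (Matrix (Fin 3) (Fin 3) F) s * y +
        algebraMap F (Matrix (Fin 3) (Fin 3) F) (c₃ - 1) = 0
      rw [Algebra.algebraMap_eq_smul_one, Algebra.algebraMap_eq_smul_one,
        Algebra.algebraMap_eq_smul_one, smul_mul_assoc, smul_mul_assoc, one_mul, one_mul,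
        sub_smul, one_smul]
      rw [← hch]
      rw [neg_smul, one_smul]
      abel
    -- eliminate `y' ^ 2`
    have hkey : A (s ^ 2 - (c₃ - 1) * t) * y' = A (t ^ 2 * c₃ - s * (c₃ - 1)) := by
      have hrel' : A t * y' ^ 2 + A s * y' + (A c₃ - 1) = 0 := by
        rw [← hrel, map_sub, map_one]
      simp only [map_sub, map_mul, map_pow, map_one]
      linear_combination (-(A t) * y' + A s) * hrel' + (A t) ^ 2 * hy3
    by_cases hne : s ^ 2 - (c₃ - 1) * t = 0
    · exfalso
      rw [hne, map_zero, zero_mul] at hkey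
      have hk2 : t ^ 2 * c₃ - s * (c₃ - 1) = 0 := by
        apply hAinj
        rw [map_zero]; exact hkey.symm
      have he : c₃ - 1 ≠ 0 := sub_ne_zero.mpr hc1
      have hc₃0 : c₃ ≠ 0 := by
        rintro rfl
        rw [zero_smul] at hc₃
        have h0 : (y ^ 3) ^ 3 = 0 := by rw [hc₃]; simp
        rw [hz3] at h0
        exact one_ne_zero h0
      by_cases ht : t = 0
      · rw [ht] at hne hk2
        have hs : s = 0 := by
          have : s ^ 2 = 0 := by linear_combination hne
          exact pow_eq_zero_iff (by norm_num) |>.mp this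
        rw [ht, hs] at hrel
        simp only [map_zero, zero_mul, zero_add] at hrel
        exact he (hAinj (by rw [map_zero]; exact hrel))
      · by_cases hs : s = 0
        · rw [hs] at hne
          have : (c₃ - 1) * t = 0 := by linear_combination -hne
          rcases mul_eq_zero.mp this with h | h
          · exact he h
          · exact ht h
        · -- `c₃ = (s / t) ^ 3 = 1`
          have h1 : (s / t) ^ 3 = 1 := pow_three hq (div_ne_zero hs ht)
          have h2 : c₃ * t ^ 3 = s ^ 3 := by
            linear_combination t * hk2 - s * hne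
          have h3 : c₃ = 1 := by
            have ht3 : t ^ 3 ≠ 0 := pow_ne_zero _ ht
            rw [div_pow, div_eq_one_iff_eq ht3] at h1
            rw [h1] at h2
            have : c₃ * t ^ 3 = 1 * t ^ 3 := by rw [one_mul]; exact h2
            exact mul_right_cancel₀ ht3 this
          exact hc1 h3
    · refine ⟨(t ^ 2 * c₃ - s * (c₃ - 1)) / (s ^ 2 - (c₃ - 1) * t), ?_⟩
      have hA0 : A (s ^ 2 - (c₃ - 1) * t) ≠ 0 := by
        intro h0
        exact hne (hAinj (by rw [map_zero]; exact h0))
      have hy'' : y' = A ((t ^ 2 * c₃ - s * (c₃ - 1)) / (s ^ 2 - (c₃ - 1) * t)) := by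
        rw [map_div₀]
        rw [eq_div_iff hA0, mul_comm]
        exact hkey
      have := congrArg Subtype.val hy''
      rw [Algebra.algebraMap_eq_smul_one] at this
      exact this

end Cfsg.Agent.Lib.Helper35.SLPQ4
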