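import Mathlib
import Cfsg.Prelude.Def_GeometricClasses
import Cfsg.Agent.Lib.Helper71.SLP0
import Cfsg.Agent.Lib.Helper35.SLPQ4a
import Cfsg.Agent.Lib.Helper35.SLPQ4b

/-! S5775 (helper35), part Q4c: the `F₂`-form `V₀ = F₂[u] v` of `F⁴ = F_4^3` attached to a cubic
field subalgebra `K` and an element `u ∈ K` of order `7`. -/

set_option autoImplicit false

namespace Cfsg.Agent.Lib.Helper35.SLPQ4

open Matrix Cfsg.Geo Cfsg.Agent.Lib.Helper71.SLP

variable {F : Type*} [Field F] [Fintype F]

variable (K : Subalgebra F (Matrix (Fin 3) (Fin 3) F))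

/-! ### `K` acts freely and transitively on non-zero vectors -/

theorem K_mulVec_eq_zero (hK : IsFieldSubalgebra 3 K) {k : Matrix (Fin 3) (Fin 3) F}
    (hk : k ∈ K) {v : Fin 3 → F} (hv : v ≠ 0) (h : k *ᵥ v = 0) : k = 0 := by
  by_contra hk0
  obtain ⟨y, hy, hky⟩ := hK.inv k hk hk0
  have hyk : y * k = 1 := by rw [hK.comm y hy k hk]; exact hky
  apply hv
  calc v = (y * k) *ᵥ v := by rw [hyk, Matrix.one_mulVec]
    _ = y *ᵥ (k *ᵥ v) := by rw [Matrix.mulVec_mulVec]
    _ = 0 := by rw [h, Matrix.mulVec_zero]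

theorem K_mulVec_surj (hK : IsFieldSubalgebra 3 K) (hq : Fintype.card F = 4) {v : Fin 3 → F}
    (hv : v ≠ 0) (w : Fin 3 → F) : ∃ k ∈ K, k *ᵥ v = w := by
  classical
  have hinj : Function.Injective (fun k : K => (k : Matrix (Fin 3) (Fin 3) F) *ᵥ v) := by
    intro a b hab
    have h0 : ((a : Matrix (Fin 3) (Fin 3) F) - (b : Matrix (Fin 3) (Fin 3) F)) *ᵥ v = 0 := by
      rw [Matrix.sub_mulVec]
      exact sub_eq_zero.mpr hab
    have := K_mulVec_eq_zero K hK (K.sub_mem a.2 b.2) hv h0
    exact Subtype.ext (sub_eq_zero.mp this)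
  have hcard : Nat.card (Fin 3 → F) ≤ Nat.card K := by
    rw [card_K K hK hq, Nat.card_eq_fintype_card, Fintype.card_fun, hq]
    simp
  obtain ⟨k, hk⟩ := (hinj.bijective_of_nat_card_le hcard).2 w
  exact ⟨k.1, k.2, hk⟩

/-! ### `1, u, u²` are linearly independent over `F` -/

theorem u_not_scalar (hq : Fintype.card F = 4) (u : Matrix (Fin 3) (Fin 3) F)
    (h7 : u ^ 7 = 1) (h1 : u ≠ 1) (c : F) : u ≠ c • (1 : Matrix (Fin 3) (Fin 3) F) := by
  intro hu
  have hc7 : c ^ 7 = 1 := by
    have h := h7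
    rw [hu, smul_pow, one_pow] at h
    have := congrFun (congrFun h 0) 0
    simpa using this
  have hc0 : c ≠ 0 := by
    rintro rfl
    norm_num at hc7
  have hc3 : c ^ 3 = 1 := pow_three hq hc0
  have hc1 : c = 1 := by
    calc c = c ^ 7 * ((c ^ 3) ^ 2)⁻¹ := by
          rw [← pow_mul]
          field_simp
      _ = 1 := by rw [hc7, hc3]; simp
  apply h1
  rw [hu, hc1, one_smul]

theorem u_indep (hK : IsFieldSubalgebra 3 K) (hq : Fintype.card F = 4)
    (u : Matrix (Fin 3) (Fin 3) F) (huK : u ∈ K) (h7 : u ^ 7 = 1) (h1 : u ≠ 1)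
    (a₀ a₁ a₂ : F)
    (h : a₀ • (1 : Matrix (Fin 3) (Fin 3) F) + a₁ • u + a₂ • u ^ 2 = 0) :
    a₀ = 0 ∧ a₁ = 0 ∧ a₂ = 0 := by
  have h2F := two_eq_zero hq
  have hcub := u_cubic K hK hq u huK h7 h1
  -- work in the field `K`
  letI := kField K hK
  set T : K := ⟨u, huK⟩ with hT
  set A : F →+* K := algebraMap F K with hA
  have hAinj : Function.Injective A := (algebraMap F K).injective
  have hAval : ∀ c : F, ((A c : K) : Matrix (Fin 3) (Fin 3) F) = c • 1 := by
    intro c
    show algebraMap F (Matrix (Fin 3) (Fin 3) F) c = c • 1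
    rw [Algebra.algebraMap_eq_smul_one]
  have h2 : (2 : K) = 0 := by
    have : (2 : K) = A 2 := by rw [map_ofNat]
    rw [this, h2F, map_zero]
  have hTns : ∀ c : F, T ≠ A c := by
    intro c hc
    exact u_not_scalar hq u h7 h1 c (by rw [← hAval c, ← hc])
  have hrel : A a₀ + A a₁ * T + A a₂ * T ^ 2 = 0 := by
    apply Subtype.ext
    show algebraMap F (Matrix (Fin 3) (Fin 3) F) a₀ +
      algebraMap F (Matrix (Fin 3) (Fin 3) F) a₁ * u +
      algebraMap F (Matrix (Fin 3) (Fin 3) F) a₂ * u ^ 2 = 0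
    rw [Algebra.algebraMap_eq_smul_one, Algebra.algebraMap_eq_smul_one,
      Algebra.algebraMap_eq_smul_one, smul_mul_assoc, smul_mul_assoc, one_mul, one_mul]
    exact h
  have hcub' : T ^ 3 = T + 1 ∨ T ^ 3 = T ^ 2 + 1 := by
    rcases hcub with h | h
    · exact Or.inl (Subtype.ext h)
    · exact Or.inr (Subtype.ext h)
  -- a scalar multiple relation forces `T` to be a scalar
  have hlin : ∀ x z : F, A x * T = A z → x = 0 := by
    intro x z hxz
    by_contra hx
    have hAx : A x ≠ 0 := fun h0 => hx (hAinj (by rw [map_zero]; exact h0))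
    apply hTns (z / x)
    rw [map_div₀, eq_div_iff hAx, mul_comm]
    exact hxz
  have ha₂ : a₂ = 0 := by
    by_contra ha₂
    have hAa₂ : A a₂ ≠ 0 := fun h0 => ha₂ (hAinj (by rw [map_zero]; exact h0))
    -- `T ^ 2 = p T + r`
    set p : F := -a₁ / a₂ with hp
    set r : F := -a₀ / a₂ with hr
    have hT2 : T ^ 2 = A p * T + A r := by
      have e1 : A p = -A a₁ / A a₂ := by rw [hp, map_div₀, map_neg]
      have e2 : A r = -A a₀ / A a₂ := by rw [hr, map_div₀, map_neg]
      rw [e1, e2]
      field_simp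
      linear_combination hrel
    have hT3 : T ^ 3 = A (p ^ 2 + r) * T + A (p * r) := by
      simp only [map_add, map_mul, map_pow]
      linear_combination (T + A p) * hT2
    have hp4 := pow_four hq p
    rcases hcub' with hc | hc
    · -- `T ^ 3 = T + 1`
      have e : A (p ^ 2 + r - 1) * T = A (1 - p * r) := by
        simp only [map_add, map_sub, map_mul, map_pow, map_one]
        have hT3' : T ^ 3 = (A p ^ 2 + A r) * T + A p * A r := by
          rw [hT3]; simp only [map_add, map_mul, map_pow]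
        linear_combination hc - hT3'
      have e1 := hlin _ _ e
      rw [e1, map_zero, zero_mul] at e
      have e2 : 1 - p * r = 0 := hAinj (by rw [map_zero]; exact e.symm)
      -- `r = 1 - p ^ 2`, `p r = 1`
      have e3 : p ^ 3 = p - 1 := by linear_combination p * e1 + e2
      have e4 : p ^ 2 = 0 := by linear_combination hp4 - p * e3 + p * h2F
      have e5 : p = 0 := pow_eq_zero_iff (by norm_num) |>.mp e4
      rw [e5] at e2
      norm_num at e2
    · -- `T ^ 3 = T ^ 2 + 1`
      have e : A (p ^ 2 + r - p) * T = A (r + 1 - p * r) := by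
        simp only [map_add, map_sub, map_mul, map_pow, map_one]
        have hT3' : T ^ 3 = (A p ^ 2 + A r) * T + A p * A r := by
          rw [hT3]; simp only [map_add, map_mul, map_pow]
        linear_combination hc - hT3' + hT2
      have e1 := hlin _ _ e
      rw [e1, map_zero, zero_mul] at e
      have e2 : r + 1 - p * r = 0 := hAinj (by rw [map_zero]; exact e.symm)
      -- `r = p - p ^ 2`
      have e3 : p ^ 3 + p + 1 = 0 := by linear_combination (p - 1) * e1 + e2 + p ^ 2 * h2F
      have e4 : p ^ 2 = 0 := by linear_combination -hp4 + p * e3 - p * h2F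
      have e5 : p = 0 := pow_eq_zero_iff (by norm_num) |>.mp e4
      rw [e5] at e3
      norm_num at e3
  rw [ha₂, map_zero, zero_mul, add_zero] at hrel
  have ha₁ : a₁ = 0 := by
    apply hlin a₁ (-a₀)
    rw [map_neg]
    linear_combination hrel
  rw [ha₁, map_zero, zero_mul, add_zero] at hrel
  exact ⟨hAinj (by rw [map_zero]; exact hrel), ha₁, ha₂⟩

end Cfsg.Agent.Lib.Helper35.SLPQ4
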