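import Mathlib
import Cfsg.Prelude.Def_GeometricClasses
import Cfsg.Agent.Lib.Helper71.SLP0
import Cfsg.Agent.Lib.Helper35.SLPQ4a
import Cfsg.Agent.Lib.Helper35.SLPQ4b
import Cfsg.Agent.Lib.Helper35.SLPQ4c

/-! S5775 (helper35), part Q4d: for `|F| = 4` the normaliser in `SL₃(F)` of a cubic field
subalgebra lies in a subfield group over the prime field. -/

set_option autoImplicit false

namespace Cfsg.Agent.Lib.Helper35.SLPQ4

open Matrix Cfsg.Geo Cfsg.Agent.Lib.Helper71.SLP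

variable {F : Type*} [Field F] [Fintype F]

/-! ### `F₂[u]` -/

/-- `F₂[u]`, as a set of matrices -/
def S0 (hq : Fintype.card F = 4) (u : Matrix (Fin 3) (Fin 3) F) :
    Set (Matrix (Fin 3) (Fin 3) F) :=
  {m | ∃ α β γ : F, α ∈ F0 hq ∧ β ∈ F0 hq ∧ γ ∈ F0 hq ∧ m = α • 1 + β • u + γ • u ^ 2}

theorem S0_add (hq : Fintype.card F = 4) (u : Matrix (Fin 3) (Fin 3) F)
    {m m' : Matrix (Fin 3) (Fin 3) F} (h : m ∈ S0 hq u) (h' : m' ∈ S0 hq u) :
    m + m' ∈ S0 hq u := by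
  obtain ⟨α, β, γ, hα, hβ, hγ, rfl⟩ := h
  obtain ⟨α', β', γ', hα', hβ', hγ', rfl⟩ := h'
  refine ⟨α + α', β + β', γ + γ', (F0 hq).add_mem hα hα', (F0 hq).add_mem hβ hβ',
    (F0 hq).add_mem hγ hγ', ?_⟩
  simp only [add_smul]
  abel

theorem S0_one (hq : Fintype.card F = 4) (u : Matrix (Fin 3) (Fin 3) F) : 1 ∈ S0 hq u :=
  ⟨1, 0, 0, (F0 hq).one_mem, (F0 hq).zero_mem, (F0 hq).zero_mem, by simp⟩

theorem S0_u_mul (hq : Fintype.card F = 4) (u : Matrix (Fin 3) (Fin 3) F)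
    (hcub : u ^ 3 = u + 1 ∨ u ^ 3 = u ^ 2 + 1) {m : Matrix (Fin 3) (Fin 3) F}
    (h : m ∈ S0 hq u) : u * m ∈ S0 hq u := by
  obtain ⟨α, β, γ, hα, hβ, hγ, rfl⟩ := h
  have e : u * (α • (1 : Matrix (Fin 3) (Fin 3) F) + β • u + γ • u ^ 2) =
      α • u + β • u ^ 2 + γ • u ^ 3 := by
    rw [mul_add, mul_add, mul_smul_comm, mul_smul_comm, mul_smul_comm, mul_one, ← pow_two,
      ← pow_succ']
  rcases hcub with hc | hc
  · refine ⟨γ, α + γ, β, hγ, (F0 hq).add_mem hα hγ, hβ, ?_⟩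
    rw [e, hc]
    simp only [smul_add, add_smul]
    abel
  · refine ⟨γ, α, β + γ, hγ, hα, (F0 hq).add_mem hβ hγ, ?_⟩
    rw [e, hc]
    simp only [smul_add, add_smul]
    abel

theorem S0_pow (hq : Fintype.card F = 4) (u : Matrix (Fin 3) (Fin 3) F)
    (hcub : u ^ 3 = u + 1 ∨ u ^ 3 = u ^ 2 + 1) (i : ℕ) : u ^ i ∈ S0 hq u := by
  induction i with
  | zero => rw [pow_zero]; exact S0_one hq u
  | succ i ih => rw [pow_succ']; exact S0_u_mul hq u hcub ih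

/-! ### The basis `v, u v, u² v` -/

/-- the matrix with columns `v, u v, u² v` -/
def Pm (u : Matrix (Fin 3) (Fin 3) F) (v : Fin 3 → F) : Matrix (Fin 3) (Fin 3) F :=
  Matrix.of fun r (c : Fin 3) => (u ^ (c : ℕ) *ᵥ v) r

theorem Pm_mulVec (u : Matrix (Fin 3) (Fin 3) F) (v a : Fin 3 → F) :
    Pm u v *ᵥ a = (a 0 • (1 : Matrix (Fin 3) (Fin 3) F) + a 1 • u + a 2 • u ^ 2) *ᵥ v := by
  ext r
  simp only [Pm, Matrix.mulVec, dotProduct, Fin.sum_univ_three, Matrix.of_apply,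
    Matrix.add_apply, Matrix.smul_apply, smul_eq_mul, Fin.val_zero, Fin.val_one, Fin.val_two,
    pow_zero, pow_one, Matrix.one_apply]
  ring

variable (K : Subalgebra F (Matrix (Fin 3) (Fin 3) F))

theorem Pm_det_ne_zero (hK : IsFieldSubalgebra 3 K) (hq : Fintype.card F = 4)
    (u : Matrix (Fin 3) (Fin 3) F) (huK : u ∈ K) (h7 : u ^ 7 = 1) (h1 : u ≠ 1)
    {v : Fin 3 → F} (hv : v ≠ 0) : (Pm u v).det ≠ 0 := by
  have hinj : Function.Injective (Pm u v).mulVec := by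
    intro a b hab
    have h0 : Pm u v *ᵥ (a - b) = 0 := by
      rw [Matrix.mulVec_sub]; exact sub_eq_zero.mpr hab
    rw [Pm_mulVec] at h0
    have hmem : (a - b) 0 • (1 : Matrix (Fin 3) (Fin 3) F) + (a - b) 1 • u + (a - b) 2 • u ^ 2
        ∈ K :=
      K.add_mem (K.add_mem (K.smul_mem K.one_mem _) (K.smul_mem huK _))
        (K.smul_mem (K.pow_mem huK 2) _)
    have hz := K_mulVec_eq_zero K hK hmem hv h0
    obtain ⟨e0, e1, e2⟩ := u_indep K hK hq u huK h7 h1 _ _ _ hz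
    ext i
    fin_cases i
    · exact sub_eq_zero.mp e0
    · exact sub_eq_zero.mp e1
    · exact sub_eq_zero.mp e2
  have hu : IsUnit (Pm u v) := Matrix.mulVec_injective_iff_isUnit.mp hinj
  exact ((Matrix.isUnit_iff_isUnit_det _).mp hu).ne_zero

/-- a matrix mapping the basis into `F₂[u] v` has coordinates in the prime field -/
theorem frame (hq : Fintype.card F = 4) (u : Matrix (Fin 3) (Fin 3) F)
    (hcub : u ^ 3 = u + 1 ∨ u ^ 3 = u ^ 2 + 1) (v : Fin 3 → F)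
    (M : Matrix (Fin 3) (Fin 3) F)
    (hM : ∀ i : Fin 3, ∃ e : ℕ, M *ᵥ (u ^ (i : ℕ) *ᵥ v) = u ^ e *ᵥ v) :
    ∃ A : Matrix (Fin 3) (Fin 3) F, (∀ i j, A i j ∈ F0 hq) ∧ M * Pm u v = Pm u v * A := by
  have hM' : ∀ i : Fin 3, ∃ α β γ : F, α ∈ F0 hq ∧ β ∈ F0 hq ∧ γ ∈ F0 hq ∧
      M *ᵥ (u ^ (i : ℕ) *ᵥ v) = (α • (1 : Matrix (Fin 3) (Fin 3) F) + β • u + γ • u ^ 2) *ᵥ v := by
    intro i
    obtain ⟨e, he⟩ := hM i
    obtain ⟨α, β, γ, hα, hβ, hγ, hm⟩ := S0_pow hq u hcub e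
    exact ⟨α, β, γ, hα, hβ, hγ, by rw [he, hm]⟩
  choose α β γ hα hβ hγ hrel using hM'
  refine ⟨Matrix.of fun r c => ![α c, β c, γ c] r, ?_, ?_⟩
  · intro i j
    fin_cases i
    · exact hα j
    · exact hβ j
    · exact hγ j
  · ext r c
    have h1 : (M * Pm u v) r c = (M *ᵥ (u ^ (c : ℕ) *ᵥ v)) r := by
      simp only [Matrix.mul_apply, Pm, Matrix.of_apply, Matrix.mulVec, dotProduct]
    have h2 : (Pm u v * Matrix.of fun r c => ![α c, β c, γ c] r) r c =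
        (Pm u v *ᵥ ![α c, β c, γ c]) r := by
      simp only [Matrix.mul_apply, Matrix.of_apply, Matrix.mulVec, dotProduct]
    rw [h1, h2, hrel c, Pm_mulVec]
    simp

end Cfsg.Agent.Lib.Helper35.SLPQ4
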