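import Mathlib
import Cfsg.Prelude.Def_GeometricClasses
import Cfsg.Agent.Lib.Helper71.SLP0
import Cfsg.Agent.Lib.Helper35.SLPQ4a
import Cfsg.Agent.Lib.Helper35.SLPQ4b
import Cfsg.Agent.Lib.Helper35.SLPQ4c
import Cfsg.Agent.Lib.Helper35.SLPQ4d

/-! S5775 (helper35), lemma Q4: for `|F| = 4` the normaliser in `SL₃(F)` of a cubic field
subalgebra `K` of `M₃(F)` (the group `21 : 3`) lies in a subfield group over the prime field
(`L₃(2) × 3`). -/

set_option autoImplicit false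

namespace Cfsg.Agent.Lib.Helper35.SLPQ4

open Matrix Cfsg.Geo Cfsg.Agent.Lib.Helper71.SLP

variable {F : Type*} [Field F] [Fintype F]

theorem conj_pow (G Gi x : Matrix (Fin 3) (Fin 3) F) (hG : G * Gi = 1) (hGi : Gi * G = 1)
    (n : ℕ) : (G * x * Gi) ^ n = G * x ^ n * Gi := by
  induction n with
  | zero => rw [pow_zero, pow_zero, mul_one, hG]
  | succ n ih =>
    rw [pow_succ, ih, pow_succ]
    calc G * x ^ n * Gi * (G * x * Gi) = G * x ^ n * (Gi * G) * x * Gi := by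
          simp only [mul_assoc]
      _ = G * (x ^ n * x) * Gi := by rw [hGi, mul_one]; simp only [mul_assoc]

theorem det_mem_F0 (hq : Fintype.card F = 4) (A : Matrix (Fin 3) (Fin 3) F)
    (hA : ∀ i j, A i j ∈ F0 hq) : A.det ∈ F0 hq := by
  set A₀ : Matrix (Fin 3) (Fin 3) (F0 hq) := Matrix.of fun i j => ⟨A i j, hA i j⟩ with hA₀
  have e : A = (F0 hq).subtype.mapMatrix A₀ := by
    ext i j
    rfl
  rw [e, ← RingHom.map_det]
  exact (A₀.det).2

variable (K : Subalgebra F (Matrix (Fin 3) (Fin 3) F))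

/-- Q4 -/
theorem Q4 (hq : Fintype.card F = 4) (hK : IsFieldSubalgebra 3 K) :
    ∃ (F₀ : Subfield F) (P : GL (Fin 3) F), Nat.card F₀ = 2 ∧
      subalgebraNormalizer K ⊓ specialLinear (Fin 3) F ≤ subfieldSubgroup F₀ P := by
  obtain ⟨u, huK, h7, h1⟩ := exists_u K hK hq
  have hcub := u_cubic K hK hq u huK h7 h1
  set v : Fin 3 → F := Pi.single 0 1 with hv
  have hv0 : v ≠ 0 := by
    intro h
    have := congrFun h 0
    simp [hv] at this
  have hdetP := Pm_det_ne_zero K hK hq u huK h7 h1 hv0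
  refine ⟨F0 hq, Matrix.GeneralLinearGroup.mkOfDetNeZero (Pm u v) hdetP, card_F0 hq, ?_⟩
  intro g hg
  obtain ⟨hgN, hgS⟩ := hg
  have hdetG : g.1.det = 1 := (mem_specialLinear_iff g).mp hgS
  obtain ⟨G, hGdef⟩ : ∃ G : Matrix (Fin 3) (Fin 3) F, G = g.1 := ⟨_, rfl⟩
  obtain ⟨Gi, hGidef⟩ : ∃ Gi : Matrix (Fin 3) (Fin 3) F, Gi = (g⁻¹ : GL (Fin 3) F).1 := ⟨_, rfl⟩
  have hG : G * Gi = 1 := by
    rw [hGdef, hGidef, ← Units.val_mul, mul_inv_cancel, Units.val_one]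
  have hGi : Gi * G = 1 := by
    rw [hGdef, hGidef, ← Units.val_mul, inv_mul_cancel, Units.val_one]
  have hdetG' : G.det = 1 := by rw [hGdef]; exact hdetG
  have hconj : ∀ x ∈ K, G * x * Gi ∈ K := by
    intro x hx
    rw [hGdef, hGidef]
    exact (hgN x).mp hx
  -- the conjugate of `u`
  have hug7 : (G * u * Gi) ^ 7 = 1 := by rw [conj_pow G Gi u hG hGi, h7, mul_one, hG]
  obtain ⟨j, -, hj⟩ := K_roots7 K hK u huK h7 h1 (G * u * Gi) (hconj u huK) hug7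
  -- the image of `v`
  obtain ⟨k, hkK, hkv⟩ := K_mulVec_surj K hK hq hv0 (G *ᵥ v)
  have hk0 : k ≠ 0 := by
    rintro rfl
    rw [Matrix.zero_mulVec] at hkv
    apply hv0
    calc v = (Gi * G) *ᵥ v := by rw [hGi, Matrix.one_mulVec]
      _ = Gi *ᵥ (G *ᵥ v) := by rw [Matrix.mulVec_mulVec]
      _ = 0 := by rw [← hkv, Matrix.mulVec_zero]
  have hk63 := K_pow63 K hK hq k hkK hk0
  obtain ⟨i₉, -, hi₉⟩ := K_roots7 K hK u huK h7 h1 (k ^ 9) (K.pow_mem hkK 9)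
    (by rw [← pow_mul]; exact hk63)
  obtain ⟨y, hy⟩ : ∃ y : Matrix (Fin 3) (Fin 3) F, y = k ^ 28 := ⟨_, rfl⟩
  have hyK : y ∈ K := by rw [hy]; exact K.pow_mem hkK 28
  have hy9 : y ^ 9 = 1 := by
    rw [hy, ← pow_mul]
    have : 28 * 9 = 63 * 4 := by norm_num
    rw [this, pow_mul, hk63, one_pow]
  have hk : k = u ^ (4 * i₉) * y := by
    rw [mul_comm 4 i₉, pow_mul, hi₉, ← pow_mul, hy, ← pow_add]
    have : 9 * 4 + 28 = 63 + 1 := by norm_num
    rw [this, pow_add, hk63, one_mul, pow_one]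
  -- `G` on the basis vectors
  have hGb : ∀ i : ℕ, G *ᵥ (u ^ i *ᵥ v) = (u ^ (i * j + 4 * i₉) * y) *ᵥ v := by
    intro i
    calc G *ᵥ (u ^ i *ᵥ v) = (G * u ^ i * Gi) *ᵥ (G *ᵥ v) := by
          rw [Matrix.mulVec_mulVec, Matrix.mulVec_mulVec, mul_assoc (G * u ^ i), hGi, mul_one]
      _ = (u ^ j) ^ i *ᵥ (k *ᵥ v) := by rw [← conj_pow G Gi u hG hGi, ← hj, hkv]
      _ = (u ^ (i * j + 4 * i₉) * y) *ᵥ v := by
          rw [Matrix.mulVec_mulVec, hk, ← mul_assoc, ← pow_mul, ← pow_add, mul_comm j i]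
  -- the determinant of `y`
  have hMb : ∀ i : Fin 3, ∃ e : ℕ, (y ^ 8 * G) *ᵥ (u ^ (i : ℕ) *ᵥ v) = u ^ e *ᵥ v := by
    intro i
    refine ⟨(i : ℕ) * j + 4 * i₉, ?_⟩
    rw [← Matrix.mulVec_mulVec, hGb, Matrix.mulVec_mulVec, ← mul_assoc,
      hK.comm (y ^ 8) (K.pow_mem hyK 8) _ (K.pow_mem huK _), mul_assoc, ← pow_succ, hy9, mul_one]
  obtain ⟨A, hA, hMP⟩ := frame hq u hcub v (y ^ 8 * G) hMb
  have hydet0 : y.det ≠ 0 := by
    intro h0
    have := congrArg Matrix.det hy9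
    rw [Matrix.det_pow, h0, Matrix.det_one] at this
    norm_num at this
  have hdetA : A.det = y.det ^ 8 := by
    have h1 : (y ^ 8 * G).det * (Pm u v).det = (Pm u v).det * A.det := by
      rw [← Matrix.det_mul, ← Matrix.det_mul, hMP]
    rw [Matrix.det_mul, Matrix.det_pow, hdetG', mul_one, mul_comm] at h1
    exact (mul_left_cancel₀ hdetP h1).symm
  have hydet : y.det = 1 := by
    have hA01 := (mem_F0_iff hq A.det).mp (det_mem_F0 hq A hA)
    have h8 : y.det ^ 8 = 1 := by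
      rcases hA01 with h | h
      · rw [hdetA] at h
        exact absurd (pow_eq_zero_iff (by norm_num) |>.mp h) hydet0
      · rw [← hdetA]; exact h
    have h3 : y.det ^ 3 = 1 := pow_three hq hydet0
    calc y.det = y.det * y.det ^ 8 := by rw [h8, mul_one]
      _ = (y.det ^ 3) ^ 3 := by ring
      _ = 1 := by rw [h3, one_pow]
  obtain ⟨c, hc⟩ := scalar_of_pow_nine K hK hq y hyK hy9 hydet
  have hc0 : c ≠ 0 := by
    rintro rfl
    rw [zero_smul] at hc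
    rw [hc] at hy9
    simp at hy9
  -- `c⁻¹ G` preserves the `F₂`-form
  have hM₂b : ∀ i : Fin 3, ∃ e : ℕ, (c⁻¹ • G) *ᵥ (u ^ (i : ℕ) *ᵥ v) = u ^ e *ᵥ v := by
    intro i
    refine ⟨(i : ℕ) * j + 4 * i₉, ?_⟩
    rw [Matrix.smul_mulVec, hGb, hc, mul_smul_comm, mul_one, Matrix.smul_mulVec, smul_smul,
      inv_mul_cancel₀ hc0, one_smul]
  obtain ⟨A₂, hA₂, hM₂P⟩ := frame hq u hcub v (c⁻¹ • G) hM₂b
  have hGP : G * Pm u v = c • (Pm u v * A₂) := by
    rw [← hM₂P, smul_mul_assoc, smul_smul, mul_inv_cancel₀ hc0, one_smul]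
  have hdetA₂ : A₂.det ≠ 0 := by
    have h1 : (c⁻¹ • G).det * (Pm u v).det = (Pm u v).det * A₂.det := by
      rw [← Matrix.det_mul, ← Matrix.det_mul, hM₂P]
    intro h0
    rw [h0, mul_zero, Matrix.det_smul, hdetG', mul_one] at h1
    rcases mul_eq_zero.mp h1 with h | h
    · exact (pow_ne_zero _ (inv_ne_zero hc0)) h
    · exact hdetP h
  -- the matrix over the prime field
  set A₀ : Matrix (Fin 3) (Fin 3) (F0 hq) := Matrix.of fun i j => ⟨A₂ i j, hA₂ i j⟩ with hA₀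
  have hA₂eq : A₂ = (F0 hq).subtype.mapMatrix A₀ := by
    ext i j
    rfl
  have hdetA₀ : A₀.det ≠ 0 := by
    intro h0
    apply hdetA₂
    rw [hA₂eq, ← RingHom.map_det, h0, map_zero]
  have hdetz : (c • (1 : Matrix (Fin 3) (Fin 3) F)).det ≠ 0 := by
    rw [Matrix.det_smul, Matrix.det_one, mul_one]
    exact pow_ne_zero _ hc0
  have hz : Matrix.GeneralLinearGroup.mkOfDetNeZero (c • (1 : Matrix (Fin 3) (Fin 3) F)) hdetz
      ∈ scalars (Fin 3) F :=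
    (mem_scalars_iff _).mpr ⟨Units.mk0 c hc0, rfl⟩
  unfold subfieldSubgroup
  rw [Subgroup.mem_map]
  refine ⟨Matrix.GeneralLinearGroup.map (F0 hq).subtype
      (Matrix.GeneralLinearGroup.mkOfDetNeZero A₀ hdetA₀) *
      Matrix.GeneralLinearGroup.mkOfDetNeZero (c • (1 : Matrix (Fin 3) (Fin 3) F)) hdetz,
    Subgroup.mul_mem_sup ⟨_, rfl⟩ hz, ?_⟩
  show Matrix.GeneralLinearGroup.mkOfDetNeZero (Pm u v) hdetP *
      (Matrix.GeneralLinearGroup.map (F0 hq).subtype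
        (Matrix.GeneralLinearGroup.mkOfDetNeZero A₀ hdetA₀) *
      Matrix.GeneralLinearGroup.mkOfDetNeZero (c • (1 : Matrix (Fin 3) (Fin 3) F)) hdetz) *
      (Matrix.GeneralLinearGroup.mkOfDetNeZero (Pm u v) hdetP)⁻¹ = g
  rw [mul_inv_eq_iff_eq_mul]
  apply Units.ext
  show Pm u v * ((F0 hq).subtype.mapMatrix A₀ * (c • (1 : Matrix (Fin 3) (Fin 3) F))) =
    g.1 * Pm u v
  rw [← hGdef, hGP, ← hA₂eq, mul_smul_comm, mul_one, mul_smul_comm]

end Cfsg.Agent.Lib.Helper35.SLPQ4
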