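import Mathlib
import Cfsg.Agent.Lib.Helper48.StB

set_option autoImplicit false

/-! Piece WMON of S2401 (helper48's Steinberg presentation project), by helper35:
the seven conjugation formulas for `w_ij(t)` packaged as the monomial statement `WMon X`. -/

namespace Cfsg.Agent.Lib.Helper48.St

open Cfsg.Agent.Lib.Helper48 Matrix

variable {K : Type*} [Field K] {G : Type*} [Group G] {n : ℕ}
variable {X : Fin n → Fin n → K → G}

theorem wMon_of_conj
    (h0 : ∀ (i j : Fin n), i ≠ j → ∀ (t : K), t ≠ 0 → ∀ (k l : Fin n), k ≠ l → k ≠ i → k ≠ j →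
      l ≠ i → l ≠ j → ∀ u : K, stW X i j t * X k l u * (stW X i j t)⁻¹ = X k l u)
    (h1 : ∀ (i j : Fin n), i ≠ j → ∀ (t : K), t ≠ 0 → ∀ (l : Fin n), l ≠ i → l ≠ j → ∀ u : K,
      stW X i j t * X i l u * (stW X i j t)⁻¹ = X j l (-t⁻¹ * u))
    (h2 : ∀ (i j : Fin n), i ≠ j → ∀ (t : K), t ≠ 0 → ∀ (l : Fin n), l ≠ i → l ≠ j → ∀ u : K,
      stW X i j t * X j l u * (stW X i j t)⁻¹ = X i l (t * u))
    (h3 : ∀ (i j : Fin n), i ≠ j → ∀ (t : K), t ≠ 0 → ∀ (k : Fin n), k ≠ i → k ≠ j → ∀ u : K,
      stW X i j t * X k i u * (stW X i j t)⁻¹ = X k j (-t * u))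
    (h4 : ∀ (i j : Fin n), i ≠ j → ∀ (t : K), t ≠ 0 → ∀ (k : Fin n), k ≠ i → k ≠ j → ∀ u : K,
      stW X i j t * X k j u * (stW X i j t)⁻¹ = X k i (t⁻¹ * u))
    (h5 : ∀ (i j : Fin n), i ≠ j → ∀ (t : K), t ≠ 0 → ∀ u : K,
      stW X i j t * X i j u * (stW X i j t)⁻¹ = X j i (-(t⁻¹ ^ 2 * u)))
    (h6 : ∀ (i j : Fin n), i ≠ j → ∀ (t : K), t ≠ 0 → ∀ u : K,
      stW X i j t * X j i u * (stW X i j t)⁻¹ = X i j (-(t ^ 2 * u))) :
    WMon X := by
  intro i j hij t ht
  have hji : j ≠ i := hij.symm
  refine ⟨?_, ?_⟩
  · intro k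
    unfold stM
    by_cases hki : k = i
    · rw [if_pos hki]; exact neg_ne_zero.2 (inv_ne_zero ht)
    · rw [if_neg hki]
      by_cases hkj : k = j
      · rw [if_pos hkj]; exact ht
      · rw [if_neg hkj]; exact one_ne_zero
  · intro k l hkl u
    by_cases hki : k = i
    · subst hki
      have hlk : l ≠ k := fun h => hkl h.symm
      by_cases hlj : l = j
      · subst hlj
        rw [Equiv.swap_apply_left, Equiv.swap_apply_right, h5 k l hkl t ht u]
        congr 1
        simp only [stM, if_true, if_neg hlk]
        field_simp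
      · rw [Equiv.swap_apply_left, Equiv.swap_apply_of_ne_of_ne hlk hlj, h1 k j hij t ht l hlk hlj u]
        congr 1
        simp only [stM, if_true, if_neg hlk, if_neg hlj]
        field_simp
    · by_cases hkj : k = j
      · subst hkj
        have hlk : l ≠ k := fun h => hkl h.symm
        by_cases hli : l = i
        · subst hli
          rw [Equiv.swap_apply_left, Equiv.swap_apply_right, h6 l k hij t ht u]
          congr 1
          simp only [stM, if_true, if_neg hki]
          field_simp
        · rw [Equiv.swap_apply_right, Equiv.swap_apply_of_ne_of_ne hli hlk,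
            h2 i k hij t ht l hli hlk u]
          congr 1
          simp only [stM, if_true, if_neg hki, if_neg hli, if_neg hlk]
          field_simp
      · by_cases hli : l = i
        · subst hli
          rw [Equiv.swap_apply_left, Equiv.swap_apply_of_ne_of_ne hki hkj,
            h3 l j hij t ht k hki hkj u]
          congr 1
          simp only [stM, if_true, if_neg hki, if_neg hkj]
          field_simp
        · by_cases hlj : l = j
          · subst hlj
            rw [Equiv.swap_apply_right, Equiv.swap_apply_of_ne_of_ne hki hkj,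
              h4 i l hij t ht k hki hkj u]
            congr 1
            simp only [stM, if_true, if_neg hki, if_neg hkj, if_neg hli]
            rw [one_mul]
          · rw [Equiv.swap_apply_of_ne_of_ne hki hkj, Equiv.swap_apply_of_ne_of_ne hli hlj,
              h0 i j hij t ht k l hkl hki hkj hli hlj u]
            congr 1
            simp only [stM, if_neg hki, if_neg hkj, if_neg hli, if_neg hlj]
            field_simp

end Cfsg.Agent.Lib.Helper48.St
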