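import Mathlib

set_option autoImplicit false

namespace Cfsg.Agent.Lib.Helper35.TIComb

variable {ι : Type*} [Fintype ι] [DecidableEq ι]

/-- integer dot product -/
def dot (a b : ι → ℤ) : ℤ := ∑ χ, a χ * b χ

theorem dot_comm (a b : ι → ℤ) : dot a b = dot b a := by
  unfold dot; exact Finset.sum_congr rfl fun χ _ => mul_comm _ _

theorem sq_le_norm (a : ι → ℤ) (χ : ι) : a χ * a χ ≤ dot a a :=
  Finset.single_le_sum (f := fun χ => a χ * a χ) (fun χ _ => mul_self_nonneg _)
    (Finset.mem_univ χ)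

theorem entry {a : ι → ℤ} (h : dot a a = 3) (χ : ι) : a χ = -1 ∨ a χ = 0 ∨ a χ = 1 := by
  have h1 := sq_le_norm a χ
  rw [h] at h1
  have h2 : a χ ≤ 1 := by nlinarith
  have h3 : -1 ≤ a χ := by nlinarith
  omega

theorem entry_ne {a : ι → ℤ} (h : dot a a = 3) {χ : ι} (hχ : a χ ≠ 0) : a χ = 1 ∨ a χ = -1 := by
  rcases entry h χ with h' | h' | h'
  · exact Or.inr h'
  · exact absurd h' hχ
  · exact Or.inl h'

/-- the support -/
def supp (a : ι → ℤ) : Finset ι := Finset.univ.filter fun χ => a χ ≠ 0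

theorem mem_supp {a : ι → ℤ} {χ : ι} : χ ∈ supp a ↔ a χ ≠ 0 := by simp [supp]

theorem card_supp {a : ι → ℤ} (h : dot a a = 3) : (supp a).card = 3 := by
  have h1 : dot a a = ∑ χ, if a χ ≠ 0 then (1 : ℤ) else 0 := by
    unfold dot
    refine Finset.sum_congr rfl fun χ _ => ?_
    rcases entry h χ with h' | h' | h' <;> simp [h']
  rw [h] at h1
  have h2 : ((supp a).card : ℤ) = 3 := by
    rw [h1, supp, Finset.card_filter]
    push_cast
    rfl
  exact_mod_cast h2

theorem dot_eq_sum_inter (a b : ι → ℤ) : dot a b = ∑ χ ∈ supp a ∩ supp b, a χ * b χ := by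
  unfold dot
  symm
  apply Finset.sum_subset (Finset.subset_univ _)
  intro χ _ hχ
  rw [Finset.mem_inter, mem_supp, mem_supp] at hχ
  by_cases h : a χ = 0
  · rw [h, zero_mul]
  · have : b χ = 0 := by
      by_contra hb
      exact hχ ⟨h, hb⟩
    rw [this, mul_zero]

theorem dot_eq_sum_supp (a b : ι → ℤ) : dot a b = ∑ χ ∈ supp b, a χ * b χ := by
  unfold dot
  symm
  apply Finset.sum_subset (Finset.subset_univ _)
  intro χ _ hχ
  rw [mem_supp, not_not] at hχ
  rw [hχ, mul_zero]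

/-- two norm-3 vectors with dot product 1, distinguished mod 2 by a third vector, have exactly
one common coordinate, with equal values there -/
theorem pair_lemma {a b c : ι → ℤ} (ha : dot a a = 3) (hb : dot b b = 3) (hab : dot a b = 1)
    (hca : dot c a = 1) (hcb : dot c b = 0) :
    ∃ χ, a χ ≠ 0 ∧ b χ = a χ ∧ ∀ χ', a χ' ≠ 0 → b χ' ≠ 0 → χ' = χ := by
  have hsum := dot_eq_sum_inter a b
  rw [hab] at hsum
  have hTle : (supp a ∩ supp b).card ≤ 3 :=
    (Finset.card_le_card Finset.inter_subset_left).trans (card_supp ha).le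
  have hterm : ∀ χ ∈ supp a ∩ supp b, a χ * b χ = 1 ∨ a χ * b χ = -1 := by
    intro χ hχ
    rw [Finset.mem_inter, mem_supp, mem_supp] at hχ
    rcases entry_ne ha hχ.1 with h1 | h1 <;> rcases entry_ne hb hχ.2 with h2 | h2 <;>
      rw [h1, h2] <;> norm_num
  have hcases : (supp a ∩ supp b).card = 0 ∨ (supp a ∩ supp b).card = 1 ∨
      (supp a ∩ supp b).card = 2 ∨ (supp a ∩ supp b).card = 3 := by omega
  rcases hcases with h0 | h1 | h2 | h3
  · rw [Finset.card_eq_zero] at h0
    rw [h0, Finset.sum_empty] at hsum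
    exact absurd hsum (by norm_num)
  · obtain ⟨χ, hχ⟩ := Finset.card_eq_one.mp h1
    have hmem : χ ∈ supp a ∩ supp b := by rw [hχ]; exact Finset.mem_singleton_self χ
    rw [hχ, Finset.sum_singleton] at hsum
    have hmem' := hmem
    rw [Finset.mem_inter, mem_supp, mem_supp] at hmem'
    refine ⟨χ, hmem'.1, ?_, ?_⟩
    · rcases entry_ne ha hmem'.1 with h1 | h1 <;> rcases entry_ne hb hmem'.2 with h2 | h2 <;>
        rw [h1, h2] at hsum ⊢ <;> norm_num at hsum
    · intro χ' h1' h2'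
      have : χ' ∈ supp a ∩ supp b := by
        rw [Finset.mem_inter, mem_supp, mem_supp]; exact ⟨h1', h2'⟩
      rw [hχ] at this
      exact Finset.mem_singleton.mp this
  · exfalso
    obtain ⟨x, y, hxy, hT⟩ := Finset.card_eq_two.mp h2
    have hx := hterm x (by rw [hT]; simp)
    have hy := hterm y (by rw [hT]; simp)
    rw [hT, Finset.sum_pair hxy] at hsum
    omega
  · exfalso
    have e1 : supp a ∩ supp b = supp a :=
      Finset.eq_of_subset_of_card_le Finset.inter_subset_left (by rw [h3, card_supp ha])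
    have e2 : supp a ∩ supp b = supp b :=
      Finset.eq_of_subset_of_card_le Finset.inter_subset_right (by rw [h3, card_supp hb])
    have e3 : supp a = supp b := e1.symm.trans e2
    have hev : ∀ χ, (2 : ℤ) ∣ c χ * (a χ + b χ) := by
      intro χ
      have hiff : a χ ≠ 0 ↔ b χ ≠ 0 := by
        rw [← mem_supp, ← mem_supp, e3]
      apply Dvd.dvd.mul_left
      by_cases ha0 : a χ = 0
      · have hb0 : b χ = 0 := by
          by_contra hb0
          exact (hiff.mpr hb0) ha0
        rw [ha0, hb0]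
        norm_num
      · rcases entry_ne ha ha0 with h1 | h1 <;> rcases entry_ne hb (hiff.mp ha0) with h2 | h2 <;>
          rw [h1, h2] <;> norm_num
    have hsum2 : dot c a + dot c b = ∑ χ, c χ * (a χ + b χ) := by
      unfold dot
      rw [← Finset.sum_add_distrib]
      exact Finset.sum_congr rfl fun χ _ => by ring
    have h2dvd : (2 : ℤ) ∣ dot c a + dot c b := by
      rw [hsum2]
      exact Finset.dvd_sum fun χ _ => hev χ
    rw [hca, hcb] at h2dvd
    omega

/-- Cauchy–Schwarz outside a set of coordinates -/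
theorem cs_outside (K : Finset ι) (a b : ι → ℤ) :
    (dot a b - ∑ χ ∈ K, a χ * b χ) ^ 2 ≤
      (dot a a - ∑ χ ∈ K, a χ * a χ) * (dot b b - ∑ χ ∈ K, b χ * b χ) := by
  have h : ∀ f : ι → ℤ, ∑ χ, f χ - ∑ χ ∈ K, f χ = ∑ χ ∈ Kᶜ, f χ := by
    intro f
    rw [← Finset.sum_compl_add_sum K f]
    ring
  unfold dot
  rw [h, h, h]
  have := Finset.sum_mul_sq_le_sq_mul_sq Kᶜ a b
  calc (∑ χ ∈ Kᶜ, a χ * b χ) ^ 2 ≤ (∑ χ ∈ Kᶜ, a χ ^ 2) * ∑ χ ∈ Kᶜ, b χ ^ 2 := this
    _ = (∑ χ ∈ Kᶜ, a χ * a χ) * ∑ χ ∈ Kᶜ, b χ * b χ := by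
      simp only [sq]

theorem sum_le_norm (K : Finset ι) (a : ι → ℤ) : ∑ χ ∈ K, a χ * a χ ≤ dot a a :=
  Finset.sum_le_sum_of_subset_of_nonneg (Finset.subset_univ K) fun χ _ _ => mul_self_nonneg _

/-- sign normalisation of a sign-consistent family -/
theorem exists_flip {J : Type*} (b : J → ι → ℤ)
    (h1 : ∀ j χ, b j χ = -1 ∨ b j χ = 0 ∨ b j χ = 1)
    (hc : ∀ j k χ, b j χ ≠ 0 → b k χ ≠ 0 → b j χ = b k χ) :
    ∃ ε : ι → ℤ, (∀ χ, ε χ * ε χ = 1) ∧ ∀ j χ, b j χ ≠ 0 → b j χ = ε χ := by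
  classical
  refine ⟨fun χ => if h : ∃ j, b j χ ≠ 0 then b (Classical.choose h) χ else 1, ?_, ?_⟩
  · intro χ
    dsimp only
    split_ifs with h
    · have := Classical.choose_spec h
      rcases h1 (Classical.choose h) χ with h' | h' | h'
      · rw [h']; norm_num
      · exact absurd h' this
      · rw [h']; norm_num
    · norm_num
  · intro j χ hj
    dsimp only
    have h : ∃ j, b j χ ≠ 0 := ⟨j, hj⟩
    rw [dif_pos h]
    exact hc j _ χ hj (Classical.choose_spec h)

theorem sum_three {a b c : ι} (hab : a ≠ b) (hac : a ≠ c) (hbc : b ≠ c) (f : ι → ℤ) :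
    ∑ χ ∈ ({a, b, c} : Finset ι), f χ = f a + f b + f c := by
  rw [Finset.sum_insert (by simp [hab, hac]), Finset.sum_insert (by simp [hbc]),
    Finset.sum_singleton]
  ring

/-- a 3-set containing two given distinct elements -/
theorem exists_third {S : Finset ι} (hS : S.card = 3) {a b : ι} (ha : a ∈ S) (hb : b ∈ S)
    (hab : a ≠ b) : ∃ c, c ≠ a ∧ c ≠ b ∧ S = {a, b, c} := by
  have h1 : ((S.erase a).erase b).card = 1 := by
    rw [Finset.card_erase_of_mem (Finset.mem_erase.mpr ⟨hab.symm, hb⟩),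
      Finset.card_erase_of_mem ha, hS]
  obtain ⟨c, hc⟩ := Finset.card_eq_one.mp h1
  have hcm : c ∈ (S.erase a).erase b := by rw [hc]; exact Finset.mem_singleton_self c
  rw [Finset.mem_erase, Finset.mem_erase] at hcm
  refine ⟨c, hcm.2.1, hcm.1, ?_⟩
  ext x
  simp only [Finset.mem_insert, Finset.mem_singleton]
  constructor
  · intro hx
    by_cases hxa : x = a
    · exact Or.inl hxa
    · by_cases hxb : x = b
      · exact Or.inr (Or.inl hxb)
      · right; right
        have : x ∈ (S.erase a).erase b :=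
          Finset.mem_erase.mpr ⟨hxb, Finset.mem_erase.mpr ⟨hxa, hx⟩⟩
        rw [hc] at this
        exact Finset.mem_singleton.mp this
  · rintro (rfl | rfl | rfl)
    · exact ha
    · exact hb
    · exact hcm.2.2

end Cfsg.Agent.Lib.Helper35.TIComb
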