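import Mathlib
import Cfsg.Agent.Lib.Helper35.TIComb1

set_option autoImplicit false

namespace Cfsg.Agent.Lib.Helper35.TIComb

/-! ### the finite core of the near-pencil exclusion -/

/-- coefficient vectors on seven coordinates -/
abbrev T7 := ℤ × ℤ × ℤ × ℤ × ℤ × ℤ × ℤ

/-- dot product on seven coordinates -/
@[reducible] def dot7 (a b : T7) : ℤ :=
  a.1 * b.1 + a.2.1 * b.2.1 + a.2.2.1 * b.2.2.1 + a.2.2.2.1 * b.2.2.2.1 +
    a.2.2.2.2.1 * b.2.2.2.2.1 + a.2.2.2.2.2.1 * b.2.2.2.2.2.1 + a.2.2.2.2.2.2 * b.2.2.2.2.2.2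

/-- Cauchy–Schwarz compatibility of two coefficient vectors of norm-3 vectors with dot product 1 -/
@[reducible] def compat (a b : T7) : Prop :=
  (1 - dot7 a b) ^ 2 ≤ (3 - dot7 a a) * (3 - dot7 b b)

/-- candidates for the four second-row vectors -/
def L0 : List T7 := [(0, 0, 0, 1, 0, 0, 0), (0, 1, -1, 0, 1, 0, 0), (0, 1, 0, 0, 0, -1, 1),
  (1, 0, 0, 0, -1, 0, -1)]
def L1 : List T7 := [(0, -1, 1, 1, 0, 0, 0), (0, 0, 0, 0, 1, 0, 0), (0, 0, 1, 0, 0, -1, 1),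
  (1, 0, 0, -1, 0, 0, -1)]
def L2 : List T7 := [(0, 0, 0, 0, 0, 1, -1), (0, 0, 1, 0, -1, 0, 0), (0, 1, 0, -1, 0, 0, 0)]
def L3 : List T7 := [(0, -1, 0, 1, 0, 1, 0), (0, 0, -1, 0, 1, 1, 0), (0, 0, 0, 0, 0, 0, 1),
  (1, 0, 0, -1, -1, 0, 0)]

set_option maxRecDepth 100000 in
theorem np_cand0 : ∀ p : ℤ, -1 ≤ p → p ≤ 1 → ∀ q : ℤ, -1 ≤ q → q ≤ 1 →
    ∀ u : ℤ, -1 ≤ u → u ≤ 1 → p + q + u = 1 →
    ∀ r : ℤ, -1 ≤ r → r ≤ 1 → ∀ v : ℤ, -1 ≤ v → v ≤ 1 → p + r + v = 0 →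
    ∀ w : ℤ, -1 ≤ w → w ≤ 1 → q + r + w = 0 → ∀ t : ℤ, -1 ≤ t → t ≤ 1 → p + w + t = 0 →
    p * p + q * q + r * r + u * u + v * v + w * w + t * t ≤ 3 →
    (p, q, r, u, v, w, t) ∈ L0 := by
  decide

set_option maxRecDepth 100000 in
theorem np_cand1 : ∀ p : ℤ, -1 ≤ p → p ≤ 1 → ∀ q : ℤ, -1 ≤ q → q ≤ 1 →
    ∀ u : ℤ, -1 ≤ u → u ≤ 1 → p + q + u = 0 →
    ∀ r : ℤ, -1 ≤ r → r ≤ 1 → ∀ v : ℤ, -1 ≤ v → v ≤ 1 → p + r + v = 1 →
    ∀ w : ℤ, -1 ≤ w → w ≤ 1 → q + r + w = 0 → ∀ t : ℤ, -1 ≤ t → t ≤ 1 → p + w + t = 0 →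
    p * p + q * q + r * r + u * u + v * v + w * w + t * t ≤ 3 →
    (p, q, r, u, v, w, t) ∈ L1 := by
  decide

set_option maxRecDepth 100000 in
theorem np_cand2 : ∀ p : ℤ, -1 ≤ p → p ≤ 1 → ∀ q : ℤ, -1 ≤ q → q ≤ 1 →
    ∀ u : ℤ, -1 ≤ u → u ≤ 1 → p + q + u = 0 →
    ∀ r : ℤ, -1 ≤ r → r ≤ 1 → ∀ v : ℤ, -1 ≤ v → v ≤ 1 → p + r + v = 0 →
    ∀ w : ℤ, -1 ≤ w → w ≤ 1 → q + r + w = 1 → ∀ t : ℤ, -1 ≤ t → t ≤ 1 → p + w + t = 0 →
    p * p + q * q + r * r + u * u + v * v + w * w + t * t ≤ 3 →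
    (p, q, r, u, v, w, t) ∈ L2 := by
  decide

set_option maxRecDepth 100000 in
theorem np_cand3 : ∀ p : ℤ, -1 ≤ p → p ≤ 1 → ∀ q : ℤ, -1 ≤ q → q ≤ 1 →
    ∀ u : ℤ, -1 ≤ u → u ≤ 1 → p + q + u = 0 →
    ∀ r : ℤ, -1 ≤ r → r ≤ 1 → ∀ v : ℤ, -1 ≤ v → v ≤ 1 → p + r + v = 0 →
    ∀ w : ℤ, -1 ≤ w → w ≤ 1 → q + r + w = 0 → ∀ t : ℤ, -1 ≤ t → t ≤ 1 → p + w + t = 1 →
    p * p + q * q + r * r + u * u + v * v + w * w + t * t ≤ 3 →
    (p, q, r, u, v, w, t) ∈ L3 := by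
  decide

set_option maxRecDepth 100000 in
theorem np_final : ∀ c1 ∈ L0, ∀ c2 ∈ L1, compat c1 c2 → ∀ c3 ∈ L2, compat c1 c3 → compat c2 c3 →
    ∀ c4 ∈ L3, compat c1 c4 → compat c2 c4 → compat c3 c4 → False := by
  decide

variable {ι : Type*} [Fintype ι] [DecidableEq ι]

theorem entry_bounds {a : ι → ℤ} (h : dot a a = 3) (χ : ι) : -1 ≤ a χ ∧ a χ ≤ 1 := by
  rcases entry h χ with h' | h' | h' <;> rw [h'] <;> norm_num

theorem sum_seven {P Q R U V W T : ι} (hnd : [P, Q, R, U, V, W, T].Nodup) (f : ι → ℤ) :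
    ∑ χ ∈ [P, Q, R, U, V, W, T].toFinset, f χ = f P + f Q + f R + f U + f V + f W + f T := by
  rw [List.sum_toFinset _ hnd]
  simp only [List.map, List.sum_cons, List.sum_nil]
  ring

/-- the near-pencil configuration is impossible -/
theorem np_false (S : Fin 4 → Finset ι) (b' : Fin 4 → ι → ℤ)
    (hn : ∀ j, dot (b' j) (b' j) = 3) (hbb : ∀ j k, j ≠ k → dot (b' j) (b' k) = 1)
    (hbS : ∀ j k, ∑ χ ∈ S k, b' j χ = if j = k then 1 else 0)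
    (P Q R U V W T : ι) (hnd : [P, Q, R, U, V, W, T].Nodup)
    (h0 : S 0 = {P, Q, U}) (h1 : S 1 = {P, R, V}) (h2 : S 2 = {Q, R, W})
    (h3 : S 3 = {P, W, T}) : False := by
  have hnd' := hnd
  simp only [List.nodup_cons, List.mem_cons, List.not_mem_nil, or_false, not_or,
    List.nodup_nil, and_true, not_false_eq_true] at hnd'
  obtain ⟨⟨hPQ, hPR, hPU, hPV, hPW, hPT⟩, ⟨hQR, hQU, hQV, hQW, hQT⟩, ⟨hRU, hRV, hRW, hRT⟩,
    ⟨hUV, hUW, hUT⟩, ⟨hVW, hVT⟩, hWT⟩ := hnd'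
  have lin0 : ∀ j, b' j P + b' j Q + b' j U = if j = 0 then 1 else 0 := fun j => by
    rw [← hbS j 0, h0, sum_three hPQ hPU hQU]
  have lin1 : ∀ j, b' j P + b' j R + b' j V = if j = 1 then 1 else 0 := fun j => by
    rw [← hbS j 1, h1, sum_three hPR hPV hRV]
  have lin2 : ∀ j, b' j Q + b' j R + b' j W = if j = 2 then 1 else 0 := fun j => by
    rw [← hbS j 2, h2, sum_three hQR hQW hRW]
  have lin3 : ∀ j, b' j P + b' j W + b' j T = if j = 3 then 1 else 0 := fun j => by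
    rw [← hbS j 3, h3, sum_three hPW hPT hWT]
  have nrm : ∀ j, b' j P * b' j P + b' j Q * b' j Q + b' j R * b' j R + b' j U * b' j U +
      b' j V * b' j V + b' j W * b' j W + b' j T * b' j T ≤ 3 := fun j => by
    have := sum_le_norm [P, Q, R, U, V, W, T].toFinset (b' j)
    rw [sum_seven hnd, hn j] at this
    exact this
  have cs : ∀ j k, j ≠ k →
      compat (b' j P, b' j Q, b' j R, b' j U, b' j V, b' j W, b' j T)
        (b' k P, b' k Q, b' k R, b' k U, b' k V, b' k W, b' k T) := fun j k hjk => by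
    have := cs_outside [P, Q, R, U, V, W, T].toFinset (b' j) (b' k)
    rw [sum_seven hnd, sum_seven hnd, sum_seven hnd, hn j, hn k, hbb j k hjk] at this
    exact this
  have bd : ∀ j χ, -1 ≤ b' j χ ∧ b' j χ ≤ 1 := fun j χ => entry_bounds (hn j) χ
  have c0 := np_cand0 _ (bd 0 P).1 (bd 0 P).2 _ (bd 0 Q).1 (bd 0 Q).2 _ (bd 0 U).1 (bd 0 U).2
    (by rw [lin0 0]; rfl) _ (bd 0 R).1 (bd 0 R).2 _ (bd 0 V).1 (bd 0 V).2 (by rw [lin1 0]; rfl)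
    _ (bd 0 W).1 (bd 0 W).2 (by rw [lin2 0]; rfl) _ (bd 0 T).1 (bd 0 T).2 (by rw [lin3 0]; rfl)
    (nrm 0)
  have c1 := np_cand1 _ (bd 1 P).1 (bd 1 P).2 _ (bd 1 Q).1 (bd 1 Q).2 _ (bd 1 U).1 (bd 1 U).2
    (by rw [lin0 1]; rfl) _ (bd 1 R).1 (bd 1 R).2 _ (bd 1 V).1 (bd 1 V).2 (by rw [lin1 1]; rfl)
    _ (bd 1 W).1 (bd 1 W).2 (by rw [lin2 1]; rfl) _ (bd 1 T).1 (bd 1 T).2 (by rw [lin3 1]; rfl)
    (nrm 1)
  have c2 := np_cand2 _ (bd 2 P).1 (bd 2 P).2 _ (bd 2 Q).1 (bd 2 Q).2 _ (bd 2 U).1 (bd 2 U).2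
    (by rw [lin0 2]; rfl) _ (bd 2 R).1 (bd 2 R).2 _ (bd 2 V).1 (bd 2 V).2 (by rw [lin1 2]; rfl)
    _ (bd 2 W).1 (bd 2 W).2 (by rw [lin2 2]; rfl) _ (bd 2 T).1 (bd 2 T).2 (by rw [lin3 2]; rfl)
    (nrm 2)
  have c3 := np_cand3 _ (bd 3 P).1 (bd 3 P).2 _ (bd 3 Q).1 (bd 3 Q).2 _ (bd 3 U).1 (bd 3 U).2
    (by rw [lin0 3]; rfl) _ (bd 3 R).1 (bd 3 R).2 _ (bd 3 V).1 (bd 3 V).2 (by rw [lin1 3]; rfl)
    _ (bd 3 W).1 (bd 3 W).2 (by rw [lin2 3]; rfl) _ (bd 3 T).1 (bd 3 T).2 (by rw [lin3 3]; rfl)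
    (nrm 3)
  exact np_final _ c0 _ c1 (cs 0 1 (by decide)) _ c2 (cs 0 2 (by decide)) (cs 1 2 (by decide))
    _ c3 (cs 0 3 (by decide)) (cs 1 3 (by decide)) (cs 2 3 (by decide))

theorem card_inter_three {a b c : ι} (hab : a ≠ b) (hac : a ≠ c) (hbc : b ≠ c) (T : Finset ι) :
    (({a, b, c} : Finset ι) ∩ T).card =
      (if a ∈ T then 1 else 0) + (if b ∈ T then 1 else 0) + (if c ∈ T then 1 else 0) := by
  rw [← Finset.filter_mem_eq_inter, Finset.card_filter,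
    Finset.sum_insert (by simp [hab, hac]), Finset.sum_insert (by simp [hbc]),
    Finset.sum_singleton]
  ring

theorem tri_cases (p q r u v w : Prop) [Decidable p] [Decidable q] [Decidable r] [Decidable u]
    [Decidable v] [Decidable w]
    (e0 : (if p then 1 else 0) + (if q then 1 else 0) + (if u then 1 else 0) = 1)
    (e1 : (if p then 1 else 0) + (if r then 1 else 0) + (if v then 1 else 0) = 1)
    (e2 : (if q then 1 else 0) + (if r then 1 else 0) + (if w then 1 else 0) = 1) :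
    (p ∧ w ∧ ¬q ∧ ¬r ∧ ¬u ∧ ¬v) ∨ (q ∧ v ∧ ¬p ∧ ¬r ∧ ¬u ∧ ¬w) ∨
      (r ∧ u ∧ ¬p ∧ ¬q ∧ ¬v ∧ ¬w) ∨ (u ∧ v ∧ w ∧ ¬p ∧ ¬q ∧ ¬r) := by
  by_cases hp : p <;> by_cases hq : q <;> by_cases hr : r <;> by_cases hu : u <;>
    by_cases hv : v <;> by_cases hw : w <;>
    simp [hp, hq, hr, hu, hv, hw] at e0 e1 e2 ⊢

set_option maxHeartbeats 2000000 in
/-- a triangle in the first row is impossible -/
theorem tri (S : Fin 4 → Finset ι) (b' : Fin 4 → ι → ℤ)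
    (hS : ∀ j, (S j).card = 3) (hSS : ∀ j k, j ≠ k → (S j ∩ S k).card = 1)
    (hn : ∀ j, dot (b' j) (b' j) = 3) (hbb : ∀ j k, j ≠ k → dot (b' j) (b' k) = 1)
    (hbS : ∀ j k, ∑ χ ∈ S k, b' j χ = if j = k then 1 else 0)
    (P : ι) (hP0 : P ∈ S 0) (hP1 : P ∈ S 1) (hP2 : P ∉ S 2) : False := by
  have uniq : ∀ j k, j ≠ k → ∀ x y, x ∈ S j → x ∈ S k → y ∈ S j → y ∈ S k → x = y := by
    intro j k hjk x y hx1 hx2 hy1 hy2
    obtain ⟨a, ha⟩ := Finset.card_eq_one.mp (hSS j k hjk)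
    have hx : x ∈ S j ∩ S k := Finset.mem_inter.mpr ⟨hx1, hx2⟩
    have hy : y ∈ S j ∩ S k := Finset.mem_inter.mpr ⟨hy1, hy2⟩
    rw [ha, Finset.mem_singleton] at hx hy
    rw [hx, hy]
  obtain ⟨Q, hQ⟩ := Finset.card_eq_one.mp (hSS 0 2 (by decide))
  obtain ⟨R, hR⟩ := Finset.card_eq_one.mp (hSS 1 2 (by decide))
  have hQm : Q ∈ S 0 ∩ S 2 := by rw [hQ]; exact Finset.mem_singleton_self Q
  have hRm : R ∈ S 1 ∩ S 2 := by rw [hR]; exact Finset.mem_singleton_self R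
  rw [Finset.mem_inter] at hQm hRm
  obtain ⟨hQ0, hQ2⟩ := hQm
  obtain ⟨hR1, hR2⟩ := hRm
  have hPQ : P ≠ Q := fun h => hP2 (h ▸ hQ2)
  have hPR : P ≠ R := fun h => hP2 (h ▸ hR2)
  have hQ1 : Q ∉ S 1 := fun h => hPQ (uniq 0 1 (by decide) P Q hP0 hP1 hQ0 h)
  have hR0 : R ∉ S 0 := fun h => hPR (uniq 0 1 (by decide) P R hP0 hP1 h hR1)
  have hQR : Q ≠ R := fun h => hQ1 (h ▸ hR1)
  obtain ⟨U, hUP, hUQ, hS0⟩ := exists_third (hS 0) hP0 hQ0 hPQ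
  obtain ⟨V, hVP, hVR, hS1⟩ := exists_third (hS 1) hP1 hR1 hPR
  obtain ⟨W, hWQ, hWR, hS2⟩ := exists_third (hS 2) hQ2 hR2 hQR
  have hU0 : U ∈ S 0 := by rw [hS0]; simp
  have hV1 : V ∈ S 1 := by rw [hS1]; simp
  have hW2 : W ∈ S 2 := by rw [hS2]; simp
  have hU1 : U ∉ S 1 := fun h => hUP (uniq 0 1 (by decide) U P hU0 h hP0 hP1)
  have hU2 : U ∉ S 2 := fun h => hUQ (uniq 0 2 (by decide) U Q hU0 h hQ0 hQ2)
  have hV0 : V ∉ S 0 := fun h => hVP (uniq 0 1 (by decide) V P h hV1 hP0 hP1)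
  have hV2 : V ∉ S 2 := fun h => hVR (uniq 1 2 (by decide) V R hV1 h hR1 hR2)
  have hW0 : W ∉ S 0 := fun h => hWQ (uniq 0 2 (by decide) W Q h hW2 hQ0 hQ2)
  have hW1 : W ∉ S 1 := fun h => hWR (uniq 1 2 (by decide) W R h hW2 hR1 hR2)
  have hPU : P ≠ U := fun h => hUP h.symm
  have hPV : P ≠ V := fun h => hVP h.symm
  have hPW : P ≠ W := fun h => hP2 (h ▸ hW2)
  have hQU : Q ≠ U := fun h => hUQ h.symm
  have hQV : Q ≠ V := fun h => hQ1 (h ▸ hV1)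
  have hQW : Q ≠ W := fun h => hWQ h.symm
  have hRU : R ≠ U := fun h => hR0 (h ▸ hU0)
  have hRV : R ≠ V := fun h => hVR h.symm
  have hRW : R ≠ W := fun h => hWR h.symm
  have hUV : U ≠ V := fun h => hU1 (h ▸ hV1)
  have hUW : U ≠ W := fun h => hU2 (h ▸ hW2)
  have hVW : V ≠ W := fun h => hV2 (h ▸ hW2)
  have e0 := hSS 0 3 (by decide)
  have e1 := hSS 1 3 (by decide)
  have e2 := hSS 2 3 (by decide)
  rw [hS0, card_inter_three hPQ hPU hQU] at e0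
  rw [hS1, card_inter_three hPR hPV hRV] at e1
  rw [hS2, card_inter_three hQR hQW hRW] at e2
  have key := tri_cases (P ∈ S 3) (Q ∈ S 3) (R ∈ S 3) (U ∈ S 3) (V ∈ S 3) (W ∈ S 3) e0 e1 e2
  have sigma_inj : ∀ σ : Fin 4 → Fin 4, Function.Injective σ →
      (∀ j, dot (b' (σ j)) (b' (σ j)) = 3) ∧
      (∀ j k, j ≠ k → dot (b' (σ j)) (b' (σ k)) = 1) ∧
      (∀ j k, ∑ χ ∈ S (σ k), b' (σ j) χ = if j = k then 1 else 0) := by
    intro σ hσ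
    refine ⟨fun j => hn _, fun j k hjk => hbb _ _ (hσ.ne hjk), fun j k => ?_⟩
    simp only [hbS, hσ.eq_iff]
  rcases key with ⟨hP3, hW3, hQ3, hR3, hU3, hV3⟩ | ⟨hQ3, hV3, hP3, hR3, hU3, hW3⟩ |
    ⟨hR3, hU3, hP3, hQ3, hV3, hW3⟩ | ⟨hU3, hV3, hW3, hP3, hQ3, hR3⟩
  · obtain ⟨T, hTP, hTW, hS3⟩ := exists_third (hS 3) hP3 hW3 hPW
    have hT3 : T ∈ S 3 := by rw [hS3]; simp
    have hQT : Q ≠ T := fun h => hQ3 (h ▸ hT3)
    have hRT : R ≠ T := fun h => hR3 (h ▸ hT3)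
    have hUT : U ≠ T := fun h => hU3 (h ▸ hT3)
    have hVT : V ≠ T := fun h => hV3 (h ▸ hT3)
    exact np_false S b' hn hbb hbS P Q R U V W T
      (by simp [hPQ, hPR, hPU, hPV, hPW, Ne.symm hTP, hQR, hQU, hQV, hQW, hQT, hRU, hRV, hRW, hRT,
        hUV, hUW, hUT, hVW, hVT, Ne.symm hTW]) hS0 hS1 hS2 hS3
  · obtain ⟨T, hTQ, hTV, hS3⟩ := exists_third (hS 3) hQ3 hV3 hQV
    have hT3 : T ∈ S 3 := by rw [hS3]; simp
    have hPT : P ≠ T := fun h => hP3 (h ▸ hT3)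
    have hRT : R ≠ T := fun h => hR3 (h ▸ hT3)
    have hUT : U ≠ T := fun h => hU3 (h ▸ hT3)
    have hWT : W ≠ T := fun h => hW3 (h ▸ hT3)
    obtain ⟨σn, σbb, σbS⟩ := sigma_inj ![0, 2, 1, 3] (by decide)
    exact np_false (fun j => S (![0, 2, 1, 3] j)) (fun j => b' (![0, 2, 1, 3] j)) σn σbb σbS
      Q P R U W V T
      (by simp [Ne.symm hPQ, hQR, hQU, hQW, hQV, Ne.symm hTQ, hPR, hPU, hPW, hPV, hPT, hRU, hRW,
        hRV, hRT, hUW, hUV, hUT, Ne.symm hVW, hWT, Ne.symm hTV])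
      (by show S 0 = _; rw [hS0]; ext x; simp; tauto)
      (by show S 2 = _; rw [hS2])
      (by show S 1 = _; rw [hS1])
      (by show S 3 = _; rw [hS3])
  · obtain ⟨T, hTR, hTU, hS3⟩ := exists_third (hS 3) hR3 hU3 hRU
    have hT3 : T ∈ S 3 := by rw [hS3]; simp
    have hPT : P ≠ T := fun h => hP3 (h ▸ hT3)
    have hQT : Q ≠ T := fun h => hQ3 (h ▸ hT3)
    have hVT : V ≠ T := fun h => hV3 (h ▸ hT3)
    have hWT : W ≠ T := fun h => hW3 (h ▸ hT3)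
    obtain ⟨σn, σbb, σbS⟩ := sigma_inj ![1, 2, 0, 3] (by decide)
    exact np_false (fun j => S (![1, 2, 0, 3] j)) (fun j => b' (![1, 2, 0, 3] j)) σn σbb σbS
      R P Q V W U T
      (by simp [Ne.symm hPR, Ne.symm hQR, hRV, hRW, hRU, Ne.symm hTR, hPQ, hPV, hPW, hPU, hPT,
        hQV, hQW, hQU, hQT, hVW, Ne.symm hUV, hVT, Ne.symm hUW, hWT, Ne.symm hTU])
      (by show S 1 = _; rw [hS1]; ext x; simp; tauto)
      (by show S 2 = _; rw [hS2]; ext x; simp; tauto)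
      (by show S 0 = _; rw [hS0])
      (by show S 3 = _; rw [hS3])
  · have hS3 : S 3 = {U, V, W} := by
      symm
      apply Finset.eq_of_subset_of_card_le
      · intro x hx
        simp only [Finset.mem_insert, Finset.mem_singleton] at hx
        rcases hx with rfl | rfl | rfl
        · exact hU3
        · exact hV3
        · exact hW3
      · rw [hS 3, Finset.card_insert_of_notMem (by simp [hUV, hUW]),
          Finset.card_insert_of_notMem (by simp [hVW]), Finset.card_singleton]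
    have a0 := hbS 0 0
    have a1 := hbS 0 1
    have a2 := hbS 0 2
    have a3 := hbS 0 3
    rw [hS0, sum_three hPQ hPU hQU] at a0
    rw [hS1, sum_three hPR hPV hRV] at a1
    rw [hS2, sum_three hQR hQW hRW] at a2
    rw [hS3, sum_three hUV hUW hVW] at a3
    simp only [if_true] at a0
    have a1' : b' 0 P + b' 0 R + b' 0 V = 0 := by rw [a1]; rfl
    have a2' : b' 0 Q + b' 0 R + b' 0 W = 0 := by rw [a2]; rfl
    have a3' : b' 0 U + b' 0 V + b' 0 W = 0 := by rw [a3]; rfl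
    omega

/-- the positive form of the four-column sunflower lemma -/
theorem sun4_pos (S : Fin 4 → Finset ι) (b' : Fin 4 → ι → ℤ)
    (hS : ∀ j, (S j).card = 3) (hSS : ∀ j k, j ≠ k → (S j ∩ S k).card = 1)
    (hn : ∀ j, dot (b' j) (b' j) = 3) (hbb : ∀ j k, j ≠ k → dot (b' j) (b' k) = 1)
    (hbS : ∀ j k, ∑ χ ∈ S k, b' j χ = if j = k then 1 else 0) :
    ∃ χ, ∀ j, χ ∈ S j := by
  obtain ⟨P, hP⟩ := Finset.card_eq_one.mp (hSS 0 1 (by decide))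
  have hPm : P ∈ S 0 ∩ S 1 := by rw [hP]; exact Finset.mem_singleton_self P
  rw [Finset.mem_inter] at hPm
  by_cases h2 : P ∈ S 2
  · by_cases h3 : P ∈ S 3
    · refine ⟨P, fun j => ?_⟩
      fin_cases j
      · exact hPm.1
      · exact hPm.2
      · exact h2
      · exact h3
    · exfalso
      have hσ : Function.Injective (![0, 1, 3, 2] : Fin 4 → Fin 4) := by decide
      exact tri (fun j => S (![0, 1, 3, 2] j)) (fun j => b' (![0, 1, 3, 2] j)) (fun j => hS _)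
        (fun j k hjk => hSS _ _ (hσ.ne hjk)) (fun j => hn _)
        (fun j k hjk => hbb _ _ (hσ.ne hjk))
        (fun j k => by simp only [hbS, hσ.eq_iff]) P hPm.1 hPm.2 h3
  · exfalso
    exact tri S b' hS hSS hn hbb hbS P hPm.1 hPm.2 h2

/-- four vectors of one row, in the presence of a second row, have a common coordinate -/
theorem sun4 (b b' : Fin 4 → ι → ℤ)
    (hb : ∀ j k, dot (b j) (b k) = if j = k then 3 else 1)
    (hb' : ∀ j k, dot (b' j) (b' k) = if j = k then 3 else 1)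
    (hbb' : ∀ j k, dot (b' j) (b k) = if j = k then 1 else 0) :
    ∃ χ, ∀ j, b j χ ≠ 0 := by
  have hn : ∀ j, dot (b j) (b j) = 3 := fun j => by rw [hb j j, if_pos rfl]
  have hn' : ∀ j, dot (b' j) (b' j) = 3 := fun j => by rw [hb' j j, if_pos rfl]
  have hpair : ∀ j k, j ≠ k →
      ∃ χ, b j χ ≠ 0 ∧ b k χ = b j χ ∧ ∀ χ', b j χ' ≠ 0 → b k χ' ≠ 0 → χ' = χ :=
    fun j k hjk => pair_lemma (hn j) (hn k) (by rw [hb j k, if_neg hjk])
      (by rw [hbb' j j, if_pos rfl]) (by rw [hbb' j k, if_neg hjk])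
  have hc : ∀ j k χ, b j χ ≠ 0 → b k χ ≠ 0 → b j χ = b k χ := by
    intro j k χ hj hk
    by_cases hjk : j = k
    · rw [hjk]
    · obtain ⟨χ₀, -, h2, h3⟩ := hpair j k hjk
      have := h3 χ hj hk
      rw [this, h2]
  obtain ⟨ε, hε1, hε2⟩ := exists_flip b (fun j χ => entry (hn j) χ) hc
  have hε3 : ∀ (x y : ι → ℤ), dot (fun χ => ε χ * x χ) (fun χ => ε χ * y χ) = dot x y := by
    intro x y
    unfold dot
    refine Finset.sum_congr rfl fun χ _ => ?_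
    calc ε χ * x χ * (ε χ * y χ) = (ε χ * ε χ) * (x χ * y χ) := by ring
      _ = x χ * y χ := by rw [hε1, one_mul]
  have key := sun4_pos (fun j => supp (b j)) (fun j χ => ε χ * b' j χ)
    (fun j => card_supp (hn j)) ?_ ?_ ?_ ?_
  · obtain ⟨χ, hχ⟩ := key
    exact ⟨χ, fun j => mem_supp.mp (hχ j)⟩
  · intro j k hjk
    obtain ⟨χ₀, h1, h2, h3⟩ := hpair j k hjk
    rw [Finset.card_eq_one]
    refine ⟨χ₀, ?_⟩
    ext χ
    rw [Finset.mem_inter, mem_supp, mem_supp, Finset.mem_singleton]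
    constructor
    · rintro ⟨ha, hb⟩
      exact h3 χ ha hb
    · rintro rfl
      exact ⟨h1, by rw [h2]; exact h1⟩
  · intro j
    rw [hε3, hn']
  · intro j k hjk
    rw [hε3, hb' j k, if_neg hjk]
  · intro j k
    rw [← hbb' j k, dot_eq_sum_supp]
    refine Finset.sum_congr rfl fun χ hχ => ?_
    rw [hε2 k χ (mem_supp.mp hχ), mul_comm]

/-- a row with at least four entries, in the presence of a second row, has a common
coordinate -/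
theorem row_common {J : Type*} [DecidableEq J] (r r' : J → ι → ℤ)
    (hr : ∀ j k, dot (r j) (r k) = if j = k then 3 else 1)
    (hr' : ∀ j k, dot (r' j) (r' k) = if j = k then 3 else 1)
    (hrr' : ∀ j k, dot (r' j) (r k) = if j = k then 1 else 0)
    (hJ2 : ∃ j1 j2 : J, j1 ≠ j2)
    (hJ4 : ∀ j1 j2 j3 : J, ∃ j4, j4 ≠ j1 ∧ j4 ≠ j2 ∧ j4 ≠ j3) :
    ∃ χ, ∀ j, r j χ ≠ 0 := by
  obtain ⟨j1, j2, h12⟩ := hJ2
  have hn : ∀ j, dot (r j) (r j) = 3 := fun j => by rw [hr j j, if_pos rfl]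
  obtain ⟨χ₀, h1, h2, h3⟩ := pair_lemma (hn j1) (hn j2) (by rw [hr j1 j2, if_neg h12])
    (by rw [hrr' j1 j1, if_pos rfl]) (by rw [hrr' j1 j2, if_neg h12])
  refine ⟨χ₀, fun j => ?_⟩
  by_cases hj1 : j = j1
  · rw [hj1]; exact h1
  by_cases hj2 : j = j2
  · rw [hj2, h2]; exact h1
  obtain ⟨j4, h41, h42, h43⟩ := hJ4 j1 j2 j
  have hc : Function.Injective (![j1, j2, j, j4] : Fin 4 → J) := by
    intro a b hab
    fin_cases a <;> fin_cases b <;>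
      simp [h12, Ne.symm h12, hj1, Ne.symm hj1, hj2, Ne.symm hj2, h41, Ne.symm h41, h42,
        Ne.symm h42, h43, Ne.symm h43] at hab ⊢
  obtain ⟨χ, hχ⟩ := sun4 (fun k => r (![j1, j2, j, j4] k)) (fun k => r' (![j1, j2, j, j4] k))
    (fun a b => by simp only [hr, hc.eq_iff]) (fun a b => by simp only [hr', hc.eq_iff])
    (fun a b => by simp only [hrr', hc.eq_iff])
  have e0 : r j1 χ ≠ 0 := hχ 0
  have e1 : r j2 χ ≠ 0 := hχ 1
  have e2 : r j χ ≠ 0 := hχ 2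
  have := h3 χ e0 e1
  rw [← this]
  exact e2

end Cfsg.Agent.Lib.Helper35.TIComb
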