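import Mathlib
import Cfsg.Agent.Lib.Helper35.TIComb2

set_option autoImplicit false

namespace Cfsg.Agent.Lib.Helper35.TIComb

variable {ι : Type*} [Fintype ι] [DecidableEq ι]

set_option maxHeartbeats 1000000 in
/-- the combinatorial core of the cyclic TI isometry: integer vectors `b i j` of norm 3 with
`⟨b i j, b i' j'⟩ = [i = i'] + [j = j']` decompose as `x i + y j + z i j` along pairwise distinct
coordinates. -/
theorem comb {I J : Type*} [DecidableEq I] [DecidableEq J] (b : I → J → ι → ℤ)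
    (hG : ∀ i j i' j', dot (b i j) (b i' j') =
      (if i = i' then 1 else 0) + (if j = j' then 1 else 0) +
        (if i = i' ∧ j = j' then 1 else 0))
    (hJ2 : ∃ j1 j2 : J, j1 ≠ j2) (hJ4 : ∀ j1 j2 j3 : J, ∃ j4, j4 ≠ j1 ∧ j4 ≠ j2 ∧ j4 ≠ j3)
    (hI : (∃ i1 i2 : I, i1 ≠ i2 ∧ ∀ i, i = i1 ∨ i = i2) ∨
      ((∃ i1 i2 : I, i1 ≠ i2) ∧ ∀ i1 i2 i3 : I, ∃ i4, i4 ≠ i1 ∧ i4 ≠ i2 ∧ i4 ≠ i3)) :
    ∃ (x : I → ι) (y : J → ι) (z : I → J → ι),
      (∀ i j, b i j (x i) ≠ 0 ∧ b i j (y j) ≠ 0 ∧ b i j (z i j) ≠ 0) ∧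
      (∀ i j j', b i j' (x i) = b i j (x i)) ∧ (∀ i i' j, b i' j (y j) = b i j (y j)) ∧
      (∀ i j χ, χ ≠ x i → χ ≠ y j → χ ≠ z i j → b i j χ = 0) ∧
      Function.Injective x ∧ Function.Injective y ∧
      (∀ i j i' j', z i j = z i' j' → i = i' ∧ j = j') ∧
      (∀ i j, x i ≠ y j) ∧ (∀ i i' j, x i ≠ z i' j) ∧ (∀ i j j', y j ≠ z i j') := by
  have hn : ∀ i j, dot (b i j) (b i j) = 3 := by
    intro i j
    rw [hG]
    simp
  have hI2 : ∀ i : I, ∃ i' : I, i' ≠ i := by
    intro i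
    rcases hI with ⟨i1, i2, h12, -⟩ | ⟨-, h4⟩
    · by_cases h : i = i1
      · exact ⟨i2, by rw [h]; exact h12.symm⟩
      · exact ⟨i1, fun h' => h h'.symm⟩
    · obtain ⟨i4, h, -, -⟩ := h4 i i i
      exact ⟨i4, h⟩
  have hJ2' : ∀ j : J, ∃ j' : J, j' ≠ j := fun j => by
    obtain ⟨j4, h, -, -⟩ := hJ4 j j j
    exact ⟨j4, h⟩
  obtain ⟨j₀, -, -⟩ := hJ2
  have hi₀ : ∃ i₀ : I, True := by
    rcases hI with ⟨i1, -, -, -⟩ | ⟨⟨i1, -, -⟩, -⟩
    · exact ⟨i1, trivial⟩
    · exact ⟨i1, trivial⟩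
  obtain ⟨i₀, -⟩ := hi₀
  -- pairs in rows and columns
  have hrow : ∀ i j j', j ≠ j' → ∃ χ, b i j χ ≠ 0 ∧ b i j' χ = b i j χ ∧
      ∀ χ', b i j χ' ≠ 0 → b i j' χ' ≠ 0 → χ' = χ := by
    intro i j j' hjj'
    obtain ⟨i', hi'⟩ := hI2 i
    exact pair_lemma (c := b i' j) (hn i j) (hn i j') (by rw [hG]; simp [hjj'])
      (by rw [hG]; simp [hi']) (by rw [hG]; simp [hi', hjj'])
  have hcol : ∀ i i' j, i ≠ i' → ∃ χ, b i j χ ≠ 0 ∧ b i' j χ = b i j χ ∧
      ∀ χ', b i j χ' ≠ 0 → b i' j χ' ≠ 0 → χ' = χ := by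
    intro i i' j hii'
    obtain ⟨j', hj'⟩ := hJ2' j
    exact pair_lemma (c := b i j') (hn i j) (hn i' j) (by rw [hG]; simp [hii'])
      (by rw [hG]; simp [hj']) (by rw [hG]; simp [hj', hii'])
  -- row centres
  have hx : ∀ i, ∃ χ, ∀ j, b i j χ ≠ 0 := by
    intro i
    obtain ⟨i', hi'⟩ := hI2 i
    exact row_common (b i) (b i')
      (fun j k => by rw [hG]; by_cases h : j = k <;> simp [h])
      (fun j k => by rw [hG]; by_cases h : j = k <;> simp [h])
      (fun j k => by rw [hG]; by_cases h : j = k <;> simp [h, hi'])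
      ⟨j₀, (hJ2' j₀).choose, (hJ2' j₀).choose_spec.symm⟩ hJ4
  -- column centres
  have hy : ∀ j, ∃ χ, ∀ i, b i j χ ≠ 0 := by
    intro j
    rcases hI with ⟨i1, i2, h12, hall⟩ | ⟨hI2e, hI4⟩
    · obtain ⟨χ, h1, h2, -⟩ := hcol i1 i2 j h12
      refine ⟨χ, fun i => ?_⟩
      rcases hall i with rfl | rfl
      · exact h1
      · rw [h2]; exact h1
    · obtain ⟨j', hj'⟩ := hJ2' j
      exact row_common (fun i => b i j) (fun i => b i j')
        (fun i k => by rw [hG]; by_cases h : i = k <;> simp [h])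
        (fun i k => by rw [hG]; by_cases h : i = k <;> simp [h])
        (fun i k => by rw [hG]; by_cases h : i = k <;> simp [h, hj'])
        hI2e hI4
  choose x hx using hx
  choose y hy using hy
  have urow : ∀ i j j', j ≠ j' → ∀ χ, b i j χ ≠ 0 → b i j' χ ≠ 0 → χ = x i := by
    intro i j j' hjj' χ h1 h2
    obtain ⟨χ₀, -, -, h3⟩ := hrow i j j' hjj'
    rw [h3 χ h1 h2, h3 (x i) (hx i j) (hx i j')]
  have ucol : ∀ i i' j, i ≠ i' → ∀ χ, b i j χ ≠ 0 → b i' j χ ≠ 0 → χ = y j := by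
    intro i i' j hii' χ h1 h2
    obtain ⟨χ₀, -, -, h3⟩ := hcol i i' j hii'
    rw [h3 χ h1 h2, h3 (y j) (hy j i) (hy j i')]
  have srow : ∀ i j j', b i j' (x i) = b i j (x i) := by
    intro i j j'
    by_cases h : j = j'
    · rw [h]
    · obtain ⟨χ₀, -, h2, h3⟩ := hrow i j j' h
      have := h3 (x i) (hx i j) (hx i j')
      rw [this]
      exact h2
  have scol : ∀ i i' j, b i' j (y j) = b i j (y j) := by
    intro i i' j
    by_cases h : i = i'
    · rw [h]
    · obtain ⟨χ₀, -, h2, h3⟩ := hcol i i' j h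
      have := h3 (y j) (hy j i) (hy j i')
      rw [this]
      exact h2
  -- the centres of a row and of a column are different
  have hxy : ∀ i j, x i ≠ y j := by
    intro i j hEq
    obtain ⟨i', hi'⟩ := hI2 i
    obtain ⟨j1, h1⟩ := hJ2' j
    obtain ⟨j2, h2j, h21, -⟩ := hJ4 j j1 j1
    obtain ⟨j3, h3j, h31, h32⟩ := hJ4 j j1 j2
    have hv0 : b i' j (x i) ≠ 0 := by rw [hEq]; exact hy j i'
    have step : ∀ jk, jk ≠ j → ∃ χ, χ ≠ x i ∧ b i' j χ ≠ 0 ∧ b i jk χ ≠ 0 := by
      intro jk hjk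
      have hdot := hG i' j i jk
      simp only [hi', Ne.symm hjk, if_false, false_and, add_zero] at hdot
      have s1 : b i jk (x i) = b i j (x i) := srow i j jk
      have s2 : b i' j (x i) = b i j (x i) := by rw [hEq]; exact scol i i' j
      have s3 : b i j (x i) * b i j (x i) = 1 := by
        rcases entry_ne (hn i j) (hx i j) with h | h <;> rw [h] <;> norm_num
      by_contra hcon
      push Not at hcon
      have hd : dot (b i' j) (b i jk) = b i' j (x i) * b i jk (x i) := by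
        unfold dot
        rw [Finset.sum_eq_single (x i)]
        · intro χ _ hχ
          by_cases h0 : b i' j χ = 0
          · rw [h0, zero_mul]
          · rw [hcon χ hχ h0, mul_zero]
        · intro h
          exact absurd (Finset.mem_univ _) h
      rw [hd, s1, s2, s3] at hdot
      exact one_ne_zero hdot
    obtain ⟨f1, hf1, hf1a, hf1b⟩ := step j1 h1
    obtain ⟨f2, hf2, hf2a, hf2b⟩ := step j2 h2j
    obtain ⟨f3, hf3, hf3a, hf3b⟩ := step j3 h3j
    have hcard : ((supp (b i' j)).erase (x i)).card = 2 := by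
      rw [Finset.card_erase_of_mem (mem_supp.mpr hv0), card_supp (hn i' j)]
    obtain ⟨g1, g2, -, hE⟩ := Finset.card_eq_two.mp hcard
    have mem : ∀ f, f ≠ x i → b i' j f ≠ 0 → f = g1 ∨ f = g2 := by
      intro f h1 h2
      have : f ∈ (supp (b i' j)).erase (x i) := Finset.mem_erase.mpr ⟨h1, mem_supp.mpr h2⟩
      rw [hE] at this
      simpa using this
    have coll : ∀ ja jb, ja ≠ jb → ∀ f, f ≠ x i → b i ja f ≠ 0 → b i jb f ≠ 0 → False := by
      intro ja jb hab f hf ha hb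
      exact hf (urow i ja jb hab f ha hb)
    rcases mem f1 hf1 hf1a with e1 | e1 <;> rcases mem f2 hf2 hf2a with e2 | e2 <;>
      rcases mem f3 hf3 hf3a with e3 | e3
    · exact coll j1 j2 (Ne.symm h21) f1 hf1 hf1b (by rw [e1, ← e2]; exact hf2b)
    · exact coll j1 j2 (Ne.symm h21) f1 hf1 hf1b (by rw [e1, ← e2]; exact hf2b)
    · exact coll j1 j3 (Ne.symm h31) f1 hf1 hf1b (by rw [e1, ← e3]; exact hf3b)
    · exact coll j2 j3 (Ne.symm h32) f2 hf2 hf2b (by rw [e2, ← e3]; exact hf3b)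
    · exact coll j2 j3 (Ne.symm h32) f2 hf2 hf2b (by rw [e2, ← e3]; exact hf3b)
    · exact coll j1 j3 (Ne.symm h31) f1 hf1 hf1b (by rw [e1, ← e3]; exact hf3b)
    · exact coll j1 j2 (Ne.symm h21) f1 hf1 hf1b (by rw [e1, ← e2]; exact hf2b)
    · exact coll j1 j2 (Ne.symm h21) f1 hf1 hf1b (by rw [e1, ← e2]; exact hf2b)
  -- the third coordinate
  have hz : ∀ i j, ∃ χ, χ ≠ x i ∧ χ ≠ y j ∧ supp (b i j) = {x i, y j, χ} := fun i j =>
    exists_third (card_supp (hn i j)) (mem_supp.mpr (hx i j)) (mem_supp.mpr (hy j i)) (hxy i j)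
  choose z hz1 hz2 hz3 using hz
  have hzne : ∀ i j, b i j (z i j) ≠ 0 := by
    intro i j
    rw [← mem_supp, hz3]
    simp
  have hzero : ∀ i j χ, χ ≠ x i → χ ≠ y j → χ ≠ z i j → b i j χ = 0 := by
    intro i j χ h1 h2 h3
    by_contra h
    have : χ ∈ supp (b i j) := mem_supp.mpr h
    rw [hz3] at this
    simp only [Finset.mem_insert, Finset.mem_singleton] at this
    tauto
  have xinj : Function.Injective x := by
    intro i i' h
    by_contra hne
    have := ucol i i' j₀ hne (x i) (hx i j₀) (by rw [h]; exact hx i' j₀)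
    exact hxy i j₀ this
  have yinj : Function.Injective y := by
    intro j j' h
    by_contra hne
    have := urow i₀ j j' hne (y j) (hy j i₀) (by rw [h]; exact hy j' i₀)
    exact hxy i₀ j this.symm
  have hxz : ∀ i i' j, x i ≠ z i' j := by
    intro i i' j h
    by_cases hii' : i = i'
    · subst hii'
      exact hz1 i j h.symm
    · have := ucol i i' j hii' (x i) (hx i j) (by rw [h]; exact hzne i' j)
      exact hxy i j this
  have hyz : ∀ i j j', y j ≠ z i j' := by
    intro i j j' h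
    by_cases hjj' : j = j'
    · subst hjj'
      exact hz2 i j h.symm
    · have := urow i j j' hjj' (y j) (hy j i) (by rw [h]; exact hzne i j')
      exact hxy i j this.symm
  have zinj : ∀ i j i' j', z i j = z i' j' → i = i' ∧ j = j' := by
    intro i j i' j' h
    by_cases hii' : i = i'
    · subst hii'
      refine ⟨rfl, ?_⟩
      by_contra hjj'
      have := urow i j j' hjj' (z i j) (hzne i j) (by rw [h]; exact hzne i j')
      exact hz1 i j this
    · exfalso
      by_cases hjj' : j = j'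
      · subst hjj'
        have := ucol i i' j hii' (z i j) (hzne i j) (by rw [h]; exact hzne i' j)
        exact hz2 i j this
      · have hdot := hG i' j' i j
        simp only [Ne.symm hii', Ne.symm hjj', if_false, false_and, add_zero] at hdot
        rw [dot_eq_sum_supp, hz3 i j, sum_three (hxy i j) (Ne.symm (hz1 i j))
          (Ne.symm (hz2 i j))] at hdot
        have e1 : b i' j' (x i) = 0 :=
          hzero i' j' (x i) (fun h' => hii' (xinj h')) (hxy i j') (hxz i i' j')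
        have e2 : b i' j' (y j) = 0 :=
          hzero i' j' (y j) (fun h' => hxy i' j h'.symm) (fun h' => hjj' (yinj h'))
            (hyz i' j j')
        rw [e1, e2, zero_mul, zero_mul, zero_add, zero_add] at hdot
        have h2 : b i' j' (z i j) ≠ 0 := by rw [h]; exact hzne i' j'
        exact (mul_ne_zero h2 (hzne i j)) hdot
  exact ⟨x, y, z, fun i j => ⟨hx i j, hy j i, hzne i j⟩, srow, scol, hzero, xinj, yinj, zinj,
    hxy, hxz, hyz⟩

end Cfsg.Agent.Lib.Helper35.TIComb
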