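import Cfsg.Agent.S1505
import Cfsg.Agent.S1511
import Cfsg.Agent.Lib.Helper35.Virt
import Cfsg.Agent.Lib.Helper83.Linear

set_option autoImplicit false

namespace Cfsg.Agent.Lib.Helper35.TIFam

open Cfsg Cfsg.Agent Cfsg.Agent.Lib.Helper35
open scoped ComplexConjugate

section Grp

variable {G : Type*} [Group G] [Finite G] (W₁ W₂ : Subgroup G)

/-- the order of an internal direct product -/
theorem card_sup (hdisj : W₁ ⊓ W₂ = ⊥) (hcomm : ∀ a ∈ W₁, ∀ b ∈ W₂, a * b = b * a) :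
    Nat.card ↥(W₁ ⊔ W₂) = Nat.card W₁ * Nat.card W₂ := by
  rw [← Nat.card_prod]
  symm
  apply Nat.card_congr
  refine Equiv.ofBijective (fun p : W₁ × W₂ => (⟨(p.1 : G) * p.2,
    mul_mem (Subgroup.mem_sup_left p.1.2) (Subgroup.mem_sup_right p.2.2)⟩ : ↥(W₁ ⊔ W₂)))
    ⟨?_, ?_⟩
  · rintro ⟨a, b⟩ ⟨a', b'⟩ h
    have h' : (a : G) * b = a' * b' := congrArg Subtype.val h
    have h1 : (a' : G)⁻¹ * a = b' * (b : G)⁻¹ := by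
      rw [inv_mul_eq_iff_eq_mul, ← mul_assoc, ← h', mul_inv_cancel_right]
    have h2 : (a' : G)⁻¹ * a ∈ W₁ ⊓ W₂ :=
      ⟨W₁.mul_mem (W₁.inv_mem a'.2) a.2, by rw [h1]; exact W₂.mul_mem b'.2 (W₂.inv_mem b.2)⟩
    rw [hdisj, Subgroup.mem_bot, inv_mul_eq_one] at h2
    have ha : a = a' := Subtype.ext h2.symm
    subst ha
    have hb : (b : G) = b' := mul_left_cancel h'
    exact Prod.ext rfl (Subtype.ext hb)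
  · rintro ⟨g, hg⟩
    obtain ⟨a, ha, b, hb, rfl⟩ := S1511.exists_prod W₁ W₂ hcomm g hg
    exact ⟨(⟨a, ha⟩, ⟨b, hb⟩), rfl⟩

/-- the number of linear characters of `W` trivial on a subgroup -/
theorem card_triv_on (hc : ∀ u v : ↥(W₁ ⊔ W₂), u * v = v * u) (N : Subgroup G)
    (hN : N ≤ W₁ ⊔ W₂) :
    Nat.card {φ : ↥(W₁ ⊔ W₂) →* ℂˣ // ∀ w : ↥(W₁ ⊔ W₂), (w : G) ∈ N → φ w = 1} * Nat.card N =
      Nat.card ↥(W₁ ⊔ W₂) := by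
  let _ : CommGroup ↥(W₁ ⊔ W₂) := { (inferInstance : Group ↥(W₁ ⊔ W₂)) with mul_comm := hc }
  have h1 := CommGroup.card_domRestrictHom_ker (G := ↥(W₁ ⊔ W₂)) ℂ (N.subgroupOf (W₁ ⊔ W₂))
  have h2 := Subgroup.card_eq_card_quotient_mul_card_subgroup (N.subgroupOf (W₁ ⊔ W₂))
  have h3 : Nat.card ↥(N.subgroupOf (W₁ ⊔ W₂)) = Nat.card N :=
    Nat.card_congr (Subgroup.subgroupOfEquivOfLe hN).toEquiv
  have h4 : Nat.card {φ : ↥(W₁ ⊔ W₂) →* ℂˣ // ∀ w : ↥(W₁ ⊔ W₂), (w : G) ∈ N → φ w = 1} =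
      Nat.card ↥(MonoidHom.domRestrictHom (N.subgroupOf (W₁ ⊔ W₂)) ℂˣ).ker := by
    apply Nat.card_congr
    apply Equiv.subtypeEquivRight
    intro φ
    rw [MonoidHom.mem_ker, MonoidHom.domRestrictHom_apply, MonoidHom.domRestrict_eq_one_iff]
    simp only [Subgroup.mem_subgroupOf]
  rw [h4, h1, ← h3, ← h2]

/-- every linear character of `W` is a product of one trivial on `W₂` and one trivial on `W₁` -/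
theorem exists_decomp (hdisj : W₁ ⊓ W₂ = ⊥) (hcomm : ∀ a ∈ W₁, ∀ b ∈ W₂, a * b = b * a)
    (hc : ∀ u v : ↥(W₁ ⊔ W₂), u * v = v * u) :
    ∃ p q : (↥(W₁ ⊔ W₂) →* ℂˣ) → (↥(W₁ ⊔ W₂) →* ℂˣ),
      (∀ ω (w : ↥(W₁ ⊔ W₂)), (w : G) ∈ W₂ → p ω w = 1) ∧
      (∀ ω (w : ↥(W₁ ⊔ W₂)), (w : G) ∈ W₁ → q ω w = 1) ∧ ∀ ω, ω = p ω * q ω := by
  have hinj : Function.Injective
      (fun pr : {φ : ↥(W₁ ⊔ W₂) →* ℂˣ // ∀ w : ↥(W₁ ⊔ W₂), (w : G) ∈ W₂ → φ w = 1} ×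
        {ψ : ↥(W₁ ⊔ W₂) →* ℂˣ // ∀ w : ↥(W₁ ⊔ W₂), (w : G) ∈ W₁ → ψ w = 1} =>
        pr.1.1 * pr.2.1) := by
    rintro ⟨⟨φ, hφ⟩, ⟨ψ, hψ⟩⟩ ⟨⟨φ', hφ'⟩, ⟨ψ', hψ'⟩⟩ h
    obtain ⟨h1, h2⟩ := S1505.uniq W₁ W₂ φ φ' ψ ψ' hφ hφ' hψ hψ' h
    subst h1
    subst h2
    rfl
  have e1 := card_triv_on W₁ W₂ hc W₂ le_sup_right
  have e2 := card_triv_on W₁ W₂ hc W₁ le_sup_left
  have e3 := card_sup W₁ W₂ hdisj hcomm
  have e4 : Nat.card (↥(W₁ ⊔ W₂) →* ℂˣ) = Nat.card ↥(W₁ ⊔ W₂) := by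
    let _ : CommGroup ↥(W₁ ⊔ W₂) := { (inferInstance : Group ↥(W₁ ⊔ W₂)) with mul_comm := hc }
    exact CommGroup.card_monoidHom_of_hasEnoughRootsOfUnity _ ℂ
  have hΦ : Nat.card {φ : ↥(W₁ ⊔ W₂) →* ℂˣ // ∀ w : ↥(W₁ ⊔ W₂), (w : G) ∈ W₂ → φ w = 1} =
      Nat.card W₁ := by
    have := e1.trans e3
    exact Nat.eq_of_mul_eq_mul_right Nat.card_pos this
  have hΨ : Nat.card {ψ : ↥(W₁ ⊔ W₂) →* ℂˣ // ∀ w : ↥(W₁ ⊔ W₂), (w : G) ∈ W₁ → ψ w = 1} =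
      Nat.card W₂ := by
    have := e2.trans (e3.trans (mul_comm _ _))
    exact Nat.eq_of_mul_eq_mul_right Nat.card_pos this
  have hcard : Nat.card (↥(W₁ ⊔ W₂) →* ℂˣ) ≤
      Nat.card ({φ : ↥(W₁ ⊔ W₂) →* ℂˣ // ∀ w : ↥(W₁ ⊔ W₂), (w : G) ∈ W₂ → φ w = 1} ×
        {ψ : ↥(W₁ ⊔ W₂) →* ℂˣ // ∀ w : ↥(W₁ ⊔ W₂), (w : G) ∈ W₁ → ψ w = 1}) := by
    rw [Nat.card_prod, hΦ, hΨ, e4, e3]
  have hbij := hinj.bijective_of_nat_card_le hcard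
  choose f hf using hbij.2
  exact ⟨fun ω => (f ω).1.1, fun ω => (f ω).2.1, fun ω => (f ω).1.2, fun ω => (f ω).2.2,
    fun ω => (hf ω).symm⟩

/-- the number of non-trivial linear characters of `W` trivial on a subgroup -/
theorem card_nontriv (N : Subgroup G) :
    Nat.card ↥{φ : ↥(W₁ ⊔ W₂) →* ℂˣ | φ ≠ 1 ∧ ∀ w : ↥(W₁ ⊔ W₂), (w : G) ∈ N → φ w = 1} =
      Nat.card {φ : ↥(W₁ ⊔ W₂) →* ℂˣ // ∀ w : ↥(W₁ ⊔ W₂), (w : G) ∈ N → φ w = 1} - 1 := by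
  have h1 : {φ : ↥(W₁ ⊔ W₂) →* ℂˣ | φ ≠ 1 ∧ ∀ w : ↥(W₁ ⊔ W₂), (w : G) ∈ N → φ w = 1} =
      {φ : ↥(W₁ ⊔ W₂) →* ℂˣ | ∀ w : ↥(W₁ ⊔ W₂), (w : G) ∈ N → φ w = 1} \ {1} := by
    ext φ
    simp only [Set.mem_setOf_eq, Set.mem_diff, Set.mem_singleton_iff]
    tauto
  rw [h1, Nat.card_coe_set_eq, Set.ncard_diff_singleton_of_mem (by simp),
    ← Nat.card_coe_set_eq]
  rfl

/-- the orders of `W₁` and `W₂` -/
theorem card_data (hW : Cfsg.IsSelfNormalizingCyclic W₁ W₂)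
    (hodd : Odd (Nat.card ↥(W₁ ⊔ W₂))) :
    Odd (Nat.card W₁) ∧ Odd (Nat.card W₂) ∧ 3 ≤ Nat.card W₁ ∧ 3 ≤ Nat.card W₂ ∧
      ¬ (Nat.card W₁ = 3 ∧ Nat.card W₂ = 3) := by
  obtain ⟨hW₁, hW₂, hdisj, hcomm, hcyc, -⟩ := hW
  have e3 := card_sup W₁ W₂ hdisj hcomm
  have o1 : Odd (Nat.card W₁) := Odd.of_dvd_nat hodd ⟨_, e3⟩
  have o2 : Odd (Nat.card W₂) := Odd.of_dvd_nat hodd ⟨_, by rw [e3, mul_comm]⟩
  have n1 : Nat.card W₁ ≠ 1 := fun h => hW₁ (Subgroup.card_eq_one.mp h)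
  have n2 : Nat.card W₂ ≠ 1 := fun h => hW₂ (Subgroup.card_eq_one.mp h)
  have g1 : 3 ≤ Nat.card W₁ := by
    obtain ⟨k, hk⟩ := o1
    omega
  have g2 : 3 ≤ Nat.card W₂ := by
    obtain ⟨k, hk⟩ := o2
    omega
  refine ⟨o1, o2, g1, g2, ?_⟩
  rintro ⟨c1, c2⟩
  obtain ⟨a, ha⟩ := (Subgroup.ne_bot_iff_exists_ne_one).mp hW₁
  obtain ⟨b, hb⟩ := (Subgroup.ne_bot_iff_exists_ne_one).mp hW₂
  have p3 : Nat.Prime 3 := by norm_num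
  have oa : orderOf a = 3 := by
    have h1 : orderOf a ∣ 3 := c1 ▸ orderOf_dvd_natCard a
    rcases (Nat.dvd_prime p3).mp h1 with h | h
    · exact absurd (orderOf_eq_one_iff.mp h) ha
    · exact h
  have ob : orderOf b = 3 := by
    have h1 : orderOf b ∣ 3 := c2 ▸ orderOf_dvd_natCard b
    rcases (Nat.dvd_prime p3).mp h1 with h | h
    · exact absurd (orderOf_eq_one_iff.mp h) hb
    · exact h
  have oa' : orderOf (⟨(a : G), Subgroup.mem_sup_left a.2⟩ : ↥(W₁ ⊔ W₂)) = 3 := by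
    rw [← oa, ← Subgroup.orderOf_coe, ← Subgroup.orderOf_coe a]
  have ob' : orderOf (⟨(b : G), Subgroup.mem_sup_right b.2⟩ : ↥(W₁ ⊔ W₂)) = 3 := by
    rw [← ob, ← Subgroup.orderOf_coe, ← Subgroup.orderOf_coe b]
  have hmem := S1505.mem_zpowers_of_orderOf_eq
    (⟨(b : G), Subgroup.mem_sup_right b.2⟩ : ↥(W₁ ⊔ W₂))
    (⟨(a : G), Subgroup.mem_sup_left a.2⟩ : ↥(W₁ ⊔ W₂)) (by rw [oa', ob'])
  obtain ⟨k, hk⟩ := Subgroup.mem_zpowers_iff.mp hmem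
  have hk' : (b : G) ^ k = a := by
    have := congrArg Subtype.val hk
    simpa using this
  have haW₂ : (a : G) ∈ W₂ := by
    rw [← hk']
    exact W₂.zpow_mem b.2 k
  have : (a : G) ∈ W₁ ⊓ W₂ := ⟨a.2, haW₂⟩
  rw [hdisj, Subgroup.mem_bot] at this
  exact ha (Subtype.ext this)

theorem four_of_card {α : Type*} [Finite α] (h : 4 ≤ Nat.card α) (a b c : α) :
    ∃ d, d ≠ a ∧ d ≠ b ∧ d ≠ c := by
  classical
  by_contra hcon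
  push Not at hcon
  let _ : Fintype α := Fintype.ofFinite α
  rw [Nat.card_eq_fintype_card] at h
  have hsub : (Finset.univ : Finset α) ⊆ {a, b, c} := by
    intro d _
    simp only [Finset.mem_insert, Finset.mem_singleton]
    by_cases h1 : d = a
    · exact Or.inl h1
    · by_cases h2 : d = b
      · exact Or.inr (Or.inl h2)
      · exact Or.inr (Or.inr (hcon d h1 h2))
  have := Finset.card_le_card hsub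
  have h3 : ({a, b, c} : Finset α).card ≤ 3 := Finset.card_le_three
  rw [Finset.card_univ] at this
  omega

theorem two_of_card {α : Type*} [Finite α] (h : 2 ≤ Nat.card α) : ∃ a b : α, a ≠ b := by
  have : Nontrivial α := (Finite.one_lt_card_iff_nontrivial).mp h
  exact exists_pair_ne α

theorem pair_of_card {α : Type*} (h : Nat.card α = 2) :
    ∃ a b : α, a ≠ b ∧ ∀ c, c = a ∨ c = b := by
  obtain ⟨a, b, hab, huniv⟩ := Nat.card_eq_two_iff.mp h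
  refine ⟨a, b, hab, fun c => ?_⟩
  have : c ∈ ({a, b} : Set α) := by rw [huniv]; exact Set.mem_univ c
  simpa using this

end Grp

section EqOn

variable {G : Type*} [Group G] [Fintype G] (W₁ W₂ : Subgroup G)

theorem exists_nontriv' (hc : ∀ u v : ↥(W₁ ⊔ W₂), u * v = v * u) (N : Subgroup G)
    (w₀ : ↥(W₁ ⊔ W₂)) (hw₀ : (w₀ : G) ∉ N) :
    ∃ ξ : ↥(W₁ ⊔ W₂) →* ℂˣ, (∀ w : ↥(W₁ ⊔ W₂), (w : G) ∈ N → ξ w = 1) ∧ ξ w₀ ≠ 1 := by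
  let _ : CommGroup ↥(W₁ ⊔ W₂) := { (inferInstance : Group ↥(W₁ ⊔ W₂)) with mul_comm := hc }
  have h := (CommGroup.forall_monoidHom_apply_eq_one_iff (G := ↥(W₁ ⊔ W₂)) ℂ
    (N.subgroupOf (W₁ ⊔ W₂)) w₀).not.mpr (by rw [Subgroup.mem_subgroupOf]; exact hw₀)
  push Not at h
  obtain ⟨ξ, h1, h2⟩ := h
  exact ⟨ξ, fun w hw => h1 w (Subgroup.mem_subgroupOf.mpr hw), h2⟩

open Classical in
/-- the values on `W ∖ (W₁ ∪ W₂)` of an orthonormal family satisfying the induction formula -/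
theorem eq_on_of (hW : Cfsg.IsSelfNormalizingCyclic W₁ W₂)
    (χ : (↥(W₁ ⊔ W₂) →* ℂˣ) → (G → ℂ)) (hcf : ∀ ω, IsClassFunction G (χ ω))
    (horth : ∀ ω ω', classInner (χ ω) (χ ω') = if ω = ω' then 1 else 0)
    (h1 : χ 1 = fun _ => 1)
    (hind : ∀ φ ψ : ↥(W₁ ⊔ W₂) →* ℂˣ, φ ≠ 1 → ψ ≠ 1 →
      (∀ w : ↥(W₁ ⊔ W₂), (w : G) ∈ W₂ → φ w = 1) →
      (∀ w : ↥(W₁ ⊔ W₂), (w : G) ∈ W₁ → ψ w = 1) →
      indFun (W₁ ⊔ W₂) (fun w => 1 - (φ w : ℂ) - (ψ w : ℂ) + (φ w : ℂ) * (ψ w : ℂ)) =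
        fun g => 1 - χ φ g - χ ψ g + χ (φ * ψ) g)
    (p q : (↥(W₁ ⊔ W₂) →* ℂˣ) → (↥(W₁ ⊔ W₂) →* ℂˣ))
    (hp : ∀ ω (w : ↥(W₁ ⊔ W₂)), (w : G) ∈ W₂ → p ω w = 1)
    (hq : ∀ ω (w : ↥(W₁ ⊔ W₂)), (w : G) ∈ W₁ → q ω w = 1)
    (hpq : ∀ ω, ω = p ω * q ω)
    (ω₀ : ↥(W₁ ⊔ W₂) →* ℂˣ) (w₀ : ↥(W₁ ⊔ W₂)) (hw₁ : (w₀ : G) ∉ W₁) (hw₂ : (w₀ : G) ∉ W₂) :
    χ ω₀ w₀ = ((ω₀ w₀ : ℂˣ) : ℂ) := by
  classical
  let _ : Fintype ↥(W₁ ⊔ W₂) := Fintype.ofFinite _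
  let _ : Fintype (↥(W₁ ⊔ W₂) →* ℂˣ) := Fintype.ofFinite _
  obtain ⟨-, -, hdisj, hcomm, hcyc, -⟩ := hW
  have hc : ∀ a b : ↥(W₁ ⊔ W₂), a * b = b * a := by
    let _ := IsCyclic.commGroup (α := ↥(W₁ ⊔ W₂))
    intro a b
    exact mul_comm a b
  have hWne : (Nat.card ↥(W₁ ⊔ W₂) : ℂ) ≠ 0 := by
    exact_mod_cast (Nat.card_pos (α := ↥(W₁ ⊔ W₂))).ne'
  have F := S1511.fourier W₁ W₂ hc w₀
  obtain ⟨D, hD⟩ : ∃ D : ↥(W₁ ⊔ W₂) → ℂ, D = fun w => if w = w₀ then 1 else 0 := ⟨_, rfl⟩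
  -- (E1)
  have hD1 : classInner (χ ω₀) (indFun (W₁ ⊔ W₂) D) =
      (Nat.card ↥(W₁ ⊔ W₂) : ℂ)⁻¹ * χ ω₀ w₀ := by
    rw [frobenius_reciprocity' (W₁ ⊔ W₂) D (χ ω₀) (hcf ω₀)]
    unfold classInner
    congr 1
    rw [Finset.sum_eq_single w₀]
    · rw [res_apply, hD]
      simp
    · intro b _ hb
      rw [hD]
      simp [hb]
    · intro h
      exact absurd (Finset.mem_univ _) h
  -- the three vanishing Fourier sums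
  have F1 : ∑ ω : ↥(W₁ ⊔ W₂) →* ℂˣ, conj ((ω w₀ : ℂˣ) : ℂ) = 0 := by
    have := F 1
    rw [if_neg (fun h => hw₁ (by rw [← h]; exact W₁.one_mem))] at this
    rw [← this]
    refine Finset.sum_congr rfl fun ω _ => ?_
    rw [map_one, Units.val_one, mul_one]
  have FA : ∀ a : ↥(W₁ ⊔ W₂), (a : G) ∈ W₁ →
      ∑ ω : ↥(W₁ ⊔ W₂) →* ℂˣ, conj ((ω w₀ : ℂˣ) : ℂ) * ((ω a : ℂˣ) : ℂ) = 0 := by
    intro a ha
    rw [F a, if_neg (fun h => hw₁ (by rw [← h]; exact ha))]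
  have FB : ∀ b : ↥(W₁ ⊔ W₂), (b : G) ∈ W₂ →
      ∑ ω : ↥(W₁ ⊔ W₂) →* ℂˣ, conj ((ω w₀ : ℂˣ) : ℂ) * ((ω b : ℂˣ) : ℂ) = 0 := by
    intro b hb
    rw [F b, if_neg (fun h => hw₂ (by rw [← h]; exact hb))]
  -- (E2)
  have hE2 : (Nat.card ↥(W₁ ⊔ W₂) : ℂ) • D = ∑ ω : ↥(W₁ ⊔ W₂) →* ℂˣ,
      conj ((ω w₀ : ℂˣ) : ℂ) • (fun w : ↥(W₁ ⊔ W₂) =>
        1 - ((p ω w : ℂˣ) : ℂ) - ((q ω w : ℂˣ) : ℂ) + ((p ω w : ℂˣ) : ℂ) * ((q ω w : ℂˣ) : ℂ)) := by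
    funext w
    simp only [Pi.smul_apply, Finset.sum_apply, smul_eq_mul]
    obtain ⟨a, ha, b, hb, hab⟩ := S1511.exists_prod W₁ W₂ hcomm (w : G) w.2
    have hw : w = (⟨a, Subgroup.mem_sup_left ha⟩ : ↥(W₁ ⊔ W₂)) * ⟨b, Subgroup.mem_sup_right hb⟩ :=
      Subtype.ext hab
    have k1 : ∀ ω : ↥(W₁ ⊔ W₂) →* ℂˣ, p ω w = ω ⟨a, Subgroup.mem_sup_left ha⟩ := by
      intro ω
      rw [hw, map_mul, hp ω ⟨b, Subgroup.mem_sup_right hb⟩ hb, mul_one]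
      conv_rhs => rw [hpq ω]
      rw [MonoidHom.mul_apply, hq ω ⟨a, Subgroup.mem_sup_left ha⟩ ha, mul_one]
    have k2 : ∀ ω : ↥(W₁ ⊔ W₂) →* ℂˣ, q ω w = ω ⟨b, Subgroup.mem_sup_right hb⟩ := by
      intro ω
      rw [hw, map_mul, hq ω ⟨a, Subgroup.mem_sup_left ha⟩ ha, one_mul]
      conv_rhs => rw [hpq ω]
      rw [MonoidHom.mul_apply, hp ω ⟨b, Subgroup.mem_sup_right hb⟩ hb, one_mul]
    have k3 : ∀ ω : ↥(W₁ ⊔ W₂) →* ℂˣ, ((p ω w : ℂˣ) : ℂ) * ((q ω w : ℂˣ) : ℂ) = ((ω w : ℂˣ) : ℂ) := by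
      intro ω
      conv_rhs => rw [hpq ω]
      rw [MonoidHom.mul_apply, Units.val_mul]
    have hsplit : ∀ ω : ↥(W₁ ⊔ W₂) →* ℂˣ, conj ((ω w₀ : ℂˣ) : ℂ) *
        (1 - ((p ω w : ℂˣ) : ℂ) - ((q ω w : ℂˣ) : ℂ) + ((p ω w : ℂˣ) : ℂ) * ((q ω w : ℂˣ) : ℂ)) =
        conj ((ω w₀ : ℂˣ) : ℂ)
          - conj ((ω w₀ : ℂˣ) : ℂ) * ((ω ⟨a, Subgroup.mem_sup_left ha⟩ : ℂˣ) : ℂ)
          - conj ((ω w₀ : ℂˣ) : ℂ) * ((ω ⟨b, Subgroup.mem_sup_right hb⟩ : ℂˣ) : ℂ)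
          + conj ((ω w₀ : ℂˣ) : ℂ) * ((ω w : ℂˣ) : ℂ) := by
      intro ω
      rw [k3, k1, k2]
      ring
    rw [Finset.sum_congr rfl fun ω _ => hsplit ω, Finset.sum_add_distrib, Finset.sum_sub_distrib,
      Finset.sum_sub_distrib, F1, FA _ ha, FB _ hb, F w, hD]
    dsimp only
    by_cases h : w = w₀
    · rw [if_pos h, if_pos h]; ring
    · rw [if_neg h, if_neg h]; ring
  -- (E3)
  have hE3 : (Nat.card ↥(W₁ ⊔ W₂) : ℂ) • indFun (W₁ ⊔ W₂) D = ∑ ω : ↥(W₁ ⊔ W₂) →* ℂˣ,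
      conj ((ω w₀ : ℂˣ) : ℂ) • indFun (W₁ ⊔ W₂) (fun w : ↥(W₁ ⊔ W₂) =>
        1 - ((p ω w : ℂˣ) : ℂ) - ((q ω w : ℂˣ) : ℂ) + ((p ω w : ℂˣ) : ℂ) * ((q ω w : ℂˣ) : ℂ)) := by
    rw [← indFun_smul, hE2, indFun_sum]
    exact Finset.sum_congr rfl fun ω _ => indFun_smul _ _ _
  -- (E4)
  have hE4 : ∀ ω : ↥(W₁ ⊔ W₂) →* ℂˣ, indFun (W₁ ⊔ W₂) (fun w : ↥(W₁ ⊔ W₂) =>
        1 - ((p ω w : ℂˣ) : ℂ) - ((q ω w : ℂˣ) : ℂ) + ((p ω w : ℂˣ) : ℂ) * ((q ω w : ℂˣ) : ℂ)) =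
      (fun _ => (1 : ℂ)) - χ (p ω) - χ (q ω) + χ ω := by
    intro ω
    by_cases hp1 : p ω = 1
    · have hω : ω = q ω := by
        have h := hpq ω
        rw [hp1] at h
        exact h.trans (one_mul (q ω))
      have hz : (fun w : ↥(W₁ ⊔ W₂) => 1 - ((p ω w : ℂˣ) : ℂ) - ((q ω w : ℂˣ) : ℂ) +
          ((p ω w : ℂˣ) : ℂ) * ((q ω w : ℂˣ) : ℂ)) = 0 := by
        funext w
        rw [hp1]
        simp
      rw [hz, indFun_zero, hp1, h1, ← hω]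
      funext g
      simp
    · by_cases hq1 : q ω = 1
      · have hω : ω = p ω := by
          have h := hpq ω
          rw [hq1] at h
          exact h.trans (mul_one (p ω))
        have hz : (fun w : ↥(W₁ ⊔ W₂) => 1 - ((p ω w : ℂˣ) : ℂ) - ((q ω w : ℂˣ) : ℂ) +
            ((p ω w : ℂˣ) : ℂ) * ((q ω w : ℂˣ) : ℂ)) = 0 := by
          funext w
          rw [hq1]
          simp
        rw [hz, indFun_zero, hq1, h1, ← hω]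
        funext g
        simp
      · rw [hind (p ω) (q ω) hp1 hq1 (hp ω) (hq ω), ← hpq ω]
        funext g
        simp
  -- shift lemmas
  have shiftp : ∑ ω : ↥(W₁ ⊔ W₂) →* ℂˣ, conj ((ω w₀ : ℂˣ) : ℂ) • χ (p ω) = 0 := by
    obtain ⟨ψ₁, hψ₁, hψ₁w⟩ := exists_nontriv' W₁ W₂ hc W₁ w₀ hw₁
    have hps : ∀ ω, p (ω * ψ₁) = p ω := by
      intro ω
      have h : p (ω * ψ₁) * q (ω * ψ₁) = p ω * (q ω * ψ₁) := by
        rw [← hpq (ω * ψ₁)]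
        refine MonoidHom.ext fun w => ?_
        have hw := congrArg (fun f : ↥(W₁ ⊔ W₂) →* ℂˣ => f w) (hpq ω)
        simp only [MonoidHom.mul_apply] at hw ⊢
        rw [hw, mul_assoc]
      exact (S1505.uniq W₁ W₂ _ _ _ _ (hp _) (hp _) (hq _) (fun w hw => by
        rw [MonoidHom.mul_apply, hq ω w hw, hψ₁ w hw, one_mul]) h).1
    have hS : ∑ ω : ↥(W₁ ⊔ W₂) →* ℂˣ, conj ((ω w₀ : ℂˣ) : ℂ) • χ (p ω) =
        conj ((ψ₁ w₀ : ℂˣ) : ℂ) • ∑ ω : ↥(W₁ ⊔ W₂) →* ℂˣ, conj ((ω w₀ : ℂˣ) : ℂ) • χ (p ω) := by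
      conv_lhs => rw [← Equiv.sum_comp (Equiv.mulRight ψ₁)
        (fun ω : ↥(W₁ ⊔ W₂) →* ℂˣ => conj ((ω w₀ : ℂˣ) : ℂ) • χ (p ω))]
      rw [Finset.smul_sum]
      refine Finset.sum_congr rfl fun ω _ => ?_
      have e : conj (((ω * ψ₁) w₀ : ℂˣ) : ℂ) =
          conj ((ψ₁ w₀ : ℂˣ) : ℂ) * conj ((ω w₀ : ℂˣ) : ℂ) := by
        rw [MonoidHom.mul_apply, Units.val_mul, map_mul, mul_comm]
      rw [Equiv.coe_mulRight, hps, e, mul_smul]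
    have hne : (1 : ℂ) - conj ((ψ₁ w₀ : ℂˣ) : ℂ) ≠ 0 := by
      intro h
      apply hψ₁w
      have h2 : conj ((ψ₁ w₀ : ℂˣ) : ℂ) = 1 := (sub_eq_zero.mp h).symm
      have h3 : ((ψ₁ w₀ : ℂˣ) : ℂ) = 1 := by
        have := congrArg conj h2
        rwa [Complex.conj_conj, map_one] at this
      exact Units.ext h3
    have h0 : ((1 : ℂ) - conj ((ψ₁ w₀ : ℂˣ) : ℂ)) •
        ∑ ω : ↥(W₁ ⊔ W₂) →* ℂˣ, conj ((ω w₀ : ℂˣ) : ℂ) • χ (p ω) = 0 := by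
      rw [sub_smul, one_smul, ← hS, sub_self]
    exact (smul_eq_zero.mp h0).resolve_left hne
  have shiftq : ∑ ω : ↥(W₁ ⊔ W₂) →* ℂˣ, conj ((ω w₀ : ℂˣ) : ℂ) • χ (q ω) = 0 := by
    obtain ⟨φ₁, hφ₁, hφ₁w⟩ := exists_nontriv' W₁ W₂ hc W₂ w₀ hw₂
    have hqs : ∀ ω, q (ω * φ₁) = q ω := by
      intro ω
      have h : p (ω * φ₁) * q (ω * φ₁) = (p ω * φ₁) * q ω := by
        rw [← hpq (ω * φ₁)]
        refine MonoidHom.ext fun w => ?_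
        have hw := congrArg (fun f : ↥(W₁ ⊔ W₂) →* ℂˣ => f w) (hpq ω)
        simp only [MonoidHom.mul_apply] at hw ⊢
        rw [hw, mul_assoc, mul_comm ((q ω) w), ← mul_assoc]
      exact (S1505.uniq W₁ W₂ _ _ _ _ (hp _) (fun w hw => by
        rw [MonoidHom.mul_apply, hp ω w hw, hφ₁ w hw, one_mul]) (hq _) (hq _) h).2
    have hS : ∑ ω : ↥(W₁ ⊔ W₂) →* ℂˣ, conj ((ω w₀ : ℂˣ) : ℂ) • χ (q ω) =
        conj ((φ₁ w₀ : ℂˣ) : ℂ) • ∑ ω : ↥(W₁ ⊔ W₂) →* ℂˣ, conj ((ω w₀ : ℂˣ) : ℂ) • χ (q ω) := by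
      conv_lhs => rw [← Equiv.sum_comp (Equiv.mulRight φ₁)
        (fun ω : ↥(W₁ ⊔ W₂) →* ℂˣ => conj ((ω w₀ : ℂˣ) : ℂ) • χ (q ω))]
      rw [Finset.smul_sum]
      refine Finset.sum_congr rfl fun ω _ => ?_
      have e : conj (((ω * φ₁) w₀ : ℂˣ) : ℂ) =
          conj ((φ₁ w₀ : ℂˣ) : ℂ) * conj ((ω w₀ : ℂˣ) : ℂ) := by
        rw [MonoidHom.mul_apply, Units.val_mul, map_mul, mul_comm]
      rw [Equiv.coe_mulRight, hqs, e, mul_smul]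
    have hne : (1 : ℂ) - conj ((φ₁ w₀ : ℂˣ) : ℂ) ≠ 0 := by
      intro h
      apply hφ₁w
      have h2 : conj ((φ₁ w₀ : ℂˣ) : ℂ) = 1 := (sub_eq_zero.mp h).symm
      have h3 : ((φ₁ w₀ : ℂˣ) : ℂ) = 1 := by
        have := congrArg conj h2
        rwa [Complex.conj_conj, map_one] at this
      exact Units.ext h3
    have h0 : ((1 : ℂ) - conj ((φ₁ w₀ : ℂˣ) : ℂ)) •
        ∑ ω : ↥(W₁ ⊔ W₂) →* ℂˣ, conj ((ω w₀ : ℂˣ) : ℂ) • χ (q ω) = 0 := by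
      rw [sub_smul, one_smul, ← hS, sub_self]
    exact (smul_eq_zero.mp h0).resolve_left hne
  -- (E6)
  have hE6 : (Nat.card ↥(W₁ ⊔ W₂) : ℂ) • indFun (W₁ ⊔ W₂) D =
      ∑ ω : ↥(W₁ ⊔ W₂) →* ℂˣ, conj ((ω w₀ : ℂˣ) : ℂ) • χ ω := by
    rw [hE3, Finset.sum_congr rfl fun ω _ => by rw [hE4 ω]]
    simp only [smul_add, smul_sub, Finset.sum_add_distrib, Finset.sum_sub_distrib]
    rw [shiftp, shiftq, ← Finset.sum_smul, F1, zero_smul]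
    simp
  -- (E7)
  have hL : classInner (χ ω₀) ((Nat.card ↥(W₁ ⊔ W₂) : ℂ) • indFun (W₁ ⊔ W₂) D) = χ ω₀ w₀ := by
    rw [classInner_smul_right, hD1, Complex.conj_natCast, ← mul_assoc, mul_inv_cancel₀ hWne,
      one_mul]
  rw [← hL, hE6, classInner_sum_right]
  rw [Finset.sum_eq_single ω₀]
  · rw [classInner_smul_right, horth, if_pos rfl, Complex.conj_conj, mul_one]
  · intro ω _ hω
    rw [classInner_smul_right, horth, if_neg (Ne.symm hω), mul_zero]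
  · intro h
    exact absurd (Finset.mem_univ _) h

end EqOn

end Cfsg.Agent.Lib.Helper35.TIFam
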