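import Mathlib
import Cfsg.Prelude.Def_GeometricClasses
import Cfsg.Agent.Lib.Helper97.Transv
import Cfsg.Agent.Lib.Helper97.TransvM
import Cfsg.Agent.Lib.Helper71.TP0
import Cfsg.Agent.Lib.Helper71.TP1

/-!
# S5637 (helper71's project), piece RA (helper35): `kron_left_scalar`

If `A ⊗ B - 1` has range inside a subspace of dimension `≤ a` and `B` is not scalar (`b ≥ 3`),
then `A` is scalar.
-/

set_option autoImplicit false

namespace Cfsg.Agent.Lib.Helper35.TPRA

open Matrix Cfsg.Agent.Lib.Helper71.TP Cfsg.Agent.Lib.Helper97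
open scoped Kronecker

variable {a b : ℕ} {F : Type*} [Field F]

/-- a matrix all of whose vectors are eigenvectors is scalar -/
theorem scalar_of_all_eigen {n : ℕ} (α : Matrix (Fin n) (Fin n) F)
    (h : ∀ u : Fin n → F, ∃ c : F, α *ᵥ u = c • u) :
    ∃ c : F, α = c • (1 : Matrix (Fin n) (Fin n) F) := by
  classical
  choose c hc using fun j : Fin n => h (Pi.single j 1)
  -- all the c j agree
  have hcc : ∀ i j : Fin n, c i = c j := by
    intro i j
    by_cases hij : i = j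
    · rw [hij]
    obtain ⟨d, hd⟩ := h (Pi.single i 1 + Pi.single j 1)
    rw [Matrix.mulVec_add, hc i, hc j] at hd
    have hi := congrFun hd i
    have hj := congrFun hd j
    simp only [Pi.add_apply, Pi.smul_apply, Pi.single_eq_same, smul_eq_mul, mul_one,
      Pi.single_eq_of_ne hij, Pi.single_eq_of_ne (Ne.symm hij), mul_zero, add_zero, zero_add]
      at hi hj
    rw [hi, hj]
  by_cases hn : Nonempty (Fin n)
  · obtain ⟨j0⟩ := hn
    refine ⟨c j0, ?_⟩
    ext i j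
    have := congrFun (hc j) i
    rw [Matrix.mulVec_single_one] at this
    rw [show α i j = α.col j i from rfl, this, hcc j j0]
    simp only [Pi.smul_apply, smul_eq_mul, Matrix.smul_apply, Matrix.one_apply, Pi.single_apply]
  · refine ⟨0, ?_⟩
    ext i j
    exact absurd ⟨i⟩ hn

/-- for a non-eigenvector `w` of `B` there is `ψ` with `ψ w = 1`, `ψ (B w) = 0` -/
theorem exists_psi (B : Matrix (Fin b) (Fin b) F) (w : Fin b → F)
    (hw : ∀ c : F, B *ᵥ w ≠ c • w) : ∃ ψ : Fin b → F, ψ ⬝ᵥ w = 1 ∧ ψ ⬝ᵥ (B *ᵥ w) = 0 := by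
  have hnot : w ∉ Submodule.span F ({B *ᵥ w} : Set (Fin b → F)) := by
    intro hmem
    obtain ⟨c, hc⟩ := Submodule.mem_span_singleton.1 hmem
    by_cases hc0 : c = 0
    · rw [hc0, zero_smul] at hc
      apply hw 0
      rw [← hc, Matrix.mulVec_zero, smul_zero]
    · apply hw c⁻¹
      conv_rhs => rw [← hc]
      rw [smul_smul, inv_mul_cancel₀ hc0, one_smul]
  obtain ⟨ψ, h0, h1⟩ := exists_dot _ w hnot
  exact ⟨ψ, h1, h0 _ (Submodule.mem_span_singleton_self _)⟩

/-- the map `u ↦ (A u) ⊗ (B w) - u ⊗ w` -/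
noncomputable def LL (A : Matrix (Fin a) (Fin a) F) (B : Matrix (Fin b) (Fin b) F)
    (w : Fin b → F) : (Fin a → F) →ₗ[F] (Fin a × Fin b → F) :=
  (ptL (a := a) (B *ᵥ w)).comp (Matrix.toLin' A) - ptL (a := a) w

theorem LL_apply (A : Matrix (Fin a) (Fin a) F) (B : Matrix (Fin b) (Fin b) F)
    (w : Fin b → F) (u : Fin a → F) :
    LL A B w u = pt (A *ᵥ u) (B *ᵥ w) - pt u w := by
  simp [LL]

theorem ctr_LL (A : Matrix (Fin a) (Fin a) F) (B : Matrix (Fin b) (Fin b) F)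
    (w : Fin b → F) (u : Fin a → F) (ψ : Fin b → F) :
    ctr ψ (LL A B w u) = (ψ ⬝ᵥ (B *ᵥ w)) • (A *ᵥ u) - (ψ ⬝ᵥ w) • u := by
  rw [LL_apply, ctr_sub, ctr_pt, ctr_pt]

theorem range_LL (A : Matrix (Fin a) (Fin a) F) (B : Matrix (Fin b) (Fin b) F)
    (S : Submodule F (Fin a × Fin b → F)) (hS : Module.finrank F ↥S ≤ a)
    (hrange : ∀ v : Fin a × Fin b → F, (A ⊗ₖ B) *ᵥ v - v ∈ S)
    (w : Fin b → F) (hw : ∀ c : F, B *ᵥ w ≠ c • w) :
    LinearMap.range (LL A B w) = S := by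
  obtain ⟨ψ, h1, h0⟩ := exists_psi B w hw
  have hinj : Function.Injective (LL A B w) := by
    rw [injective_iff_map_eq_zero]
    intro u hu
    have := ctr_LL A B w u ψ
    rw [hu, h0, h1, zero_smul, one_smul, zero_sub] at this
    have h3 : ctr ψ (0 : Fin a × Fin b → F) = 0 := by
      ext i; simp [ctr]
    rw [h3] at this
    exact neg_eq_zero.1 this.symm
  have hle : LinearMap.range (LL A B w) ≤ S := by
    rintro _ ⟨u, rfl⟩
    rw [LL_apply, ← kron_mulVec_pt]
    exact hrange _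
  have hfr : Module.finrank F ↥(LinearMap.range (LL A B w)) = a := by
    rw [LinearMap.finrank_range_of_inj hinj, Module.finrank_fin_fun]
  exact Submodule.eq_of_le_of_finrank_le hle (by rw [hfr]; exact hS)

/-- key: two non-eigenvectors `w`, `w'` of `B` (when `A` has a non-eigenvector):
`w ∈ span {w', B w'}` -/
theorem mem_span_pair (A : Matrix (Fin a) (Fin a) F) (B : Matrix (Fin b) (Fin b) F)
    (S : Submodule F (Fin a × Fin b → F)) (hS : Module.finrank F ↥S ≤ a)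
    (hrange : ∀ v : Fin a × Fin b → F, (A ⊗ₖ B) *ᵥ v - v ∈ S)
    (u₀ : Fin a → F) (hu₀ : ∀ c : F, A *ᵥ u₀ ≠ c • u₀)
    (w w' : Fin b → F) (hw : ∀ c : F, B *ᵥ w ≠ c • w) (hw' : ∀ c : F, B *ᵥ w' ≠ c • w') :
    w ∈ Submodule.span F ({w', B *ᵥ w'} : Set (Fin b → F)) := by
  by_contra hnot
  obtain ⟨ψ, h0, h1⟩ := exists_dot _ w hnot
  have hψ1 : ψ ⬝ᵥ w' = 0 := h0 _ (Submodule.subset_span (by simp))
  have hψ2 : ψ ⬝ᵥ (B *ᵥ w') = 0 := h0 _ (Submodule.subset_span (by simp))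
  have ht : LL A B w u₀ ∈ LinearMap.range (LL A B w') := by
    rw [range_LL A B S hS hrange w' hw', ← range_LL A B S hS hrange w hw]
    exact LinearMap.mem_range_self _ _
  obtain ⟨u', hu'⟩ := ht
  have e1 := ctr_LL A B w' u' ψ
  rw [hu', hψ1, hψ2, zero_smul, zero_smul, sub_zero, ctr_LL, h1, one_smul] at e1
  -- (ψ ⬝ᵥ B w) • A u₀ - u₀ = 0
  by_cases hz : ψ ⬝ᵥ (B *ᵥ w) = 0
  · rw [hz, zero_smul, zero_sub, neg_eq_zero] at e1
    apply hu₀ 0
    rw [e1, Matrix.mulVec_zero, smul_zero]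
  · apply hu₀ (ψ ⬝ᵥ (B *ᵥ w))⁻¹
    have e2 : (ψ ⬝ᵥ (B *ᵥ w)) • (A *ᵥ u₀) = u₀ := sub_eq_zero.1 e1
    rw [← e2, smul_smul, inv_mul_cancel₀ hz, one_smul, e2]

/-- RA -/
theorem kron_left_scalar (hb : 3 ≤ b) (A : Matrix (Fin a) (Fin a) F) (B : Matrix (Fin b) (Fin b) F)
    (S : Submodule F (Fin a × Fin b → F)) (hS : Module.finrank F ↥S ≤ a)
    (hrange : ∀ v : Fin a × Fin b → F, (A ⊗ₖ B) *ᵥ v - v ∈ S)
    (hB : ¬ ∃ c : F, B = c • (1 : Matrix (Fin b) (Fin b) F)) :
    ∃ c : F, A = c • (1 : Matrix (Fin a) (Fin a) F) := by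
  classical
  apply scalar_of_all_eigen
  by_contra hA
  push Not at hA
  obtain ⟨u₀, hu₀⟩ := hA
  -- a non-eigenvector of B
  have hBne : ∃ w : Fin b → F, ∀ c : F, B *ᵥ w ≠ c • w := by
    by_contra hno
    push Not at hno
    exact hB (scalar_of_all_eigen B hno)
  obtain ⟨w, hw⟩ := hBne
  set P : Submodule F (Fin b → F) := Submodule.span F ({w, B *ᵥ w} : Set (Fin b → F)) with hP
  have hwP : w ∈ P := Submodule.subset_span (by simp)
  have hBwP : B *ᵥ w ∈ P := Submodule.subset_span (by simp)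
  -- P is proper
  have hPtop : P ≠ ⊤ := by
    intro htop
    have h1 : Module.finrank F ↥P ≤ 2 := by
      have h2 := finrank_span_finset_le_card (R := F) ({w, B *ᵥ w} : Finset (Fin b → F))
      have h3 : (({w, B *ᵥ w} : Finset (Fin b → F)) : Set (Fin b → F)) = {w, B *ᵥ w} := by
        simp
      rw [h3] at h2
      exact h2.trans Finset.card_le_two
    rw [htop, finrank_top, Module.finrank_fin_fun] at h1
    omega
  obtain ⟨w'', hw''⟩ : ∃ x : Fin b → F, x ∉ P := by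
    by_contra hall
    push Not at hall
    exact hPtop (eq_top_iff.2 fun x _ => hall x)
  -- w'' is an eigenvector
  have hev : ∀ x : Fin b → F, x ∉ P → ∃ c : F, B *ᵥ x = c • x := by
    intro x hx
    by_contra hno
    push Not at hno
    exact hx (mem_span_pair A B S hS hrange u₀ hu₀ x w hno hw)
  obtain ⟨l, hl⟩ := hev w'' hw''
  have hsum : w + w'' ∉ P := by
    intro hmem
    apply hw''
    have := P.sub_mem hmem hwP
    rwa [add_sub_cancel_left] at this
  obtain ⟨m, hm⟩ := hev (w + w'') hsum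
  rw [Matrix.mulVec_add, hl, smul_add] at hm
  -- B w = m • w + (m - l) • w''
  have hBw : B *ᵥ w = m • w + (m - l) • w'' := by
    rw [sub_smul]
    rw [eq_sub_of_add_eq hm]
    abel
  by_cases hml : m = l
  · rw [hml, sub_self, zero_smul, add_zero] at hBw
    exact hw l hBw
  · apply hw''
    have hne : m - l ≠ 0 := sub_ne_zero.2 hml
    have e : w'' = (m - l)⁻¹ • (B *ᵥ w - m • w) := by
      rw [hBw, add_sub_cancel_left, smul_smul, inv_mul_cancel₀ hne, one_smul]
    rw [e]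
    exact P.smul_mem _ (P.sub_mem hBwP (P.smul_mem _ hwP))

end Cfsg.Agent.Lib.Helper35.TPRA
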