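import Cfsg.Agent.Lib.Helper47.UniDefs

/-!
# S2676 (helper47's project), piece NORMALIZE (helper35)

Normalising a family with nondegenerate top Gram matrix `B (x a) (N ^ j (x b))` so that the lower
pairings `B (y a) (N ^ k (y b))`, `k < j`, vanish.
-/

set_option autoImplicit false

namespace Cfsg.Agent.Lib.Helper35.Uni

open Cfsg.Agent.Lib.Helper47 Module

universe u

variable {F : Type u} [Field F]

namespace NormAux

variable {V : Type*} [AddCommGroup V] [Module F V] {B : V → V → F} {N : V →ₗ[F] V}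

theorem sum_left (hB : IsSForm (RingHom.id F) (-1) B) {ι : Type*} (s : Finset ι) (f : ι → F)
    (u : ι → V) (v : V) : B (∑ e ∈ s, f e • u e) v = ∑ e ∈ s, f e * B (u e) v := by
  classical
  induction s using Finset.induction_on with
  | empty => simp [hB.zero_left]
  | insert a s ha ih =>
    rw [Finset.sum_insert ha, Finset.sum_insert ha, hB.add_left, hB.smul_left, ih]

theorem sum_right (hB : IsSForm (RingHom.id F) (-1) B) {ι : Type*} (s : Finset ι) (f : ι → F)
    (u : V) (v : ι → V) : B u (∑ e ∈ s, f e • v e) = ∑ e ∈ s, f e * B u (v e) := by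
  classical
  induction s using Finset.induction_on with
  | empty => simp [hB.zero_right]
  | insert a s ha ih =>
    rw [Finset.sum_insert ha, Finset.sum_insert ha, hB.add_right, hB.smul_right, ih,
      RingHom.id_apply]

theorem skew_pow (hN : IsSkewAdj B N) (m : ℕ) (u v : V) :
    B ((N ^ m) u) v = (-1) ^ m * B u ((N ^ m) v) := by
  induction m generalizing u v with
  | zero => simp
  | succ m ih =>
    have e1 : (N ^ (m + 1)) u = (N ^ m) (N u) := by rw [pow_succ, Module.End.mul_apply]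
    have e2 : (N ^ (m + 1)) v = N ((N ^ m) v) := by rw [pow_succ', Module.End.mul_apply]
    rw [e1, e2, ih, hN, pow_succ]
    ring

theorem pow_pow (a b : ℕ) (v : V) : (N ^ a) ((N ^ b) v) = (N ^ (a + b)) v := by
  rw [pow_add, Module.End.mul_apply]

theorem pow_zero_of_le {j : ℕ} (hj : N ^ (j + 1) = 0) {m : ℕ} (hm : j + 1 ≤ m) : N ^ m = 0 := by
  obtain ⟨q, rfl⟩ := Nat.exists_eq_add_of_le hm
  rw [pow_add, hj, zero_mul]

/-- solving `S Φ = C` for a nondegenerate Gram matrix `S` -/
theorem exists_solve {r : ℕ} (S : Fin r → Fin r → F) (hS : Nondeg (gForm S))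
    (C : Fin r → Fin r → F) :
    ∃ Φ : Fin r → Fin r → F, ∀ a b, ∑ e, S a e * Φ e b = C a b := by
  classical
  set M : Matrix (Fin r) (Fin r) F := Matrix.of S with hM
  have hker : ∀ v : Fin r → F, Matrix.vecMul v M = 0 → v = 0 := by
    intro v hv
    apply hS v
    intro w
    unfold gForm
    rw [Finset.sum_comm]
    refine Finset.sum_eq_zero fun b _ => ?_
    have hb : ∑ a, v a * S a b = 0 := by
      have := congrFun hv b
      simpa [Matrix.vecMul, dotProduct, hM] using this
    rw [← Finset.sum_mul, hb, zero_mul]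
  have hinj : Function.Injective (fun v => Matrix.vecMul v M) := by
    intro v w hvw
    have h0 : Matrix.vecMul (v - w) M = 0 := by
      rw [Matrix.sub_vecMul]
      exact sub_eq_zero.2 hvw
    exact sub_eq_zero.1 (hker _ h0)
  have hunit : IsUnit M := Matrix.vecMul_injective_iff_isUnit.1 hinj
  have hdet : IsUnit M.det := (Matrix.isUnit_iff_isUnit_det M).1 hunit
  refine ⟨fun e b => (M⁻¹ * Matrix.of C) e b, fun a b => ?_⟩
  have h1 : (M * (M⁻¹ * Matrix.of C)) a b = C a b := by
    rw [← Matrix.mul_assoc, Matrix.mul_nonsing_inv M hdet, Matrix.one_mul]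
    rfl
  rw [Matrix.mul_apply] at h1
  exact h1

/-- the inductive step -/
theorem step (hB : IsSForm (RingHom.id F) (-1) B) (h2 : (2 : F) ≠ 0)
    (hN : IsSkewAdj B N) (j : ℕ) (hj : N ^ (j + 1) = 0) {r : ℕ} (S : Fin r → Fin r → F)
    (hS : Nondeg (gForm S)) (t : ℕ) (ht : t < j) (y : Fin r → V)
    (hy1 : ∀ a b, B (y a) ((N ^ j) (y b)) = S a b)
    (hy2 : ∀ k, j - t ≤ k → k < j → ∀ a b, B (y a) ((N ^ k) (y b)) = 0) :
    ∃ y' : Fin r → V, (∀ a b, B (y' a) ((N ^ j) (y' b)) = S a b) ∧
      ∀ k, j - (t + 1) ≤ k → k < j → ∀ a b, B (y' a) ((N ^ k) (y' b)) = 0 := by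
  classical
  set k0 := j - (t + 1) with hk0
  set D := t + 1 with hD
  have hkD : k0 + D = j := by omega
  set i2 : F := (2 : F)⁻¹ with hi2
  have hi : (2 : F) * i2 = 1 := mul_inv_cancel₀ h2
  set c : Fin r → Fin r → F := fun a b => B (y a) ((N ^ k0) (y b)) with hc
  obtain ⟨Φ, hΦ⟩ := exists_solve S hS (fun a b => -(c a b * i2))
  set z : Fin r → V := fun b => ∑ e, Φ e b • y e with hz
  refine ⟨fun b => y b + (N ^ D) (z b), ?_⟩
  -- the general expansion
  have hexp : ∀ (k : ℕ) (a b : Fin r),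
      B (y a + (N ^ D) (z a)) ((N ^ k) (y b + (N ^ D) (z b)))
        = B (y a) ((N ^ k) (y b)) + B (y a) ((N ^ (k + D)) (z b))
          + (-1) ^ D * B (z a) ((N ^ (k + D)) (y b))
          + (-1) ^ D * B (z a) ((N ^ (k + 2 * D)) (z b)) := by
    intro k a b
    have e1 : (N ^ k) (y b + (N ^ D) (z b)) = (N ^ k) (y b) + (N ^ (k + D)) (z b) := by
      rw [map_add, pow_pow]
    rw [e1, hB.add_left, hB.add_right, hB.add_right, skew_pow hN D (z a), skew_pow hN D (z a),
      pow_pow, pow_pow]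
    have e2 : D + k = k + D := by omega
    have e3 : D + (k + D) = k + 2 * D := by omega
    rw [e2, e3]
    ring
  -- symmetry facts
  have hSsym : ∀ a b, S a b = (-1) ^ (j + 1) * S b a := by
    intro a b
    rw [← hy1 a b, ← hy1 b a]
    have := hB.symm ((N ^ j) (y b)) (y a)
    rw [RingHom.id_apply, skew_pow hN j (y b) (y a)] at this
    rw [this, pow_succ]
    ring
  have hcsym : ∀ a b, c b a = (-1) ^ (k0 + 1) * c a b := by
    intro a b
    simp only [hc]
    have := hB.symm ((N ^ k0) (y a)) (y b)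
    rw [RingHom.id_apply, skew_pow hN k0 (y a) (y b)] at this
    rw [this, pow_succ]
    ring
  -- the two mixed terms at level j
  have hT2 : ∀ a b, B (y a) ((N ^ j) (z b)) = -(c a b * i2) := by
    intro a b
    simp only [hz]
    rw [map_sum]
    simp only [map_smul]
    rw [sum_right hB, ← hΦ a b]
    refine Finset.sum_congr rfl fun e _ => ?_
    rw [hy1, mul_comm]
  have hT3 : ∀ a b, B (z a) ((N ^ j) (y b)) = (-1) ^ (j + 1) * -(c b a * i2) := by
    intro a b
    simp only [hz]
    rw [sum_left hB, ← hΦ b a, Finset.mul_sum]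
    refine Finset.sum_congr rfl fun e _ => ?_
    rw [hy1, hSsym e b]
    ring
  have hsign : (-1 : F) ^ D * ((-1) ^ (j + 1) * (-1) ^ (k0 + 1)) = 1 := by
    rw [← pow_add, ← pow_add]
    have : D + (j + 1 + (k0 + 1)) = 2 * (j + 1) := by omega
    rw [this, pow_mul]
    simp
  constructor
  · intro a b
    show B (y a + (N ^ D) (z a)) ((N ^ j) (y b + (N ^ D) (z b))) = S a b
    rw [hexp j a b, pow_zero_of_le hj (by omega : j + 1 ≤ j + D),
      pow_zero_of_le hj (by omega : j + 1 ≤ j + 2 * D)]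
    simp only [LinearMap.zero_apply, hB.zero_right, mul_zero, add_zero]
    exact hy1 a b
  · intro k hk1 hk2 a b
    show B (y a + (N ^ D) (z a)) ((N ^ k) (y b + (N ^ D) (z b))) = 0
    rw [hexp k a b, pow_zero_of_le hj (by omega : j + 1 ≤ k + 2 * D)]
    simp only [LinearMap.zero_apply, hB.zero_right, mul_zero, add_zero]
    by_cases hkk : k = k0
    · subst hkk
      rw [hkD, hT2, hT3, hcsym a b]
      have hcc : B (y a) ((N ^ k0) (y b)) = c a b := rfl
      rw [hcc]
      linear_combination (-(c a b * i2)) * hsign + (-(c a b)) * hi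
    · have hk3 : j - t ≤ k := by omega
      rw [pow_zero_of_le hj (by omega : j + 1 ≤ k + D)]
      simp only [LinearMap.zero_apply, hB.zero_right, mul_zero, add_zero]
      exact hy2 k hk3 hk2 a b

end NormAux

-- PIECE NORMALIZE
theorem exists_normalize {V : Type*} [AddCommGroup V] [Module F V] {B : V → V → F}
    {N : V →ₗ[F] V} (hB : IsSForm (RingHom.id F) (-1) B) (h2 : (2 : F) ≠ 0)
    (hN : IsSkewAdj B N) (j : ℕ) (hj : N ^ (j + 1) = 0) {r : ℕ} (x : Fin r → V)
    (hx : Nondeg (gForm (fun a b : Fin r => B (x a) ((N ^ j) (x b))))) :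
    ∃ y : Fin r → V, (∀ a b, B (y a) ((N ^ j) (y b)) = B (x a) ((N ^ j) (x b))) ∧
      ∀ k, k < j → ∀ a b, B (y a) ((N ^ k) (y b)) = 0 := by
  have key : ∀ t, t ≤ j → ∃ y : Fin r → V,
      (∀ a b, B (y a) ((N ^ j) (y b)) = B (x a) ((N ^ j) (x b))) ∧
      ∀ k, j - t ≤ k → k < j → ∀ a b, B (y a) ((N ^ k) (y b)) = 0 := by
    intro t
    induction t with
    | zero =>
      intro _
      exact ⟨x, fun _ _ => rfl, fun k hk1 hk2 => by omega⟩
    | succ t ih =>
      intro ht
      obtain ⟨y, hy1, hy2⟩ := ih (by omega)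
      exact NormAux.step hB h2 hN j hj _ hx t (by omega) y hy1 hy2
  obtain ⟨y, hy1, hy2⟩ := key j le_rfl
  exact ⟨y, hy1, fun k hk a b => hy2 k (by omega) hk a b⟩

end Cfsg.Agent.Lib.Helper35.Uni
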